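import Cfsg.Agent.Amg.Par

/-! The amalgam method for two parabolics of shape `Q.Sym(3)` with non-central `Ω₁Z(Q)`. -/

set_option linter.unusedSectionVars false
set_option linter.unusedVariables false

namespace CA.Amg
open Subgroup Cfsg CA.FG CA.BG

def St (G : Type*) [Group G] {X : Type*} [MulAction G X] (a : X) : Subgroup G := MulAction.stabilizer G a
def QQ (G : Type*) [Group G] {X : Type*} [MulAction G X] (a : X) : Subgroup G := pCoreOf 2 (St G a)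
def ZZ (G : Type*) [Group G] {X : Type*} [MulAction G X] (a : X) : Subgroup G := OZ (QQ G a)
def TT (G : Type*) [Group G] {X : Type*} [MulAction G X] (a b : X) : Subgroup G := St G a ⊓ St G b

variable {G : Type*} [Group G] [Finite G] {X : Type*} [MulAction G X]

theorem mem_St {a : X} {g : G} : g ∈ St G a ↔ g • a = a := Iff.rfl
theorem St_smul (g : G) (a : X) : St G (g • a) = St G a :^ g :=
  MulAction.stabilizer_smul_eq_stabilizer_map_conj g a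
theorem QQ_smul (g : G) (a : X) : QQ G (g • a) = QQ G a :^ g := by rw [QQ, QQ, St_smul, pCoreOf, pcore_conjg]
theorem ZZ_smul (g : G) (a : X) : ZZ G (g • a) = ZZ G a :^ g := by rw [ZZ, ZZ, QQ_smul, oz_conj]
theorem TT_smul (g : G) (a b : X) : TT G (g • a) (g • b) = TT G a b :^ g := by
  rw [TT, TT, St_smul, St_smul, conjg_inf]
theorem TT_comm (a b : X) : TT G a b = TT G b a := inf_comm _ _
theorem nQQ (a : X) : St G a ≤ 𝒩(QQ G a) := pcore_norm _ _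
theorem nZZ (a : X) : St G a ≤ 𝒩(ZZ G a) := (nQQ a).trans (norm_oz _)

def Sq (Y : Subgroup G) : Subgroup G := closure {x | ∃ y ∈ Y, x = y * y}

theorem sq_le (Y : Subgroup G) : Sq Y ≤ Y := (closure_le _).2 (by rintro _ ⟨y, hy, rfl⟩; exact mul_mem hy hy)
theorem norm_sq (Y : Subgroup G) : 𝒩(Y) ≤ 𝒩(Sq Y) := norm_closure (by
  rintro a ha _ ⟨y, hy, rfl⟩
  exact ⟨a * y * a⁻¹, conj_mem_of_mem_norm ha hy, by group⟩)
theorem ea_of_sq {Y : Subgroup G} (h : Sq Y = ⊥) : EA Y := fun x hx =>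
  mem_bot.1 (h ▸ (subset_closure ⟨x, hx, rfl⟩ : x * x ∈ Sq Y))
theorem sq_le_sq {Y W : Subgroup G} (h : ∀ y ∈ Y, ∃ w ∈ W, y * y = w * w) : Sq Y ≤ Sq W :=
  closure_mono (by rintro _ ⟨y, hy, rfl⟩; exact h y hy)

theorem sq_mul_oz {Q : Subgroup G} {x z : G} (hx : x ∈ Q) (hz : z ∈ OZ Q) : x * x = x * z * (x * z) := by
  calc x * x = x * x * (z * z) := by rw [hz.2.1, mul_one]
    _ = x * (x * z) * z := by group
    _ = x * (z * x) * z := by rw [hz.2.2 x hx]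
    _ = _ := by group

structure Amal (G : Type*) [Group G] {X : Type*} [MulAction G X] (adj : X → X → Prop) : Prop where
  symm : ∀ {a b}, adj a b → adj b a
  inv : ∀ {a b} (g : G), adj a b → adj (g • a) (g • b)
  par : ∀ {a b}, adj a b → Par (St G a) (TT G a b) (QQ G a)
  tr : ∀ {a b c}, adj a b → adj a c → ∃ g ∈ St G a, g • b = c
  o2 : ∀ {a b}, adj a b → ∀ Y ≤ TT G a b, St G a ≤ 𝒩(Y) → St G b ≤ 𝒩(Y) → Y = ⊥
  et : ∀ {a b c d}, adj a b → adj c d → ∃ g : G, g • c = a ∨ g • c = b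

def Wk (adj : X → X → Prop) (q : ℕ → X) : Prop := ∀ i, adj (q i) (q (i + 1))
def wcons (a : X) (q : ℕ → X) : ℕ → X
  | 0 => a
  | n + 1 => q n
def wrev (q : ℕ → X) (n : ℕ) : ℕ → X := fun i => q (Nat.dist n i)
def MinB (G : Type*) [Group G] {X : Type*} [MulAction G X] (adj : X → X → Prop) (b : ℕ) : Prop :=
  ∀ q, Wk adj q → ∀ n < b, ZZ G (q 0) ≤ QQ G (q n)
def Crit (G : Type*) [Group G] {X : Type*} [MulAction G X] (adj : X → X → Prop) (b : ℕ) (q : ℕ → X) : Prop :=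
  Wk adj q ∧ ¬ ZZ G (q 0) ≤ QQ G (q b)
def NN (G : Type*) [Group G] {X : Type*} [MulAction G X] (adj : X → X → Prop) (a : X) : Prop :=
  ∀ b c, adj a b → adj a c → QQ G a ⊓ QQ G b ≤ QQ G c
def NP (G : Type*) [Group G] {X : Type*} [MulAction G X] (adj : X → X → Prop) (a : X) : Prop :=
  ∀ b c, adj a b → adj a c → ZZ G c ≤ ZZ G a ⊔ ZZ G b

theorem Wk.cons {adj : X → X → Prop} {q : ℕ → X} (h : Wk adj q) {a : X} (ha : adj a (q 0)) : Wk adj (wcons a q)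
  | 0 => ha
  | n + 1 => h n

namespace Amal
variable {adj : X → X → Prop} {a b c d e : X} {q : ℕ → X} {n : ℕ}

theorem Q_fix (h : Amal G adj) (hb : adj a b) : QQ G a ≤ St G b := (h.par hb).QT.trans inf_le_right
theorem Q_TT (h : Amal G adj) (hb : adj a b) : QQ G b ≤ TT G a b := TT_comm (G := G) b a ▸ (h.par (h.symm hb)).QT

theorem adj_smul (h : Amal G adj) (hb : adj a b) {g : G} (hg : g ∈ St G a) : adj a (g • b) := by
  have := h.inv g hb
  rwa [mem_St.1 hg] at this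

theorem moves (h : Amal G adj) (hb : adj a b) (hc : adj a c) (ne : c ≠ b) {t : G} (ht : t ∈ TT G a b)
    (nt : t ∉ QQ G a) : t ∉ St G c := by
  intro tc
  obtain ⟨g, hg, rfl⟩ := h.tr hb hc
  have h1 : TT G a b ≤ TT G a b :^ g := by
    rw [← TT_smul, mem_St.1 hg]
    exact le_inf inf_le_left ((h.par hb).T_le (h.Q_fix hc) ht nt tc)
  have h2 := Subgroup.eq_of_le_of_card_ge h1 (by rw [card_conjg])
  exact ne ((h.par hb).mem_T_of_norm hg (conjg_eq_self_iff.1 h2.symm)).2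

theorem gen' (h : Amal G adj) (hb : adj a b) (hc : adj a c) (ne : c ≠ b) {t : G} (ht : t ∈ TT G a b)
    (nt : t ∉ QQ G a) {Y : Subgroup G} (h1 : TT G a c ≤ Y) (h2 : t ∈ Y) : St G a ≤ Y :=
  (h.par hc).le_of_mem h1 ht.1 (fun e => h.moves hb hc ne ht nt e.2) h2

theorem gen (h : Amal G adj) (hb : adj a b) (hc : adj a c) (ne : c ≠ b) {Y : Subgroup G} (h1 : TT G a b ≤ Y)
    (h2 : TT G a c ≤ Y) : St G a ≤ Y := by
  obtain ⟨t, ht, nt⟩ := (h.par hb).ex_t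
  exact h.gen' hb hc ne ht nt h2 (h1 ht)

theorem smul_ne (ne : c ≠ b) {t : G} (ht : t ∈ St G b) : t • c ≠ b := fun e =>
  ne (by rw [← mem_St.1 ht] at e; exact smul_left_cancel t e)

theorem three (h : Amal G adj) (hb : adj a b) (hc : adj a c) (he : adj a e) (nc : c ≠ b) (ne : e ≠ b) {t : G}
    (ht : t ∈ TT G a b) (nt : t ∉ QQ G a) : e = c ∨ e = t • c := by
  have mv := h.moves hb hc nc ht nt
  obtain ⟨g, hg, rfl⟩ := h.tr hb hc
  obtain ⟨l, hl, rfl⟩ := h.tr hb he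
  have ng : g ∉ TT G a b := fun e => nc e.2
  rcases idx3 (h.par hb).i3 hg (mul_mem ht.1 hg) hl ng (fun e => ng (by simpa using mul_mem (inv_mem ht) e))
    (fun e => ne e.2) (fun e => mv (by
      have := mem_St.1 e.2
      rw [mem_St, ← mul_smul]
      rw [mul_smul, inv_smul_eq_iff] at this
      exact this)) with e | e
  · left
    have := mem_St.1 e.2
    rwa [mul_smul, inv_smul_eq_iff] at this
  · right
    have := mem_St.1 e.2
    rwa [mul_smul, inv_smul_eq_iff, mul_smul] at this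

theorem other (h : Amal G adj) (hb : adj a b) : ∃ c, adj a c ∧ c ≠ b := by
  obtain ⟨g, hg, ng⟩ := (h.par hb).ex_g
  exact ⟨g • b, h.adj_smul hb hg, fun e => ng ⟨hg, e⟩⟩

theorem Z_ne (h : Amal G adj) (hb : adj a b) : ZZ G a ≠ ⊥ := by
  obtain ⟨x, hx, nx⟩ := (h.par hb).ex_x
  exact ne_bot_of_mem hx fun e => nx (e ▸ one_mem _)

theorem Q_ne (h : Amal G adj) (hb : adj a b) : ¬ QQ G a ≤ QQ G b := by
  intro e
  have c1 := card_mul_relIndex (h.par hb).QT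
  have c2 := card_mul_relIndex (h.par (h.symm hb)).QT
  rw [(h.par hb).i2] at c1
  rw [(h.par (h.symm hb)).i2, TT_comm] at c2
  have e1 := Subgroup.eq_of_le_of_card_ge e (by omega)
  have := h.o2 hb _ (h.par hb).QT (nQQ a) (e1 ▸ nQQ b)
  exact h.Z_ne hb (le_bot_iff.1 (this ▸ oz_le _))

theorem mem_Q (h : Amal G adj) (hb : adj a b) {x : G} (hx : x ∈ St G a) (hc : ∀ y ∈ ZZ G a, y * x = x * y) :
    x ∈ QQ G a := (h.par hb).cQ ⟨hx, hc⟩

theorem wk_rev (h : Amal G adj) (hq : Wk adj q) (n : ℕ) : Wk adj (wrev q n) := by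
  intro i
  unfold wrev
  rcases lt_or_ge i n with l | l
  · have e1 : Nat.dist n i = Nat.dist n (i + 1) + 1 := by unfold Nat.dist; omega
    rw [e1]; exact h.symm (hq _)
  · have e1 : Nat.dist n (i + 1) = Nat.dist n i + 1 := by unfold Nat.dist; omega
    rw [e1]; exact hq _

theorem wk_alt (h : Amal G adj) (hb : adj a b) : ∃ q, Wk adj q ∧ q 0 = a ∧ q 1 = b := by
  refine ⟨fun i => if i % 2 = 0 then a else b, fun i => ?_, by simp, by simp⟩
  rcases Nat.mod_two_eq_zero_or_one i with e | e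
  · have : (i + 1) % 2 = 1 := by omega
    simpa [e, this] using hb
  · have : (i + 1) % 2 = 0 := by omega
    simpa [e, this] using h.symm hb

theorem exists_crit (h : Amal G adj) (hb : adj a b) : ∃ n q, MinB G adj (n + 1) ∧ Crit G adj (n + 1) q := by
  classical
  have hex : ∃ n, ∃ q, Crit G adj n q := by
    by_contra hn
    push Not at hn
    obtain ⟨p, hp, p0, p1⟩ := h.wk_alt hb
    let K : Subgroup G :=
      { carrier := {x | ∀ q, Wk adj q → q 0 = a → ∀ n, x • q n = q n}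
        one_mem' := fun q _ _ n => one_smul _ _
        mul_mem' := fun {x y} hx hy q hq h0 n => by rw [mul_smul, hy q hq h0, hx q hq h0]
        inv_mem' := fun {x} hx q hq h0 n => by rw [inv_smul_eq_iff, hx q hq h0] }
    have hK : K = ⊥ := by
      refine h.o2 hb K (fun x hx => ⟨?_, ?_⟩) (fun g hg => mem_norm_of_forall fun x hx q hq h0 n => ?_)
        (fun g hg => mem_norm_of_forall fun x hx q hq h0 n => ?_)
      · have := hx p hp p0 0; rwa [p0] at this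
      · have := hx p hp p0 1; rwa [p1] at this
      · have := hx (fun i => g⁻¹ • q i) (fun i => h.inv _ (hq i)) (by
          simp only [h0]; exact mem_St.1 (inv_mem hg)) n
        rw [mul_smul, mul_smul, this, smul_inv_smul]
      · have w1 : Wk adj (fun i => g⁻¹ • q i) := fun i => h.inv _ (hq i)
        have w2 : Wk adj (wcons b fun i => g⁻¹ • q i) := w1.cons (by
          simp only [h0]; exact h.adj_smul (h.symm hb) (inv_mem hg))
        have := hx _ (w2.cons (a := a) hb) rfl (n + 2)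
        simp only [wcons] at this
        rw [mul_smul, mul_smul, this, smul_inv_smul]
    refine h.Z_ne hb (le_bot_iff.1 (hK ▸ fun x hx q hq h0 n => ?_))
    have := hn n q
    rw [Crit, not_and, not_not] at this
    exact pcore_le _ _ (this hq (h0 ▸ hx))
  obtain ⟨q, hq⟩ := Nat.find_spec hex
  have hm : MinB G adj (Nat.find hex) := fun p hp n hn => by
    by_contra e
    exact Nat.find_min hex hn ⟨p, hp, e⟩
  obtain ⟨n, hn⟩ : ∃ n, Nat.find hex = n + 1 := Nat.exists_eq_succ_of_ne_zero fun e => by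
    rw [e] at hq; exact hq.2 (oz_le _)
  rw [hn] at hq hm
  exact ⟨n, q, hm, hq⟩

theorem min_back {m : ℕ} (h : Amal G adj) (hm : MinB G adj m) (hq : Wk adj q) {i j : ℕ} (h1 : j ≤ i) (h2 : i < j + m) :
    ZZ G (q i) ≤ QQ G (q j) := by
  have := hm _ (h.wk_rev hq i) (i - j) (by omega)
  unfold wrev at this
  rwa [show Nat.dist i 0 = i by unfold Nat.dist; omega, show Nat.dist i (i - j) = j by unfold Nat.dist; omega] at this

theorem adjZ (h : Amal G adj) (hm : MinB G adj (n + 2)) (hb : adj a b) : ZZ G a ≤ QQ G b := by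
  obtain ⟨p, hp, p0, p1⟩ := h.wk_alt hb
  have := hm p hp 1 (by omega)
  rwa [p0, p1] at this

theorem k_far (h : Amal G adj) (hm : MinB G adj (n + 1)) (hq : Wk adj q) : ZZ G (q 0) ≤ TT G (q (n + 1)) (q n) :=
  (hm q hq n (by omega)).trans (h.Q_TT (h.symm (hq n)))

theorem k_near (h : Amal G adj) (hm : MinB G adj (n + 1)) (hq : Wk adj q) : ZZ G (q (n + 1)) ≤ TT G (q 0) (q 1) :=
  (h.min_back hm hq (by omega) (by omega)).trans (h.Q_TT (hq 0))

theorem k_symm (h : Amal G adj) (hm : MinB G adj (n + 1)) (hq : Crit G adj (n + 1) q) :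
    ¬ ZZ G (q (n + 1)) ≤ QQ G (q 0) := fun e =>
  hq.2 fun x hx => h.mem_Q (h.symm (hq.1 n)) (h.k_far hm hq.1 hx).1 fun y hy => hx.2.2 y (e hy)

theorem k_rev (h : Amal G adj) (hm : MinB G adj (n + 1)) (hq : Crit G adj (n + 1) q) :
    Crit G adj (n + 1) (wrev q (n + 1)) :=
  ⟨h.wk_rev hq.1 _, by unfold wrev; rw [Nat.dist_self, Nat.dist_zero_right]; exact h.k_symm hm hq⟩

theorem k_r (h : Amal G adj) (hm : MinB G adj (n + 1)) (hq : Crit G adj (n + 1) q) {r : G}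
    (hr : RR (TT G (q 0) (q 1)) (QQ G (q 0)) r) : RR (TT G (q (n + 1)) (q n)) (QQ G (q (n + 1))) r := by
  have hp := h.par (h.symm (hq.1 n))
  obtain ⟨r', hr'⟩ := hp.exists_r
  obtain ⟨x, hx, nx⟩ := SetLike.not_le_iff_exists.1 hq.2
  obtain ⟨y, hy, ny⟩ := SetLike.not_le_iff_exists.1 (h.k_symm hm hq)
  have xf := h.k_far hm hq.1 hx
  have nx' : x ∉ OZ (TT G (q 0) (q 1)) := fun e =>
    nx (h.mem_Q (h.symm (hq.1 n)) xf.1 fun z hz => e.2.2 z (h.k_near hm hq.1 hz))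
  have e1 := hr.2.2 y (h.k_near hm hq.1 hy) ny x hx nx'
  have e2 : x * y * x⁻¹ = y * r := by
    have i1 := inv_of_sq hx.2.1
    have i2 := inv_of_sq hy.2.1
    have i3 := inv_of_sq hr.2.1.2.1
    have e3 : r = x⁻¹ * (y * x * y⁻¹) := by rw [e1]; group
    rw [← i3, e3, i1]
    simp only [mul_inv_rev, i1, i2]
    calc _ = (y * y) * x * y * x := by rw [hy.2.1]; group
      _ = _ := by group
  rwa [hp.r_eq hr' xf hy e2 hr.1]

theorem k_comm (h : Amal G adj) (hm : MinB G adj (n + 1)) (hq : Crit G adj (n + 1) q) {y z : G}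
    (hy : y ∈ ZZ G (q (n + 1))) (hz : z ∈ TT G (q (n + 1)) (q n)) : ∃ w ∈ ZZ G (q 0), y * z * y⁻¹ = w * z := by
  obtain ⟨r, hr⟩ := (h.par (hq.1 0)).exists_r
  have i2 := inv_of_sq hy.2.1
  rcases (h.par (h.symm (hq.1 n))).act (h.k_r hm hq hr) hz hy with e | e
  · exact ⟨1, one_mem _, by rw [← mul_inv_eq_iff_eq_mul.1 e]; group⟩
  · refine ⟨r, (h.par (hq.1 0)).zz hr.2.1, ?_⟩
    calc _ = y⁻¹ * (z * y * z⁻¹) * z := by rw [i2]; group
      _ = _ := by rw [e]; group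

theorem np_smul (h : Amal G adj) (g : G) (ha : NP G adj a) : NP G adj (g • a) := by
  intro b c hb hc
  have hb' := h.inv g⁻¹ hb
  have hc' := h.inv g⁻¹ hc
  rw [inv_smul_smul] at hb' hc'
  have := conjg_mono g (ha _ _ hb' hc')
  rwa [conjg_sup, ← ZZ_smul, ← ZZ_smul, ← ZZ_smul, smul_inv_smul, smul_inv_smul] at this

theorem nn_of_np (h : Amal G adj) (ha : NP G adj a) : NN G adj a := by
  rintro b c hb hc x ⟨xa, xb⟩
  refine h.mem_Q (h.symm hc) (h.Q_fix hc xa) fun y hy => ?_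
  have : ZZ G a ⊔ ZZ G b ≤ 𝒞[x] :=
    sup_le (fun z hz => mem_centralizer_singleton_iff.2 (hz.2.2 x xa).symm)
      fun z hz => mem_centralizer_singleton_iff.2 (hz.2.2 x xb).symm
  exact mem_centralizer_singleton_iff.1 (this (ha b c hb hc hy))

theorem lemA (h : Amal G adj) (hm : MinB G adj (n + 2)) (hq : Crit G adj (n + 2) q) : ¬ NN G adj (q (n + 1)) :=
  fun e => hq.2 ((le_inf (hm q hq.1 _ (by omega)) (hm q hq.1 _ (by omega))).trans
    (e _ _ (h.symm (hq.1 n)) (hq.1 (n + 1))))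

theorem norm_U (h : Amal G adj) (hm : MinB G adj (n + 1)) (hq : Crit G adj (n + 1) q) {y : G}
    (hy : y ∈ ZZ G (q (n + 1))) {W : Subgroup G} (hW : W ≤ TT G (q (n + 1)) (q n)) : y ∈ 𝒩(ZZ G (q 0) ⊔ W) := by
  refine mem_norm_of_conjg_le ?_
  rw [conjg_sup, conjg_of_mem_norm (nZZ _ (h.k_near hm hq.1 hy).1)]
  refine sup_le le_sup_left fun x hx => ?_
  obtain ⟨z, hz, rfl⟩ := mem_conjg'.1 hx
  obtain ⟨w, hw, e⟩ := h.k_comm hm hq hy (hW hz)
  rw [e]; exact mul_mem (mem_sup_left hw) (mem_sup_right hz)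

theorem lemB (h : Amal G adj) (hm : MinB G adj (n + 2)) (hq : Crit G adj (n + 2) q) (hc : adj (q 0) c)
    (ne : c ≠ q 1) : NP G adj (q 0) ∨ Crit G adj (n + 2) (wcons c q) := by
  by_cases e : ZZ G c ≤ QQ G (q (n + 1))
  swap
  · exact Or.inr ⟨hq.1.cons (h.symm hc), e⟩
  left
  obtain ⟨y, hy, ny⟩ := SetLike.not_le_iff_exists.1 (h.k_symm hm hq)
  have hU : St G (q 0) ≤ 𝒩(ZZ G (q 0) ⊔ ZZ G c) :=
    h.gen' (hq.1 0) hc ne (h.k_near hm hq.1 hy) ny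
      (norm_sup (inf_le_left.trans (nZZ _)) (inf_le_right.trans (nZZ _)))
      (h.norm_U hm hq hy (e.trans (h.Q_TT (h.symm (hq.1 (n + 1))))))
  have hE : ∀ b, adj (q 0) b → ZZ G (q 0) ⊔ ZZ G b = ZZ G (q 0) ⊔ ZZ G c := by
    intro b hb
    obtain ⟨g, hg, rfl⟩ := h.tr hc hb
    conv_rhs => rw [← conjg_of_mem_norm (hU hg), conjg_sup, ← ZZ_smul, ← ZZ_smul, mem_St.1 hg]
  intro b b' hb hb'
  rw [hE b hb, ← hE b' hb']
  exact le_sup_right

theorem shift2 (h : Amal G adj) (hm : MinB G adj (n + 2)) (hq : Crit G adj (n + 2) q) (hb : adj (q 0) b)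
    (nb : b ≠ q 1) (hc : adj b c) (nc : c ≠ q 0) : Crit G adj (n + 2) (wcons c (wcons b q)) := by
  have w1 := hq.1.cons (h.symm hb)
  have w2 := w1.cons (a := c) (h.symm hc)
  by_cases hP : ∃ a a', adj a a' ∧ NP G adj a
  swap
  · have h1 := (h.lemB hm hq hb nb).resolve_left fun e => hP ⟨_, _, hb, e⟩
    exact (h.lemB hm h1 hc nc).resolve_left fun e => hP ⟨_, _, hc, e⟩
  obtain ⟨a, a', ha, hP⟩ := hP
  refine ⟨w2, fun e => ?_⟩
  have hN : NN G adj (q n) := by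
    obtain ⟨g, e | e⟩ := h.et (hq.1 n) ha
    · exact e ▸ h.nn_of_np (h.np_smul g hP)
    · exact absurd (e ▸ h.nn_of_np (h.np_smul g hP)) (h.lemA hm hq)
  have e1 : ZZ G c ≤ QQ G (q (n + 1)) :=
    (le_inf e (hm _ w2 (n + 1) (by omega))).trans (hN _ _ (h.symm (w2 (n + 1))) (hq.1 n))
  obtain ⟨y, hy, ny⟩ := SetLike.not_le_iff_exists.1 (h.k_symm hm hq)
  have yU := h.norm_U hm hq hy (e1.trans (h.Q_TT (h.symm (hq.1 (n + 1)))))
  have yT := h.k_near hm hq.1 hy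
  set V : Subgroup G := ⨆ (d : X) (_ : adj b d), ZZ G d with hV
  have lV : ∀ d, adj b d → ZZ G d ≤ V := fun d hd => le_iSup₂_of_le (f := fun d (_ : adj b d) => ZZ G d) d hd le_rfl
  have nV : St G b ≤ 𝒩(V) := fun g hg => mem_norm_of_conjg_le (conjg_le_iff.2 (iSup₂_le fun d hd =>
    conjg_le_iff.1 (ZZ_smul g d ▸ lV _ (h.adj_smul hd hg))))
  obtain ⟨t, ht, nt⟩ := SetLike.not_le_iff_exists.1 (h.Q_ne hb)
  have UV : ZZ G (q 0) ⊔ ZZ G c ≤ V := sup_le (lV _ (h.symm hb)) (lV _ hc)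
  have yV : y ∈ 𝒩(V) := by
    refine mem_norm_of_conjg_le (conjg_le_iff.2 (iSup₂_le fun d hd => conjg_le_iff.1 ?_))
    by_cases e2 : d = q 0
    · rw [e2]; exact (conjg_le_of_mem_norm le_sup_left yU).trans UV
    rcases h.three (h.symm hb) hc hd nc e2 (h.Q_TT (h.symm hb) ht) nt with e3 | e3 <;> rw [e3]
    · exact (conjg_le_of_mem_norm le_sup_right yU).trans UV
    · rw [ZZ_smul, ← conjg_mul, show y * t = (y * t * y⁻¹) * y by group, conjg_mul]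
      exact conjg_le_of_mem_norm ((conjg_le_of_mem_norm le_sup_right yU).trans UV)
        (nV (h.Q_fix hb (conj_mem_of_le_norm (nQQ _) yT.1 ht)))
  have hV0 := h.o2 hb V (iSup₂_le fun d hd => (h.adjZ hm (h.symm hd)).trans (h.Q_TT hb))
    (h.gen' (hq.1 0) hb nb yT ny (inf_le_right.trans nV) yV) nV
  exact h.Z_ne hb (le_bot_iff.1 (hV0 ▸ lV _ (h.symm hb)))

theorem lemC (h : Amal G adj) (hm : MinB G adj (n + 2)) (hq : Crit G adj (n + 2) q) (hb : adj (q 0) b)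
    (nb : b ≠ q 1) (hc : adj b c) (nc : c ≠ q 0) {r : G} (hr : RR (TT G c b) (QQ G c) r) : St G b ≤ 𝒞[r] := by
  obtain ⟨t, ht, nt⟩ := (h.par (h.symm hb)).ex_t
  have h1 := h.shift2 hm hq hb nb hc nc
  have h2 := h.shift2 hm hq hb nb (h.adj_smul hc ht.1) (smul_ne nc ht.2)
  have hr' := hr.conj t
  rw [← TT_smul, ← QQ_smul, mem_St.1 ht.1] at hr'
  have := (h.par (h.symm (h1.1 (n + 1)))).r_uniq (h.k_r hm h1 hr) (h.k_r hm h2 hr')
  refine h.gen' (h.symm hb) hc nc ht nt (fun s hs => mem_centralizer_singleton_iff.2 (hr.2.1.2.2 s (TT_comm (G := G) b c ▸ hs)))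
    (mem_centralizer_singleton_iff.2 (mul_inv_eq_iff_eq_mul.1 this))

theorem lemE (h : Amal G adj) (hm : MinB G adj (n + 3)) (hq : Crit G adj (n + 3) q) : False := by
  obtain ⟨b, hb, nb⟩ := h.other (hq.1 0)
  obtain ⟨t, ht, nt⟩ := (h.par (hq.1 0)).ex_t
  have hb' := h.adj_smul hb ht.1
  have nb' := smul_ne nb ht.2
  obtain ⟨c, hc, nc⟩ := h.other (h.symm hb)
  obtain ⟨c', hc', nc'⟩ := h.other (h.symm hb')
  obtain ⟨r, hr⟩ := (h.par (h.symm hc)).exists_r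
  obtain ⟨r', hr'⟩ := (h.par (h.symm hc')).exists_r
  have h1 := h.shift2 hm hq hb nb hc nc
  have h2 := h.shift2 hm hq hb' nb' hc' nc'
  have e := (h.par (h.symm (h1.1 (n + 2)))).r_uniq (h.k_r hm h1 hr) (h.k_r hm h2 hr')
  have c1 := h.lemC hm hq hb nb hc nc hr
  have c2 := h.lemC hm hq hb' nb' hc' nc' hr'
  rw [e] at c2
  obtain ⟨g, hg, e1⟩ := h.tr hc (h.symm hb)
  have h3 := hr.conj g
  rw [← TT_smul, ← QQ_smul, mem_St.1 hg, e1,
    mul_inv_eq_iff_eq_mul.2 (mem_centralizer_singleton_iff.1 (c1 hg))] at h3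
  exact (h.par hb).r_not_cent h3 (h.gen hb hb' (h.moves (hq.1 0) hb nb ht nt) (inf_le_right.trans c1)
    (inf_le_right.trans c2))

theorem p2 (h : Amal G adj) (hq : Crit G adj 2 q) (hc : adj (q 1) c) (hd : adj (q 1) d) (ne : d ≠ c) :
    ¬ ZZ G c ≤ QQ G d := by
  have key : ∀ g : G, g • q 0 = c → g • q 2 = d → ¬ ZZ G c ≤ QQ G d := by
    rintro g rfl rfl e
    rw [ZZ_smul, QQ_smul, conjg_le_conjg] at e
    exact hq.2 e
  obtain ⟨g, hg, e⟩ := h.tr (h.symm (hq.1 0)) hc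
  have n2 : g • q 2 ≠ c := fun e' => hq.2 (by rw [smul_left_cancel g (e'.trans e.symm)]; exact oz_le _)
  obtain ⟨t, ht, nt⟩ := (h.par hc).ex_t
  rcases h.three hc (h.adj_smul (hq.1 1) hg) hd n2 ne ht nt with e1 | e1
  · exact key g e e1.symm
  · exact key (t * g) (by rw [mul_smul, e]; exact ht.2) (by rw [mul_smul, e1])

theorem sq_norm (h : Amal G adj) (hm : MinB G adj 2) (hq : Crit G adj 2 q) (hc : adj (q 1) c) :
    St G (q 1) ≤ 𝒩(Sq (QQ G c ⊓ QQ G (q 1))) := by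
  have key : ∀ {c d}, adj (q 1) c → adj (q 1) d → d ≠ c → Sq (QQ G c ⊓ QQ G (q 1)) ≤ Sq (QQ G d ⊓ QQ G (q 1)) := by
    intro c d hc hd ne
    refine sq_le_sq fun x hx => ?_
    by_cases xd : x ∈ QQ G d
    · exact ⟨x, ⟨xd, hx.2⟩, rfl⟩
    obtain ⟨z, hz, nz⟩ := SetLike.not_le_iff_exists.1 (h.p2 hq hc hd ne)
    have zq := h.adjZ hm (h.symm hc) hz
    exact ⟨x * z, ⟨idx2_mul (h.par (h.symm hd)).i2 (h.Q_TT (h.symm hd) hx.2) (h.Q_TT (h.symm hd) zq) xd nz,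
      mul_mem hx.2 zq⟩, sq_mul_oz hx.1 hz⟩
  obtain ⟨d, hd, ne⟩ := h.other hc
  have nn : ∀ c, TT G (q 1) c ≤ 𝒩(Sq (QQ G c ⊓ QQ G (q 1))) := fun c =>
    (norm_inf (inf_le_right.trans (nQQ _)) (inf_le_left.trans (nQQ _))).trans (norm_sq _)
  refine h.gen hc hd ne (nn c) ?_
  rw [le_antisymm (key hc hd ne) (key hd hc ne.symm)]
  exact nn d

theorem lem2 (h : Amal G adj) (hm : MinB G adj 2) (hq : Crit G adj 2 q) : False := by
  have h0 := h.symm (hq.1 0)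
  have n1 := h.sq_norm hm hq h0
  have n2 : St G (q 0) ≤ 𝒩(Sq (QQ G (q 0) ⊓ QQ G (q 1))) := by
    obtain ⟨c, hc, nc⟩ := h.other (hq.1 0)
    rcases h.lemB hm hq hc nc with e | e
    · refine le_trans (fun g hg => mem_norm_of_conjg_le ?_) (norm_sq _)
      rw [conjg_inf, ← QQ_smul, ← QQ_smul, mem_St.1 hg]
      exact le_inf inf_le_left (h.nn_of_np e _ _ (h.adj_smul (hq.1 0) hg) (hq.1 0))
    · rw [inf_comm]
      exact h.sq_norm hm e (hq.1 0)
  have hE := ea_of_sq (h.o2 (hq.1 0) _ ((sq_le _).trans (inf_le_left.trans (h.par (hq.1 0)).QT)) n2 n1)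
  obtain ⟨c, hc, nc⟩ := h.other h0
  obtain ⟨t, ht, nt⟩ := (h.par h0).ex_t
  have hd := h.adj_smul hc ht.1
  have nd := smul_ne nc ht.2
  have ncd : t • c ≠ c := h.moves h0 hc nc ht nt
  generalize t • c = d at hd nd ncd
  obtain ⟨x, hx, nx⟩ := SetLike.not_le_iff_exists.1 (h.p2 hq hc h0 nc.symm)
  obtain ⟨y, hy, ny⟩ := SetLike.not_le_iff_exists.1 (h.p2 hq hd h0 nd.symm)
  have xq := h.adjZ hm (h.symm hc) hx
  have yq := h.adjZ hm (h.symm hd) hy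
  have hxy := comm_of_sq hx.2.1 hy.2.1 (hE _
    ⟨idx2_mul (h.par (hq.1 0)).i2 (h.Q_TT (hq.1 0) xq) (h.Q_TT (hq.1 0) yq) nx ny, mul_mem xq yq⟩)
  have key : ∀ {c x}, adj (q 1) c → x ∈ OZ (TT G c (q 1)) → x ∈ QQ G (q 1) → x ∈ QQ G (q 0) := by
    intro c x hc hx xq
    exact h.mem_Q (hq.1 0) (h.Q_fix h0 xq) fun z hz => hx.2.2 z (h.Q_TT (h.symm hc) (h.adjZ hm (hq.1 0) hz))
  have yc : y ∉ QQ G c := by
    intro yc
    obtain ⟨z, hz, nz⟩ := SetLike.not_le_iff_exists.1 (h.p2 hq hc hd ncd)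
    exact ny (key hd ((h.par (h.symm hd)).mem_ozT (h.Q_TT (h.symm hd) (h.adjZ hm (h.symm hc) hz)) nz hy
      (hz.2.2 y yc).symm) yq)
  exact nx (key hc ((h.par (h.symm hc)).mem_ozT (h.Q_TT (h.symm hc) yq) yc hx hxy.symm) xq)

theorem ea (h : Amal G adj) (hb : adj a b) : EA (QQ G a) := by
  obtain ⟨n, q, hm, hq⟩ := h.exists_crit hb
  rcases n with _ | _ | n
  · have key : ∀ {c d}, adj c d → ¬ ZZ G c ≤ QQ G d → Sq (QQ G c) ≤ Sq (QQ G d) := by
      intro c d hd ne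
      refine sq_le_sq fun x hx => ?_
      by_cases xd : x ∈ QQ G d
      · exact ⟨x, xd, rfl⟩
      obtain ⟨z, hz, nz⟩ := SetLike.not_le_iff_exists.1 ne
      exact ⟨x * z, idx2_mul (h.par (h.symm hd)).i2 (h.Q_TT (h.symm hd) hx) (h.Q_TT (h.symm hd) hz.1) xd nz,
        sq_mul_oz hx hz⟩
    have e := le_antisymm (key (hq.1 0) hq.2) (key (h.symm (hq.1 0)) (h.k_symm hm hq))
    have e0 := h.o2 (hq.1 0) _ ((sq_le _).trans (h.par (hq.1 0)).QT) ((nQQ _).trans (norm_sq _))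
      (e ▸ (nQQ _).trans (norm_sq _))
    obtain ⟨g, e1 | e1⟩ := h.et (hq.1 0) hb
    · have := (ea_of_sq e0).conj g⁻¹
      rwa [← QQ_smul, ← e1, inv_smul_smul] at this
    · have := (ea_of_sq (e ▸ e0)).conj g⁻¹
      rwa [← QQ_smul, ← e1, inv_smul_smul] at this
  · exact (h.lem2 hm hq).elim
  · exact (h.lemE hm hq).elim

end Amal

theorem Par.inf_eq {P1 P2 T Q1 Q2 : Subgroup G} (h1 : Par P1 T Q1) (h2 : Par P2 T Q2)
    (ho : ∀ Y ≤ T, P1 ≤ 𝒩(Y) → P2 ≤ 𝒩(Y) → Y = ⊥) : P1 ⊓ P2 = T := by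
  refine (h1.max (le_inf h1.TP h2.TP) inf_le_left).resolve_right fun e => ?_
  rcases h2.max h1.TP (inf_eq_left.1 e) with e1 | e1
  · exact h1.nn (e1 ▸ le_normalizer)
  · obtain ⟨x, hx, nx⟩ := h1.ex_x
    have := ho Q1 h1.QT h1.nQ (e1 ▸ h1.nQ)
    have x1 : x = 1 := mem_bot.1 (this ▸ hx.1)
    exact nx (x1 ▸ one_mem _)

theorem amalgam {P1 P2 T Q1 Q2 : Subgroup G} (h1 : Par P1 T Q1) (h2 : Par P2 T Q2)
    (ho : ∀ Y ≤ T, P1 ≤ 𝒩(Y) → P2 ≤ 𝒩(Y) → Y = ⊥) : EA Q1 := by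
  let X := (G ⧸ P1) ⊕ (G ⧸ P2)
  let u : X := Sum.inl (1 : G)
  let v : X := Sum.inr (1 : G)
  have su : St G u = P1 := by
    ext g
    conv_rhs => rw [← MulAction.stabilizer_quotient P1, MulAction.mem_stabilizer_iff]
    exact Sum.inl_injective.eq_iff
  have sv : St G v = P2 := by
    ext g
    conv_rhs => rw [← MulAction.stabilizer_quotient P2, MulAction.mem_stabilizer_iff]
    exact Sum.inr_injective.eq_iff
  have tt : TT G u v = T := by rw [TT, su, sv, h1.inf_eq h2 ho]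
  have qu : QQ G u = Q1 := by rw [QQ, su, h1.pcore]
  have qv : QQ G v = Q2 := by rw [QQ, sv, h2.pcore]
  have nuv : ∀ g k : G, g • u ≠ k • v := fun g k => Sum.inl_ne_inr
  have o2 : ∀ g : G, ∀ Y ≤ TT G (g • u) (g • v), St G (g • u) ≤ 𝒩(Y) → St G (g • v) ≤ 𝒩(Y) → Y = ⊥ := by
    intro g Y e1 e2 e3
    rw [TT_smul, tt] at e1
    rw [St_smul, su, conjg_le_iff, conjg_norm] at e2
    rw [St_smul, sv, conjg_le_iff, conjg_norm] at e3
    exact conjg_eq_bot.1 (ho _ (le_conjg_iff.1 e1) e2 e3)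
  have tr : ∀ (x y : X) (g k : G), g • x = k • x → ∃ l ∈ St G (g • x), l • g • y = k • y := fun x y g k e =>
    ⟨k * g⁻¹, by rw [mem_St, mul_smul, inv_smul_smul, e], by rw [mul_smul, inv_smul_smul]⟩
  have hA : Amal G fun a b : X => ∃ g : G, (a = g • u ∧ b = g • v) ∨ (a = g • v ∧ b = g • u) := by
    refine ⟨?_, ?_, ?_, ?_, ?_, ?_⟩
    · rintro a b ⟨g, e | e⟩
      exacts [⟨g, Or.inr e.symm⟩, ⟨g, Or.inl e.symm⟩]
    · rintro a b k ⟨g, ⟨rfl, rfl⟩ | ⟨rfl, rfl⟩⟩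
      exacts [⟨k * g, Or.inl ⟨(mul_smul _ _ _).symm, (mul_smul _ _ _).symm⟩⟩,
        ⟨k * g, Or.inr ⟨(mul_smul _ _ _).symm, (mul_smul _ _ _).symm⟩⟩]
    · rintro a b ⟨g, ⟨rfl, rfl⟩ | ⟨rfl, rfl⟩⟩
      · rw [St_smul, TT_smul, QQ_smul, su, tt, qu]; exact h1.conj g
      · rw [St_smul, TT_smul, QQ_smul, sv, TT_comm, tt, qv]; exact h2.conj g
    · rintro a b c ⟨g, ⟨rfl, rfl⟩ | ⟨rfl, rfl⟩⟩ ⟨k, ⟨e, rfl⟩ | ⟨e, rfl⟩⟩
      exacts [tr _ _ _ _ e, absurd e (nuv _ _), absurd e.symm (nuv _ _), tr _ _ _ _ e]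
    · rintro a b ⟨g, ⟨rfl, rfl⟩ | ⟨rfl, rfl⟩⟩ Y e1 e2 e3
      exacts [o2 g Y e1 e2 e3, o2 g Y (e1.trans (TT_comm _ _).le) e3 e2]
    · rintro a b c d ⟨g, ⟨rfl, rfl⟩ | ⟨rfl, rfl⟩⟩ ⟨k, ⟨rfl, -⟩ | ⟨rfl, -⟩⟩ <;>
        exact ⟨g * k⁻¹, by rw [mul_smul, inv_smul_smul]; simp⟩
  have := hA.ea (a := u) (b := v) ⟨1, Or.inl ⟨(one_smul _ _).symm, (one_smul _ _).symm⟩⟩
  rwa [qu] at this

end CA.Amg

theorem CA.realizeEqns_Amg_Gr : True := by
  have := @CA.Amg.Crit.eq_1.{0,0}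
  have := @CA.Amg.Crit.eq_def.{0,0}
  have := @CA.Amg.Crit.congr_simp.{0,0}
  have := @CA.Amg.QQ.eq_1.{0,0}
  have := @CA.Amg.QQ.eq_def.{0,0}
  have := @CA.Amg.QQ.congr_simp.{0,0}
  have := @CA.Amg.Sq.eq_1.{0}
  have := @CA.Amg.Sq.eq_def.{0}
  have := @CA.Amg.Sq.congr_simp.{0}
  have := @CA.Amg.NN.eq_1.{0,0}
  have := @CA.Amg.NN.eq_def.{0,0}
  have := @CA.Amg.NN.congr_simp.{0,0}
  have := @CA.Amg.MinB.eq_1.{0,0}
  have := @CA.Amg.MinB.eq_def.{0,0}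
  have := @CA.Amg.MinB.congr_simp.{0,0}
  have := @CA.Amg.ZZ.eq_1.{0,0}
  have := @CA.Amg.ZZ.eq_def.{0,0}
  have := @CA.Amg.ZZ.congr_simp.{0,0}
  have := @CA.Amg.TT.eq_1.{0,0}
  have := @CA.Amg.TT.eq_def.{0,0}
  have := @CA.Amg.TT.congr_simp.{0,0}
  have := @CA.Amg.Wk.eq_1.{0}
  have := @CA.Amg.Wk.eq_def.{0}
  have := @CA.Amg.Wk.congr_simp.{0}
  have := @CA.Amg.wrev.eq_1.{0}
  have := @CA.Amg.wrev.eq_def.{0}
  have := @CA.Amg.wrev.congr_simp.{0}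
  have := @CA.Amg.wcons.eq_1.{0}
  have := @CA.Amg.wcons.eq_2.{0}
  have := @CA.Amg.wcons.eq_def.{0}
  have := @CA.Amg.wcons.congr_simp.{0}
  have := @CA.Amg.NP.eq_1.{0,0}
  have := @CA.Amg.NP.eq_def.{0,0}
  have := @CA.Amg.NP.congr_simp.{0,0}
  have := @CA.Amg.St.eq_1.{0,0}
  have := @CA.Amg.St.eq_def.{0,0}
  have := @CA.Amg.St.congr_simp.{0,0}
  trivial
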