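import Cfsg.Agent.Amg.Glob
import Cfsg.Agent.Amg.Gr

/-! The structure of the final amalgam. -/

set_option linter.unusedSectionVars false
set_option linter.unusedVariables false

namespace CA.Amg
open Subgroup Cfsg CA.FG CA.BG

variable {G : Type*} [Group G] [Finite G]

theorem Par.bl {P T Q : Subgroup G} (h : Par P T Q) {r a d : G} (hr : RR T Q r) (ha : a ∈ T) (na : a ∉ Q)
    (a2 : a * a = 1) (hd : d ∈ P) (d3 : d ^ 3 = 1) (d1 : d ≠ 1) (hi : a * d * a = d⁻¹) :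
    Bl (ph Q a) (ph Q d) ⟨r, h.zz hr.2.1⟩ ∧ WW P r = WG Q d := by
  have nT := h.TP.trans h.nZ
  have act : ∀ t ∈ T, ∀ v : OZ Q, ph Q t v = v ∨ ph Q t v = v * ⟨r, h.zz hr.2.1⟩ := fun t ht v => by
    rcases h.act hr ht v.2 with e | e
    · left; exact Subtype.ext (by rw [ph_coe (nT ht), e])
    · right; exact Subtype.ext (by rw [ph_coe (nT ht), e]; rfl)
  have tv : Tv (ph Q a) ⟨r, h.zz hr.2.1⟩ := ⟨fun e => hr.1 (congrArg Subtype.val e),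
    (ph_fix_iff (nT ha)).2 (hr.2.1.2.2 a ha), act a ha, fun e => na (h.cQ ⟨h.TP ha, (ph_eq_one (nT ha)).1 e⟩)⟩
  have hb : Bl (ph Q a) (ph Q d) ⟨r, h.zz hr.2.1⟩ := by
    refine tv.bl ?_ (Bl.ord3 (by rw [← ph_pow (h.nZ hd), d3, ph_one])) fun e => d1 ?_
    · rw [← ph_mul (nT ha) (h.nZ hd), ← ph_mul (mul_mem (nT ha) (h.nZ hd)) (nT ha), hi, ph_inv (h.nZ hd)]
    · exact two_elt_ne3 h.pQ d3 (h.cQ ⟨hd, (ph_eq_one (h.nZ hd)).1 e⟩)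
  refine ⟨hb, le_antisymm (WW_le (mem_WG.2 hb.r_mem) ?_) fun w hw => ?_⟩
  · refine h.le_of_mem (fun t ht => norm_WG (nT ht) fun w hw => ?_) hd (h.d_notin d3 d1)
      (norm_WG (h.nZ hd) fun w hw => wd_comm rfl hw)
    rcases act t ht w with e | e <;> rw [e]
    exacts [hw, mul_mem hw hb.r_mem]
  · have m1 := self_mem_WW P r
    have m2 := mem_WW hd r
    rcases hb.WG_cases (h.nZ hd) hw with e1 | e1 | e1 | e1 <;> rw [e1]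
    exacts [one_mem _, m1, m2, mul_mem m1 m2]

theorem EA.oz {Q : Subgroup G} (h : EA Q) {x : G} (hx : x ∈ Q) : x ∈ OZ Q := ⟨hx, h x hx, fun y hy => h.comm hy hx⟩

structure Fn (B P1 Q1 P2 Q2 : Subgroup G) (r : G) : Prop where
  hG : ∀ N : Subgroup G, IsTwoLocal N → Lc N
  g1 : GP B P1 Q1
  g2 : GP B P2 Q2
  o2 : ∀ Y ≤ B, P1 ≤ 𝒩(Y) → P2 ≤ 𝒩(Y) → Y = ⊥
  e1 : EA Q1
  e2 : EA Q2
  r1 : RR B Q1 r
  r2 : RR B Q2 r

theorem Par.nle {B P1 Q1 P2 Q2 : Subgroup G} (h1 : Par P1 B Q1) (h2 : Par P2 B Q2)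
    (o2 : ∀ Y ≤ B, P1 ≤ 𝒩(Y) → P2 ≤ 𝒩(Y) → Y = ⊥) : ¬ Q1 ≤ Q2 := by
  intro e
  have c1 := card_mul_relIndex h1.QT
  have c2 := card_mul_relIndex h2.QT
  rw [h1.i2] at c1
  rw [h2.i2] at c2
  have e1 := Subgroup.eq_of_le_of_card_ge e (by omega)
  obtain ⟨x, hx, nx⟩ := h1.ex_x
  have := o2 _ h1.QT h1.nQ (e1 ▸ h2.nQ)
  have x1 : x = 1 := mem_bot.1 (this ▸ hx.1)
  exact nx (x1 ▸ one_mem _)

theorem exists_fn (hG : ∀ N : Subgroup G, IsTwoLocal N → Lc N) {B P1 Q1 P2 Q2 : Subgroup G} (g1 : GP B P1 Q1)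
    (g2 : GP B P2 Q2) (o2 : ∀ Y ≤ B, P1 ≤ 𝒩(Y) → P2 ≤ 𝒩(Y) → Y = ⊥) : ∃ r, Fn B P1 Q1 P2 Q2 r := by
  have o2' : ∀ Y ≤ B, P2 ≤ 𝒩(Y) → P1 ≤ 𝒩(Y) → Y = ⊥ := fun Y a b c => o2 Y a c b
  have e1 := amalgam g1.1 g2.1 o2
  have e2 := amalgam g2.1 g1.1 o2'
  obtain ⟨r, hr⟩ := g1.1.exists_r
  obtain ⟨r', hr'⟩ := g2.1.exists_r
  refine ⟨r, hG, g1, g2, o2, e1, e2, hr, ?_⟩
  obtain ⟨x, hx, nx⟩ := SetLike.not_le_iff_exists.1 (g1.1.nle g2.1 o2)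
  obtain ⟨y, hy, ny⟩ := SetLike.not_le_iff_exists.1 (g2.1.nle g1.1 o2')
  have k1 := hr.2.2 y (g2.1.QT hy) ny x (e1.oz hx) fun e => nx (g2.1.zz e).1
  have k2 : x * y * x⁻¹ = y * r := by
    have i1 := inv_of_sq (e1 x hx)
    have i2 := inv_of_sq (e2 y hy)
    have i3 := inv_of_sq hr.2.1.2.1
    have e3 : r = x⁻¹ * (y * x * y⁻¹) := by rw [k1]; group
    rw [← i3, e3, i1]
    simp only [mul_inv_rev, i1, i2]
    calc _ = (y * y) * x * y * x := by rw [e2 y hy]; group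
      _ = _ := by group
  rwa [g2.1.r_eq hr' (g1.1.QT hx) (e2.oz hy) k2 hr.1]

namespace Fn
variable {B P1 Q1 P2 Q2 : Subgroup G} {r : G}

theorem symm (F : Fn B P1 Q1 P2 Q2 r) : Fn B P2 Q2 P1 Q1 r :=
  ⟨F.hG, F.g2, F.g1, fun Y a b c => F.o2 Y a c b, F.e2, F.e1, F.r2, F.r1⟩

theorem p1 (F : Fn B P1 Q1 P2 Q2 r) : Par P1 B Q1 := F.g1.1
theorem p2 (F : Fn B P1 Q1 P2 Q2 r) : Par P2 B Q2 := F.g2.1
theorem nle (F : Fn B P1 Q1 P2 Q2 r) : ¬ Q1 ≤ Q2 := F.p1.nle F.p2 F.o2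
theorem rr (F : Fn B P1 Q1 P2 Q2 r) : r * r = 1 := F.r1.2.1.2.1
theorem rZ (F : Fn B P1 Q1 P2 Q2 r) : r ∈ OZ B := F.r1.2.1
theorem cr (F : Fn B P1 Q1 P2 Q2 r) {b : G} (hb : b ∈ B) : b * r = r * b := F.rZ.2.2 b hb
theorem B_le (F : Fn B P1 Q1 P2 Q2 r) {X : Subgroup G} (h1 : Q1 ≤ X) (h2 : Q2 ≤ X) : B ≤ X := by
  obtain ⟨y, hy, ny⟩ := SetLike.not_le_iff_exists.1 F.symm.nle
  exact F.p1.T_le h1 (F.p2.QT hy) ny (h2 hy)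
theorem ZQ (F : Fn B P1 Q1 P2 Q2 r) {z : G} (hz : z ∈ OZ B) : z ∈ Q1 := (F.p1.zz hz).1
theorem mem_Z (F : Fn B P1 Q1 P2 Q2 r) {z : G} (h1 : z ∈ Q1) (h2 : z ∈ Q2) : z ∈ OZ B :=
  ⟨F.p1.QT h1, F.e1 z h1, fun y hy => mem_centralizer_singleton_iff.1 (F.B_le (X := 𝒞[z])
    (fun q hq => mem_centralizer_singleton_iff.2 (F.e1.comm hq h1))
    (fun q hq => mem_centralizer_singleton_iff.2 (F.e2.comm hq h2)) hy)⟩
theorem act (F : Fn B P1 Q1 P2 Q2 r) {t x : G} (ht : t ∈ B) (nt : t ∉ Q1) (hx : x ∈ Q1) (nx : x ∉ Q2) :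
    t * x * t⁻¹ = x * r := F.r1.2.2 t ht nt x (F.e1.oz hx) fun e => nx (F.symm.ZQ e)

theorem sq (F : Fn B P1 Q1 P2 Q2 r) {b : G} (hb : b ∈ B) (n1 : b ∉ Q1) (n2 : b ∉ Q2) : b * b = r := by
  obtain ⟨x, hx, nx⟩ := SetLike.not_le_iff_exists.1 F.nle
  have h1 := idx2_mul F.p2.i2 (F.p1.QT hx) hb nx n2
  have h2 := F.act hb n1 hx nx
  have h3 := F.e2 _ h1
  have x2 := F.e1 x hx
  calc b * b = (x * x) * (b * x * b⁻¹) * (b * x * b⁻¹)⁻¹ * b * b := by rw [x2]; group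
    _ = x * (x * (x * r)) * (b * x * b⁻¹)⁻¹ * b * b := by rw [h2]; group
    _ = x * r * (b * x⁻¹ * b) := by rw [← mul_assoc x x, x2]; group
    _ = r * (x * b * (x * b)) := by rw [inv_of_sq x2, F.cr (F.p1.QT hx)]; group
    _ = r := by rw [h3, mul_one]

theorem fix_r (F : Fn B P1 Q1 P2 Q2 r) {g : G} (hg : g ∈ 𝒩(B)) : g * r * g⁻¹ = r := by
  obtain ⟨x, hx, nx⟩ := SetLike.not_le_iff_exists.1 F.nle
  obtain ⟨y, hy, ny⟩ := SetLike.not_le_iff_exists.1 F.symm.nle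
  have hb := mul_mem (F.p1.QT hx) (F.p2.QT hy)
  have e := F.sq hb (fun e => ny (by simpa using mul_mem (inv_mem hx) e)) (fun e => nx (by simpa using mul_mem e (inv_mem hy)))
  have e1 : g * r * g⁻¹ = g * (x * y) * g⁻¹ * (g * (x * y) * g⁻¹) := by rw [← e]; group
  have n1 : g * r * g⁻¹ ≠ 1 := fun e => F.r1.1 (by simpa using e)
  rw [e1] at n1 ⊢
  exact F.sq (conj_mem_of_mem_norm hg hb) (fun e => n1 (F.e1 _ e)) fun e => n1 (F.e2 _ e)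

theorem inv_mem_Q (F : Fn B P1 Q1 P2 Q2 r) {b : G} (hb : b ∈ B) (h2 : b * b = 1) : b ∈ Q1 ∨ b ∈ Q2 := by
  by_contra hn
  push Not at hn
  exact F.r1.1 ((F.sq hb hn.1 hn.2).symm.trans h2)

theorem ea_le (F : Fn B P1 Q1 P2 Q2 r) {A : Subgroup G} (hA : A ≤ B) (hE : EA A) : A ≤ Q1 ∨ A ≤ Q2 := by
  by_contra hn
  push Not at hn
  obtain ⟨x, hx, nx⟩ := SetLike.not_le_iff_exists.1 hn.1
  obtain ⟨y, hy, ny⟩ := SetLike.not_le_iff_exists.1 hn.2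
  have x2 := (F.inv_mem_Q (hA hx) (hE x hx)).resolve_left nx
  have y1 := (F.inv_mem_Q (hA hy) (hE y hy)).resolve_right ny
  rcases F.inv_mem_Q (hA (mul_mem hx hy)) (hE _ (mul_mem hx hy)) with e | e
  · exact nx (by simpa using mul_mem e (inv_mem y1))
  · exact ny (by simpa using mul_mem (inv_mem x2) e)

theorem am (F : Fn B P1 Q1 P2 Q2 r) : Am B Q2 := by
  obtain ⟨A, hA, nA⟩ : ∃ A, Am B A ∧ ¬ A ≤ Q1 := by
    by_contra hn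
    push Not at hn
    exact F.g1.2.1 (J_le_of hn)
  exact hA.of_card F.p2.QT F.e2 (Subgroup.card_le_of_le ((F.ea_le hA.1 hA.2.1).resolve_left nA))

theorem JB (F : Fn B P1 Q1 P2 Q2 r) : JJ B = B := le_antisymm (J_le B) (F.B_le F.symm.am.le_J F.am.le_J)

theorem good (F : Fn B P1 Q1 P2 Q2 r) {L R : Subgroup G} (hL : IsTwoLocal L) (PL : P1 ≤ L) (pR : IsPGrp 2 R)
    (BR : B ≤ R) (RL : R ≤ L) : R ≤ 𝒩(B) ∧ R ⊓ 𝒞(OZ B) ≤ B := by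
  obtain ⟨e1, e2⟩ := F.g1.2.2 L R hL PL pR (F.JB.le.trans BR) RL
  rw [F.JB] at e1 e2
  exact ⟨le_normalizer.trans ((norm_J R).trans (by rw [e1])),
    (Subgroup.eq_of_le_of_card_ge (le_inf BR (le_cent_oz B)) e2).ge⟩

theorem WQ (F : Fn B P1 Q1 P2 Q2 r) : WW P1 r ≤ Q1 := WW_le (F.ZQ F.rZ) F.p1.nQ

/-- all facts about an inverted element of order 3 -/
theorem exd (F : Fn B P1 Q1 P2 Q2 r) {a : G} (ha : a ∈ Q2) (na : a ∉ Q1) : ∃ d ∈ P1, d ^ 3 = 1 ∧ d ≠ 1 ∧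
    a * d * a = d⁻¹ ∧ d * r * d⁻¹ ∉ Q2 ∧ d⁻¹ * r * d = r * (d * r * d⁻¹) ∧ Nat.card (WW P1 r) = 4 ∧
    (∀ w ∈ WW P1 r, w = 1 ∨ w = r ∨ w = d * r * d⁻¹ ∨ w = r * (d * r * d⁻¹)) ∧
    (∀ c ∈ Q1, d * c = c * d → c ∈ B ⊓ 𝒞(P1)) ∧ Q1 ≤ B ⊓ 𝒞(P1) ⊔ WW P1 r := by
  have aB := F.p2.QT ha
  obtain ⟨d, hd, d3, d1, hi⟩ := F.p1.exists_d aB na (F.e2 a ha)
  obtain ⟨hb, e⟩ := F.p1.bl F.r1 aB na (F.e2 a ha) hd d3 d1 hi
  have nd := F.p1.nZ hd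
  have na' := F.p1.nZ (F.p1.TP aB)
  have k1 : ∀ c ∈ Q1, d * c = c * d → c ∈ B ⊓ 𝒞(P1) := fun c hc hdc => by
    have f1 := (ph_fix_iff na').1 (hb.fix_of_fix ((ph_fix_iff nd (v := ⟨c, F.e1.oz hc⟩)).2 hdc))
    have f2 := F.p1.mem_ozT aB na (F.e1.oz hc) f1
    exact ⟨F.p1.QT hc, mem_cent_iff_le_cent_singleton.2 (F.p1.le_of_mem
      (fun y hy => mem_centralizer_singleton_iff.2 (f2.2.2 y hy)) hd (F.p1.d_notin d3 d1)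
      (mem_centralizer_singleton_iff.2 hdc))⟩
  refine ⟨d, hd, d3, d1, hi, fun h => ?_, ?_, e ▸ hb.card_WG, fun w hw => hb.WG_cases nd (e ▸ hw), k1, fun v hv => ?_⟩
  · have := (ph_fix_iff na' (v := ph Q1 d ⟨r, F.p1.zz F.rZ⟩)).2 (by rw [ph_coe nd]; exact F.e2.comm ha h)
    rw [hb.as] at this
    exact hb.tv.ne (mul_eq_right.1 this)
  · have := congrArg Subtype.val hb.inv_r
    rw [← ph_inv nd, ph_coe (inv_mem nd), inv_inv] at this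
    rw [this, coe_mul, ph_coe nd]
  · set v' : OZ Q1 := ⟨v, F.e1.oz hv⟩
    have f1 := hb.fixc v'
    have f2 := k1 _ (v' * (ph Q1 d v' * ph Q1 d (ph Q1 d v'))).2.1 ((ph_fix_iff nd).1 f1)
    have f3 : ((ph Q1 d v' * ph Q1 d (ph Q1 d v') : OZ Q1) : G) ∈ WW P1 r := e ▸ mem_WG.2 (wd_mem _ _)
    have := mul_mem (mem_sup_left f2 : _ ∈ B ⊓ 𝒞(P1) ⊔ WW P1 r) (mem_sup_right f3)
    rwa [← coe_mul, mul_assoc, e2a, mul_one] at this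

theorem exd' (F : Fn B P1 Q1 P2 Q2 r) : ∃ d ∈ P1, d ^ 3 = 1 ∧ d ≠ 1 ∧
    d * r * d⁻¹ ∉ Q2 ∧ d⁻¹ * r * d = r * (d * r * d⁻¹) ∧ Nat.card (WW P1 r) = 4 ∧
    (∀ w ∈ WW P1 r, w = 1 ∨ w = r ∨ w = d * r * d⁻¹ ∨ w = r * (d * r * d⁻¹)) ∧
    (∀ c ∈ Q1, d * c = c * d → c ∈ B ⊓ 𝒞(P1)) ∧ Q1 ≤ B ⊓ 𝒞(P1) ⊔ WW P1 r := by
  obtain ⟨a, ha, na⟩ := SetLike.not_le_iff_exists.1 F.symm.nle
  obtain ⟨d, h1, h2, h3, -, h4⟩ := F.exd ha na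
  exact ⟨d, h1, h2, h3, h4⟩

theorem cardW (F : Fn B P1 Q1 P2 Q2 r) : Nat.card (WW P1 r) = 4 := by
  obtain ⟨d, -, -, -, -, -, h, -⟩ := F.exd'; exact h

theorem W_conj (F : Fn B P1 Q1 P2 Q2 r) {w : G} (hw : w ∈ WW P1 r) : w = 1 ∨ ∃ g ∈ P1, w = g * r * g⁻¹ := by
  obtain ⟨d, hd, -, -, -, h1, -, h2, -⟩ := F.exd'
  rcases h2 w hw with e | e | e | e
  exacts [Or.inl e, Or.inr ⟨1, one_mem _, by simpa using e⟩, Or.inr ⟨d, hd, e⟩,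
    Or.inr ⟨d⁻¹, inv_mem hd, by rw [inv_inv, h1, e]⟩]

theorem WZ (F : Fn B P1 Q1 P2 Q2 r) {w : G} (hw : w ∈ WW P1 r) (h2 : w ∈ Q2) : w = 1 ∨ w = r := by
  obtain ⟨d, hd, -, -, h1, -, -, h3, -⟩ := F.exd'
  rcases h3 w hw with e | e | e | e
  exacts [Or.inl e, Or.inr e, absurd (e ▸ h2) h1,
    absurd (by simpa [e] using mul_mem (inv_mem (F.symm.ZQ F.rZ)) h2) h1]

theorem exW (F : Fn B P1 Q1 P2 Q2 r) : ∃ s ∈ WW P1 r, s ∉ Q2 := by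
  obtain ⟨d, hd, -, -, h1, -⟩ := F.exd'
  exact ⟨_, mem_WW hd r, h1⟩

theorem CZ (F : Fn B P1 Q1 P2 Q2 r) {c : G} (hc : c ∈ B ⊓ 𝒞(P1)) : c ∈ OZ B :=
  ⟨hc.1, F.e1 c (F.p1.cQ ⟨F.p1.TP hc.1, fun y hy => hc.2 y (F.p1.QP hy.1)⟩), fun y hy => hc.2 y (F.p1.TP hy)⟩

theorem rC (F : Fn B P1 Q1 P2 Q2 r) : r ∉ B ⊓ 𝒞(P1) := fun e =>
  F.p1.r_not_cent F.r1 (mem_cent_iff_le_cent_singleton.1 e.2)

theorem dec (F : Fn B P1 Q1 P2 Q2 r) {X : Subgroup G} (hX : X ≤ P1) {y : G} (hy : y ∈ B ⊓ 𝒞(P1) ⊔ X) :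
    ∃ c ∈ B ⊓ 𝒞(P1), ∃ x ∈ X, c * x = y :=
  (mem_sup_of_left_le_norm (norm_of_cent (inf_le_right.trans (cent_anti hX)))).1 hy

theorem WP (F : Fn B P1 Q1 P2 Q2 r) : WW P1 r ≤ P1 := F.WQ.trans F.p1.QP

theorem Zc (F : Fn B P1 Q1 P2 Q2 r) {z : G} (hz : z ∈ OZ B) : z ∈ B ⊓ 𝒞(P1) ∨ z * r ∈ B ⊓ 𝒞(P1) := by
  obtain ⟨d, -, -, -, -, -, -, -, -, h⟩ := F.exd'
  obtain ⟨c, hc, w, hw, rfl⟩ := F.dec F.WP (h (F.ZQ hz))
  rcases F.WZ hw (by simpa using mul_mem (inv_mem (F.symm.ZQ (F.CZ hc))) (F.symm.ZQ hz)) with e | e <;> rw [e]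
  · left; simpa using hc
  · right; rwa [mul_assoc, F.rr, mul_one]

theorem CC (F : Fn B P1 Q1 P2 Q2 r) {c : G} (h1 : c ∈ B ⊓ 𝒞(P1)) (h2 : c ∈ B ⊓ 𝒞(P2)) : c = 1 :=
  zpowers_eq_bot.1 (F.o2 _ (zpowers_le.2 h1.1) (norm_zpowers_of_cent (mem_cent_iff_le_cent_singleton.1 h1.2))
    (norm_zpowers_of_cent (mem_cent_iff_le_cent_singleton.1 h2.2)))

theorem Cr (F : Fn B P1 Q1 P2 Q2 r) {c : G} (h1 : c ∈ B ⊓ 𝒞(P1)) (c1 : c ≠ 1) : c * r ∈ B ⊓ 𝒞(P2) :=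
  (F.symm.Zc (F.CZ h1)).resolve_left fun e => c1 (F.CC h1 e)

theorem Cu (F : Fn B P1 Q1 P2 Q2 r) {c c' : G} (h1 : c ∈ B ⊓ 𝒞(P1)) (h2 : c' ∈ B ⊓ 𝒞(P1)) (c1 : c ≠ 1) :
    c' = 1 ∨ c' = c := by
  by_cases c2 : c' = 1
  · exact Or.inl c2
  right
  have := F.CC (mul_mem h2 (inv_mem h1)) (by simpa using mul_mem (F.Cr h2 c2) (inv_mem (F.Cr h1 c1)))
  exact mul_inv_eq_one.1 this

/-- an element of `N(B)` normalising `C₁` centralises `Z` -/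
theorem cent_Z (F : Fn B P1 Q1 P2 Q2 r) {q : G} (hq : q ∈ 𝒩(B))
    (h : ∀ c ∈ B ⊓ 𝒞(P1), q * c * q⁻¹ ∈ B ⊓ 𝒞(P1)) : q ∈ 𝒞(OZ B) := by
  have k : ∀ c ∈ B ⊓ 𝒞(P1), q * c * q⁻¹ = c := fun c hc => by
    by_cases c1 : c = 1
    · simp [c1]
    · exact (F.Cu hc (h c hc) c1).resolve_left fun e => c1 (by simpa using e)
  intro z hz
  refine (mul_inv_eq_iff_eq_mul.1 ?_).symm
  rcases F.Zc hz with e | e
  · exact k z e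
  · have := k _ e
    rw [← conj_mul, F.fix_r hq] at this
    exact mul_right_cancel this

theorem ulem (F : Fn B P1 Q1 P2 Q2 r) {X : Subgroup G} (pX : IsPGrp 2 X) (h : P1 ≤ 𝒩(X)) : X ≤ Q1 := by
  by_cases X0 : X = ⊥
  · rw [X0]; exact bot_le
  have BX := F.p1.TP.trans h
  obtain ⟨k1, k2⟩ := F.good (loc_mk pX X0) h (IsPiGrp.sup F.p1.pT pX (Or.inl BX)) le_sup_left
    (sup_le BX le_normalizer)
  have nB : X ≤ 𝒩(B) := le_sup_right.trans k1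
  refine F.p1.le_Q pX (fun q hq => F.p1.TP (k2 ⟨mem_sup_right hq, F.cent_Z (nB hq) fun c hc => ?_⟩)) h
  obtain ⟨d, hd, -, -, h1, -⟩ := F.exd'
  have m1 := conj_mem_of_mem_norm (norm_oz B (nB hq)) (F.CZ hc)
  have m2 := conj_mem_of_mem_norm (norm_oz B (nB (conj_mem_of_le_norm h hd hq))) (F.CZ hc)
  refine (F.Zc m1).resolve_right fun e => h1 ?_
  have e1 : d * q * d⁻¹ * c * (d * q * d⁻¹)⁻¹ = d * (q * c * q⁻¹ * r) * d⁻¹ * (d * r * d⁻¹) := by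
    calc _ = d * q * (d⁻¹ * c * d) * q⁻¹ * d⁻¹ := by group
      _ = d * q * c * q⁻¹ * (r * r) * d⁻¹ := by rw [hc.2 _ (inv_mem hd), F.rr]; group
      _ = _ := by group
  rw [e1, mul_inv_eq_iff_eq_mul.2 (e.2 d hd)] at m2
  exact F.symm.ZQ ((Subgroup.mul_mem_cancel_left _ (F.CZ e)).1 m2)

theorem normW (F : Fn B P1 Q1 P2 Q2 r) : 𝒩(WW P1 r) ≤ P1 := by
  have pW : IsPGrp 2 (WW P1 r) := F.p1.pQ.of_le F.WQ
  have hL := F.hG _ (loc_mk pW (ne_bot_of_mem (self_mem_WW P1 r) F.r1.1))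
  have k1 := F.ulem (pcore_pGrp 2 𝒩(WW P1 r)) ((norm_WW P1 r).trans (pcore_norm _ _))
  have k2 : pCoreOf 2 𝒩(WW P1 r) = Q1 := le_antisymm k1 ((F.e1.cent.trans (cent_anti k1)).trans hL.cQ)
  have k3 : 𝒩(WW P1 r) ≤ 𝒩(Q1) := k2 ▸ pcore_norm _ _
  have k4 : 𝒞(Q1) ≤ Q1 := k2 ▸ hL.cQ
  obtain ⟨d, hd, -, -, h1, -, -, h2, -, h3⟩ := F.exd'
  have k5 : 𝒞(WW P1 r) ≤ Q1 := by
    refine F.ulem (pGrp_of_forall_pow (k := 2) Nat.prime_two fun g hg => ?_) (norm_cent (norm_WW P1 r))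
    have gN := cent_le_norm _ hg
    have fw : ∀ w ∈ WW P1 r, g * w * g⁻¹ = w := fun w hw => mul_inv_eq_iff_eq_mul.2 (hg w hw).symm
    have : g * g ∈ Q1 := by
      refine k4 fun v hv => (mul_inv_eq_iff_eq_mul.1 ?_).symm
      obtain ⟨c, hc, w, hw, rfl⟩ := F.dec F.WP (h3 hv)
      have e0 : g * g * (c * w) * (g * g)⁻¹ = g * (g * c * g⁻¹) * g⁻¹ * (g * (g * w * g⁻¹) * g⁻¹) := by group
      rw [e0, fw w hw, fw w hw, mul_left_inj]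
      by_cases c1 : c = 1
      · simp [c1]
      obtain ⟨c', hc', w', hw', e⟩ := F.dec F.WP (h3 (conj_mem_of_mem_norm (k3 gN) (F.ZQ (F.CZ hc))))
      rcases F.Cu hc hc' c1 with e1 | e1 <;> rw [e1] at e
      · have cW : c ∈ WW P1 r := by
          have := conj_mem_of_mem_norm' gN hw'
          rw [← one_mul w', e] at this
          simpa [mul_assoc] using this
        rw [fw c cW, fw c cW]
      · rw [← e, ← conj_mul, ← e, fw w' hw', mul_assoc, F.e1 _ (F.WQ hw'), mul_one]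
    rw [show g ^ 2 ^ 2 = g * g * (g * g) by simp [pow_succ, mul_assoc], F.e1 _ this]
  have sW := mem_WW hd r
  have sQ := F.WQ sW
  have k6 : ∀ g ∈ 𝒩(WW P1 r), g * r * g⁻¹ = r → g * (d * r * d⁻¹) * g⁻¹ = d * r * d⁻¹ → g ∈ P1 := by
    intro g hg e1 e2
    refine F.p1.QP (k5 fun w hw => (mul_inv_eq_iff_eq_mul.1 ?_).symm)
    rcases h2 w hw with e | e | e | e <;> rw [e]
    · simp
    · exact e1
    · exact e2
    · rw [← conj_mul, e1, e2]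
  have k7 : ∀ g ∈ 𝒩(WW P1 r), g * r * g⁻¹ = r → g ∈ P1 := by
    intro g hg e1
    have ne : ∀ {x y}, g * x * g⁻¹ = g * y * g⁻¹ → x = y := fun e => by simpa using e
    rcases h2 _ (conj_mem_of_mem_norm hg sW) with e | e | e | e
    · exact absurd (by rw [ne (y := 1) (e.trans (by simp))]; exact one_mem Q2) h1
    · exact absurd (by rw [ne (e.trans e1.symm)]; exact F.symm.ZQ F.rZ) h1
    · exact k6 g hg e1 e
    · obtain ⟨t, ht, nt⟩ := F.p1.ex_t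
      have tP := F.p1.TP ht
      have := k6 (t⁻¹ * g) (mul_mem (inv_mem (norm_WW P1 r tP)) hg) (by
        calc _ = t⁻¹ * (g * r * g⁻¹) * t := by group
          _ = r := by rw [e1, mul_assoc, ← F.cr ht]; group) (by
        calc _ = t⁻¹ * (g * (d * r * d⁻¹) * g⁻¹) * t := by group
          _ = _ := by rw [e, ← F.cr (F.p1.QT sQ), ← F.act ht nt sQ h1]; group)
      simpa using mul_mem tP this
  intro g hg
  rcases F.W_conj (conj_mem_of_mem_norm hg (self_mem_WW P1 r)) with e | ⟨p, hp, e⟩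
  · exact absurd (by simpa using e) F.r1.1
  · have := k7 (p⁻¹ * g) (mul_mem (inv_mem (norm_WW P1 r hp)) hg) (by
      calc _ = p⁻¹ * (g * r * g⁻¹) * p := by group
        _ = r := by rw [e]; group)
    simpa using mul_mem hp this

end Fn
end CA.Amg
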