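import Cfsg.Agent.Amg.Loc
import Cfsg.Prelude.Def_CaseTheorems
import Cfsg.Prelude.Def_Involutions

/-! Reduction to an amalgam of two parabolics. -/

set_option linter.unusedSectionVars false
set_option linter.unusedVariables false

namespace CA.Amg
open Subgroup Cfsg CA.FG CA.BG

variable {G : Type*} [Group G] [Finite G]

theorem loc_mk {X : Subgroup G} (hX : IsPGrp 2 X) (h0 : X ≠ ⊥) : IsTwoLocal 𝒩(X) :=
  ⟨X, hX.isPGroup Nat.prime_two, h0, rfl⟩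

theorem loc_conj {L : Subgroup G} (h : IsTwoLocal L) (g : G) : IsTwoLocal (L :^ g) := by
  obtain ⟨X, hX, h0, rfl⟩ := h
  rw [conjg_norm]
  exact loc_mk ((pGrp_of_isPGroup Nat.prime_two hX).conjg g) (fun e => h0 (conjg_eq_bot.1 e))

theorem maxloc_conj {M : Subgroup G} (h : IsMaximalTwoLocal M) (g : G) : IsMaximalTwoLocal (M :^ g) :=
  ⟨loc_conj h.1 g, fun N hN le => by
    rw [← h.2 _ (loc_conj hN g⁻¹) (conjg_le_iff.1 le), conjg_cancel_inv]⟩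

theorem exists_maxloc {L : Subgroup G} (h : IsTwoLocal L) : ∃ M, IsMaximalTwoLocal M ∧ L ≤ M := by
  obtain ⟨M, h1, h2, h3⟩ := exists_max_subgroup (P := IsTwoLocal) h
  exact ⟨M, ⟨h2, h3⟩, h1⟩

theorem le_pcore_norm {X : Subgroup G} (hX : IsPGrp 2 X) : X ≤ pCoreOf 2 𝒩(X) := pcore_max ⟨le_normalizer, le_rfl⟩ hX

theorem lc_of (hL : IsCharacteristicTwoType G) (hN : ∀ N : Subgroup G, IsTwoLocal N → Group.IsSolvable N)
    (hZ : ∀ S : Sylow 2 G, centralizer {z : G | z ∈ (S : Subgroup G) ∧ z ^ 2 = 1 ∧ ∀ s ∈ (S : Subgroup G),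
      s * z = z * s} ≤ normalizer ((S : Subgroup G) : Set G)) (N : Subgroup G) (h : IsTwoLocal N) : Lc N := by
  refine ⟨hN N h, ?_, fun S hS => ?_⟩
  · obtain ⟨X, hX, h0, rfl⟩ := h
    intro x hx
    have xN : x ∈ 𝒩(X) := cent_le_norm X (cent_anti (le_pcore_norm (pGrp_of_isPGroup Nat.prime_two hX)) hx)
    rw [← pCore_map_subtype Nat.prime_two] at hx ⊢
    exact ⟨⟨x, xN⟩, hL.2 X hX h0 fun y hy => Subtype.ext (hx y ⟨y, hy, rfl⟩), rfl⟩
  · obtain ⟨S, rfl⟩ := hS.exists_sylow_top Nat.prime_two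
    refine le_trans (centralizer_le fun z hz => ?_) (hZ S)
    exact ⟨hz.1, by rw [← pow_two, hz.2.1], hz.2.2⟩

def Good (B P : Subgroup G) : Prop := ∀ L R : Subgroup G, IsTwoLocal L → P ≤ L → IsPGrp 2 R → JJ B ≤ R → R ≤ L →
  JJ R = JJ B ∧ Nat.card (R ⊓ 𝒞(OZ (JJ B)) : Subgroup G) ≤ Nat.card B

def GP (B P Q : Subgroup G) : Prop := Par P B Q ∧ ¬ JJ B ≤ Q ∧ Good B P

theorem GP.conj {B P Q : Subgroup G} (h : GP B P Q) {g : G} (hg : g ∈ 𝒩(B)) : GP B (P :^ g) (Q :^ g) := by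
  have eB := conjg_of_mem_norm hg
  have eJ := conjg_of_mem_norm (norm_J B hg)
  have eJ' := conjg_of_mem_norm (inv_mem (norm_J B hg))
  refine ⟨eB ▸ h.1.conj g, fun e => h.2.1 (conjg_le_conjg.1 (eJ.le.trans e)), fun L R hL PL pR JR RL => ?_⟩
  obtain ⟨e1, e2⟩ := h.2.2 (L :^ g⁻¹) (R :^ g⁻¹) (loc_conj hL _) (conjg_le_iff.1 PL) (pR.conjg _)
    (eJ'.ge.trans (conjg_mono _ JR)) (conjg_mono _ RL)
  refine ⟨?_, ?_⟩
  · rw [← J_conj, ← eJ', conjg_inj] at e1; exact e1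
  · rwa [← eJ', ← oz_conj, ← conjg_cent, ← conjg_inf, card_conjg] at e2

theorem GP.use2 (hG : ∀ N : Subgroup G, IsTwoLocal N → Lc N) {B P Q P' Q' X : Subgroup G} (h : GP B P Q)
    (h' : GP B P' Q') (pX : IsPGrp 2 X) (h0 : X ≠ ⊥) (h1 : P ≤ 𝒩(X)) (h2 : P' ≤ 𝒩(X)) {r : G} (hr : RR B Q r) :
    P' ≤ 𝒩(WW P r) := by
  have hL := loc_mk pX h0
  have BL := h.1.TP.trans h1
  refine (hG _ hL).use2 h.1 h'.1 h1 h2 ?_ h.2.1 h'.2.1 hr
  rw [(h.2.2 _ _ hL h1 (Lc.p_sup h.1.pT BL) ((J_le B).trans le_sup_left) (sup_le BL (Lc.QL _))).1]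
  exact J_le B

theorem dichot (hG : ∀ N : Subgroup G, IsTwoLocal N → Lc N) {B : Subgroup G} (pB : IsPGrp 2 B) (h0 : B ≠ ⊥) :
    (∃ P1 Q1 P2 Q2, GP B P1 Q1 ∧ GP B P2 Q2 ∧ ∀ Y ≤ B, P1 ≤ 𝒩(Y) → P2 ≤ 𝒩(Y) → Y = ⊥) ∨
      ∃ M, IsMaximalTwoLocal M ∧ 𝒩(B) ≤ M ∧ ∀ P Q, GP B P Q → P ≤ M := by
  by_cases hex : ∃ P Q, GP B P Q
  swap
  · obtain ⟨M, hM, le⟩ := exists_maxloc (loc_mk pB h0)
    exact Or.inr ⟨M, hM, le, fun P Q h => absurd ⟨P, Q, h⟩ hex⟩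
  rw [or_iff_not_imp_left]
  intro hn
  push Not at hn
  set X : Subgroup G := ⨆ (P : Subgroup G) (Q : Subgroup G) (r : G) (_ : GP B P Q ∧ RR B Q r), WW P r with hX
  have lX : ∀ P Q r, GP B P Q → RR B Q r → WW P r ≤ X := fun P Q r h hr =>
    le_iSup_of_le P (le_iSup_of_le Q (le_iSup_of_le r (le_iSup_of_le ⟨h, hr⟩ le_rfl)))
  have Xl : ∀ Y, (∀ P Q r, GP B P Q → RR B Q r → WW P r ≤ Y) → X ≤ Y := fun Y h =>
    iSup_le fun P => iSup_le fun Q => iSup_le fun r => iSup_le fun h' => h P Q r h'.1 h'.2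
  have XB : X ≤ B := Xl B fun P Q r h hr => (WW_le (h.1.zz hr.2.1).1 h.1.nQ).trans h.1.QT
  obtain ⟨P, Q, h⟩ := hex
  obtain ⟨r, hr⟩ := h.1.exists_r
  obtain ⟨M, hM, le⟩ := exists_maxloc (loc_mk (pB.of_le XB) (ne_bot_of_mem (lX P Q r h hr (self_mem_WW P r)) hr.1))
  refine ⟨M, hM, le_trans (fun g hg => mem_norm_of_conjg_le (conjg_le_iff.2 (Xl _ fun P Q r h hr =>
    conjg_le_iff.1 ((WW_conj P r g).trans (lX _ _ _ (h.conj hg) ?_))))) le, fun P' Q' h' => le_trans ?_ le⟩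
  · have := hr.conj g
    rwa [conjg_of_mem_norm hg] at this
  · refine norm_iSup fun P => norm_iSup fun Q => norm_iSup fun r => norm_iSup fun h => ?_
    obtain ⟨Y, YB, n1, n2, Y0⟩ := hn P Q P' Q' h.1 h'
    exact h.1.use2 hG h' (pB.of_le YB) Y0 n1 n2 h.2

def Two (R : Subgroup G) : Prop := IsPGrp 2 R ∧ R ≠ ⊥ ∧
  ∃ M1 M2, IsMaximalTwoLocal M1 ∧ IsMaximalTwoLocal M2 ∧ M1 ≠ M2 ∧ R ≤ M1 ∧ R ≤ M2

theorem exists_two (he : Even (Nat.card G)) (hO : pCore 2 G = ⊥) (hs : ¬ ∃ K : Subgroup G, IsStronglyEmbedded K) :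
    ∃ R : Subgroup G, Two R := by
  obtain ⟨S, hS⟩ := sylow_exists Nat.prime_two (⊤ : Subgroup G)
  have S0 := hS.ne_bot' Nat.prime_two (by rw [card_top]; exact he.two_dvd)
  obtain ⟨M, hM, le⟩ := exists_maxloc (loc_mk hS.pGrp S0)
  by_contra hn
  refine hs ⟨M, fun e => ?_, ?_, fun g hg => ?_⟩
  · obtain ⟨X, hX, h0, e1⟩ := hM.1
    have := le_pcore_norm (pGrp_of_isPGroup Nat.prime_two hX)
    rw [← e1, e, ← pCore_eq_top Nat.prime_two, hO] at this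
    exact h0 (le_bot_iff.1 this)
  · exact even_iff_two_dvd.2 ((hS.pGrp.dvd_card S0).trans (card_dvd_of_le (le_normalizer.trans le)))
  · by_contra ho
    rw [Nat.not_odd_iff_even] at ho
    obtain ⟨X, hX, c⟩ := exists_le_card_eq_prime Nat.prime_two ho.two_dvd
    refine hn ⟨X, pGrp_of_card_eq Nat.prime_two c, ne_bot_of_card_prime (c ▸ Nat.prime_two), M, M :^ g, hM,
      maxloc_conj hM g, fun e => hg ?_, hX.trans inf_le_left, hX.trans inf_le_right⟩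
    obtain ⟨Y, hY, h0, e1⟩ := hM.1
    have l1 := le_pcore_norm (pGrp_of_isPGroup Nat.prime_two hY)
    rw [← e1] at l1
    rw [← hM.2 _ (loc_mk (pcore_pGrp 2 M) (ne_bot_mono l1 h0)) (pcore_norm _ M)]
    exact norm_pcore _ le_rfl (conjg_eq_self_iff.1 e.symm)

theorem exists_opt {R0 : Subgroup G} (h0 : Two R0) : ∃ T : Subgroup G, Two T ∧ (∀ R, Two R → T ≤ R → R = T) ∧
    ∀ R, Two R → JJ T ≤ R → JJ R = JJ T ∧ Nat.card (Bm R) ≤ Nat.card (Bm T) := by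
  obtain ⟨T, hT, hm⟩ := Set.exists_max_image {R : Subgroup G | Two R}
    (fun R => toLex (mm R, toLex (Nat.card (JJ R), toLex (Nat.card (Bm R), Nat.card R)))) (Set.toFinite _) ⟨R0, h0⟩
  have key : ∀ R, Two R → JJ T ≤ R → JJ R = JJ T ∧
      toLex (Nat.card (Bm R), Nat.card R) ≤ toLex (Nat.card (Bm T), Nat.card T) := by
    intro R hR le
    have h1 := mm_mono le
    rw [mm_J] at h1
    rcases Prod.Lex.toLex_le_toLex.1 (hm R hR) with e | ⟨e, e'⟩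
    · simp only at e; omega
    have h2 := J_mono_of_mm le (by rw [mm_J]; exact le_of_eq e)
    rw [J_J] at h2
    have h3 := Subgroup.card_le_of_le h2
    rcases Prod.Lex.toLex_le_toLex.1 e' with e1 | ⟨e1, e2⟩
    · simp only at e1; omega
    · exact ⟨(Subgroup.eq_of_le_of_card_ge h2 (le_of_eq e1)).symm, e2⟩
  refine ⟨T, hT, fun R hR le => ?_, fun R hR le => ⟨(key R hR le).1, ?_⟩⟩
  · obtain ⟨e1, e2⟩ := key R hR ((J_le T).trans le)
    have h3 : Bm T ≤ Bm R := by rw [Bm, Bm, e1]; exact inf_le_inf_right _ le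
    have h4 := Subgroup.card_le_of_le h3
    rcases Prod.Lex.toLex_le_toLex.1 e2 with e | ⟨-, e⟩
    · simp only at e; omega
    · exact (Subgroup.eq_of_le_of_card_ge le e).symm
  · rcases Prod.Lex.toLex_le_toLex.1 (key R hR le).2 with e | ⟨e, -⟩
    exacts [le_of_lt e, le_of_eq e]

theorem exists_amalgam (hG : ∀ N : Subgroup G, IsTwoLocal N → Lc N) {R0 : Subgroup G} (h0 : Two R0) :
    ∃ B P1 Q1 P2 Q2 : Subgroup G, GP B P1 Q1 ∧ GP B P2 Q2 ∧ ∀ Y ≤ B, P1 ≤ 𝒩(Y) → P2 ≤ 𝒩(Y) → Y = ⊥ := by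
  obtain ⟨T, ⟨pT, T0, M1, M2, hM1, hM2, ne, l1, l2⟩, t1, t2⟩ := exists_opt h0
  have J0 := J_ne_bot pT T0
  have pJ : IsPGrp 2 (JJ T) := pT.of_le (J_le T)
  rcases dichot hG (pT.of_le (bm_le T)) (ne_bot_mono (J_le_bm T) J0) with h | ⟨M, hM, nM, gM⟩
  · exact ⟨_, h⟩
  exfalso
  by_cases hS : IsSylowOf 2 T ⊤
  · have k1 : 𝒞(OZ (JJ T)) ≤ 𝒩(T) := (cent_anti (oz_le_oz_J T)).trans ((hG _ hM.1).hZ T hS)
    have k2 : IsSylowOf 2 (Bm T) 𝒞(OZ (JJ T)) := IsPiHallOf.inf_of_norm hS le_top (Or.inr k1)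
    have k3 : 𝒞(OZ (JJ T)) ≤ 𝒩(Bm T) := k1.trans (norm_bm T)
    have k4 : 𝒩(JJ T) ≤ M := ((norm_cent (norm_oz _)).trans (IsPiHallOf.norm_le_norm k2 k3)).trans nM
    have gd : ∀ P, Good (Bm T) P := by
      intro P L R _ _ pR JR _
      rw [J_bm] at JR ⊢
      obtain ⟨x, -, hx⟩ := sylow_subJ Nat.prime_two hS pR le_top
      have m1 := mm_mono JR
      have m2 := mm_mono hx
      rw [mm_J] at m1
      rw [mm_conj] at m2
      have m3 := J_mono_of_mm JR (by rw [mm_J]; exact m2)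
      have m4 := Subgroup.card_le_of_le (J_mono_of_mm hx (by rw [mm_conj]; exact m1))
      rw [J_J] at m3
      rw [← J_conj, card_conjg] at m4
      exact ⟨(Subgroup.eq_of_le_of_card_ge m3 m4).symm, Subgroup.card_le_of_le
        (IsPiHallOf.le_of_normal k2 k3 (IsPiGrp.inf_left pR _) inf_le_right)⟩
    have key : ∀ M', IsMaximalTwoLocal M' → T ≤ M' → M = M' := fun M' hM' l =>
      hM'.2 _ hM.1 ((hG _ hM'.1).use1 (IsPiHallOf.of_le hS l le_top) k4 fun P Q' _ hP nJ =>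
        gM P Q' ⟨hP, by rwa [J_bm], gd P⟩)
    exact ne ((key M1 hM1 l1).symm.trans (key M2 hM2 l2))
  · obtain ⟨S, hS', TS⟩ := sylow_superset Nat.prime_two pT (le_top : T ≤ ⊤)
    have lt := nilpotent_proper_norm hS'.pGrp.nil (lt_of_le_of_ne TS fun e => hS (e ▸ hS'))
    have uq : ∀ M', IsMaximalTwoLocal M' → 𝒩(T) ≤ M' → M' = M := by
      intro M' hM' l
      by_contra ne'
      exact lt.ne' (t1 _ ⟨IsPiGrp.inf_left hS'.pGrp _, ne_bot_mono lt.le T0, M', M, hM', hM, ne',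
        inf_le_right.trans l, inf_le_right.trans ((norm_bm T).trans nM)⟩ lt.le)
    have k4 : 𝒩(JJ T) ≤ M := by
      obtain ⟨M', hM', l⟩ := exists_maxloc (loc_mk pJ J0)
      exact uq M' hM' ((norm_J T).trans l) ▸ l
    have key : ∀ M', IsMaximalTwoLocal M' → T ≤ M' → M = M' := by
      intro M' hM' l
      by_contra ne'
      have sy : IsSylowOf 2 T M' := sylow_of_sylow_norm Nat.prime_two l
        (sylow_of_maximal Nat.prime_two pT (le_inf l le_normalizer) fun Q pQ TQ QM =>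
          t1 Q ⟨pQ, ne_bot_mono TQ T0, M, M', hM, hM', ne',
            QM.trans (inf_le_right.trans ((norm_J T).trans k4)), QM.trans inf_le_left⟩ TQ)
      refine ne' (hM'.2 _ hM.1 ((hG _ hM'.1).use1 sy k4 fun P Q' _ hP nJ => ?_))
      by_contra PM
      refine PM (gM P Q' ⟨hP, by rwa [J_bm], fun L R hL PL pR JR RL => ?_⟩)
      rw [J_bm] at JR ⊢
      obtain ⟨M'', hM'', l'⟩ := exists_maxloc hL
      have JR' : JJ T ≤ R ⊓ 𝒩(JJ T) := le_inf JR le_normalizer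
      obtain ⟨e1, e2⟩ := t2 _ ⟨IsPiGrp.inf_left pR _, ne_bot_mono JR' J0, M, M'', hM, hM'',
        fun e => PM (e ▸ PL.trans l'), inf_le_right.trans k4, inf_le_left.trans (RL.trans l')⟩ JR'
      have e3 : R ⊓ 𝒩(JJ T) = R := nilpotent_sub_norm pR.nil inf_le_left
        (inf_le_inf_left R ((norm_J _).trans (by rw [e1])))
      rw [e3] at e1 e2
      rw [Bm, e1] at e2
      exact ⟨e1, e2⟩
    exact ne ((key M1 hM1 l1).symm.trans (key M2 hM2 l2))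

end CA.Amg

theorem CA.realizeEqns_Amg_Glob : True := by
  have := @CA.Amg.GP.eq_1.{0}
  have := @CA.Amg.GP.eq_def.{0}
  have := @CA.Amg.GP.congr_simp.{0}
  have := @CA.Amg.Two.eq_1.{0}
  have := @CA.Amg.Two.eq_def.{0}
  have := @CA.Amg.Two.congr_simp.{0}
  have := @CA.Amg.Good.eq_1.{0}
  have := @CA.Amg.Good.eq_def.{0}
  have := @CA.Amg.Good.congr_simp.{0}
  trivial
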