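import Cfsg.Agent.Amg.Tv

/-! The elementary Thompson subgroup for the prime 2 and the Baumann subgroup. -/

set_option linter.unusedSectionVars false
set_option linter.unusedVariables false

namespace CA.Amg
open Subgroup Cfsg CA.FG CA.BG

variable {G : Type*} [Group G]

def EA (A : Subgroup G) : Prop := ∀ x ∈ A, x * x = 1

theorem inv_of_sq {x : G} (h : x * x = 1) : x⁻¹ = x := inv_eq_of_mul_eq_one_right h

theorem comm_of_sq {x y : G} (hx : x * x = 1) (hy : y * y = 1) (h : x * y * (x * y) = 1) : x * y = y * x := by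
  have := inv_of_sq h
  rw [mul_inv_rev, inv_of_sq hx, inv_of_sq hy] at this
  exact this.symm

theorem sq_mul_of_comm {x y : G} (hx : x * x = 1) (hy : y * y = 1) (h : x * y = y * x) : x * y * (x * y) = 1 := by
  calc _ = x * (y * x) * y := by group
    _ = (x * x) * (y * y) := by rw [← h]; group
    _ = 1 := by rw [hx, hy, one_mul]

theorem EA.comm {A : Subgroup G} (h : EA A) {x y : G} (hx : x ∈ A) (hy : y ∈ A) : x * y = y * x :=
  comm_of_sq (h x hx) (h y hy) (h _ (mul_mem hx hy))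

theorem EA.le {A B : Subgroup G} (h : EA A) (hB : B ≤ A) : EA B := fun x hx => h x (hB hx)

theorem EA.elem {A : Subgroup G} (h : EA A) : IsElementaryAbelian 2 A :=
  ⟨abelian_iff_forall.2 fun x hx y hy => h.comm hx hy, fun a ha => by rw [pow_two]; exact h a ha⟩

theorem EA.cent {A : Subgroup G} (h : EA A) : A ≤ 𝒞(A) := fun x hx y hy => h.comm hy hx

theorem EA.sup {A B : Subgroup G} (hA : EA A) (hB : EA B) (h : A ≤ 𝒞(B)) : EA (A ⊔ B) := by
  intro x hx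
  obtain ⟨a, ha, b, hb, rfl⟩ := (mem_sup_of_left_le_norm (norm_of_cent h)).1 hx
  exact sq_mul_of_comm (hA a ha) (hB b hb) (comm_of_le_cent h ha hb)

theorem EA.conj {A : Subgroup G} (h : EA A) (g : G) : EA (A :^ g) := by
  intro x hx
  obtain ⟨y, hy, rfl⟩ := mem_conjg'.1 hx
  calc _ = g * (y * y) * g⁻¹ := by group
    _ = 1 := by rw [h y hy]; group

theorem ea_zpowers {x : G} (h : x * x = 1) : EA (zpowers x) := by
  rintro _ ⟨n, rfl⟩
  simp only
  rw [← Commute.mul_zpow (Commute.refl x), h, one_zpow]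

theorem ea_bot : EA (⊥ : Subgroup G) := fun x hx => by rw [mem_bot.1 hx, one_mul]

theorem EA.pGrp [Finite G] {A : Subgroup G} (h : EA A) : IsPGrp 2 A := abelem_pGrp Nat.prime_two h.elem

def Am (R A : Subgroup G) : Prop := A ≤ R ∧ EA A ∧ ∀ B ≤ R, EA B → Nat.card B ≤ Nat.card A

def JJ (R : Subgroup G) : Subgroup G := sSup {A | Am R A}

def OZ (X : Subgroup G) : Subgroup G where
  carrier := {x | x ∈ X ∧ x * x = 1 ∧ ∀ y ∈ X, y * x = x * y}
  one_mem' := ⟨one_mem _, one_mul _, fun y _ => by simp⟩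
  mul_mem' := fun {x y} hx hy => ⟨mul_mem hx.1 hy.1, sq_mul_of_comm hx.2.1 hy.2.1 (hy.2.2 x hx.1), fun z hz => by
    rw [← mul_assoc, hx.2.2 z hz, mul_assoc, hy.2.2 z hz, mul_assoc]⟩
  inv_mem' := fun {x} hx => by rw [inv_of_sq hx.2.1]; exact hx

def Bm (R : Subgroup G) : Subgroup G := R ⊓ 𝒞(OZ (JJ R))

theorem oz_le (X : Subgroup G) : OZ X ≤ X := fun x hx => hx.1
theorem oz_ea (X : Subgroup G) : EA (OZ X) := fun x hx => hx.2.1
theorem oz_cent (X : Subgroup G) : OZ X ≤ 𝒞(X) := fun x hx y hy => hx.2.2 y hy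
theorem le_cent_oz (X : Subgroup G) : X ≤ 𝒞(OZ X) := le_cent_symm (oz_cent X)
theorem oz_of_le {X Y : Subgroup G} (h : Y ≤ X) {x : G} (hx : x ∈ OZ X) (hY : x ∈ Y) : x ∈ OZ Y :=
  ⟨hY, hx.2.1, fun y hy => hx.2.2 y (h hy)⟩

theorem oz_conj_le (X : Subgroup G) (g : G) : OZ X :^ g ≤ OZ (X :^ g) := by
  intro x hx
  refine ⟨conjg_mono g (oz_le X) hx, (oz_ea X).conj g x hx, fun y hy => ?_⟩
  have := conjg_mono g (oz_cent X) hx
  rw [conjg_cent] at this
  exact this y hy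

theorem oz_conj (X : Subgroup G) (g : G) : OZ X :^ g = OZ (X :^ g) := by
  refine le_antisymm (oz_conj_le X g) ?_
  have := oz_conj_le (X :^ g) g⁻¹
  rw [conjg_inv_cancel] at this
  exact le_conjg_iff.2 this

theorem norm_oz (X : Subgroup G) : 𝒩(X) ≤ 𝒩(OZ X) := fun g hg => by
  rw [← conjg_eq_self_iff, oz_conj, conjg_of_mem_norm hg]

theorem Am.conj {R A : Subgroup G} (h : Am R A) (g : G) : Am (R :^ g) (A :^ g) :=
  ⟨conjg_mono g h.1, h.2.1.conj g, fun B hB hE => by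
    have := h.2.2 (B :^ g⁻¹) (le_conjg_iff.1 hB) (hE.conj _)
    rwa [card_conjg, ← card_conjg A g] at this⟩

theorem Am.le_J {R A : Subgroup G} (h : Am R A) : A ≤ JJ R := le_sSup h
theorem J_le_of {R X : Subgroup G} (h : ∀ A, Am R A → A ≤ X) : JJ R ≤ X := sSup_le h
theorem J_le (R : Subgroup G) : JJ R ≤ R := J_le_of fun A h => h.1

theorem J_conj_le (R : Subgroup G) (g : G) : JJ R :^ g ≤ JJ (R :^ g) :=
  conjg_le_iff.2 (J_le_of fun A h => conjg_le_iff.1 (h.conj g).le_J)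

theorem J_conj (R : Subgroup G) (g : G) : JJ R :^ g = JJ (R :^ g) := by
  refine le_antisymm (J_conj_le R g) ?_
  have := J_conj_le (R :^ g) g⁻¹
  rw [conjg_inv_cancel] at this
  exact le_conjg_iff.2 this

theorem norm_J (R : Subgroup G) : 𝒩(R) ≤ 𝒩(JJ R) := fun g hg => by
  rw [← conjg_eq_self_iff, J_conj, conjg_of_mem_norm hg]

theorem bm_conj (R : Subgroup G) (g : G) : Bm R :^ g = Bm (R :^ g) := by
  rw [Bm, Bm, conjg_inf, conjg_cent, oz_conj, J_conj]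

theorem norm_bm (R : Subgroup G) : 𝒩(R) ≤ 𝒩(Bm R) := fun g hg => by
  rw [← conjg_eq_self_iff, bm_conj, conjg_of_mem_norm hg]

theorem bm_le (R : Subgroup G) : Bm R ≤ R := inf_le_left
theorem J_le_bm (R : Subgroup G) : JJ R ≤ Bm R := le_inf (J_le R) (le_cent_oz _)

theorem Am.of_le {R R' A : Subgroup G} (h : Am R A) (h1 : A ≤ R') (h2 : R' ≤ R) : Am R' A :=
  ⟨h1, h.2.1, fun B hB hE => h.2.2 B (hB.trans h2) hE⟩

theorem Am.of_card {R A B : Subgroup G} (h : Am R A) (h1 : B ≤ R) (h2 : EA B) (h3 : Nat.card A ≤ Nat.card B) :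
    Am R B := ⟨h1, h2, fun C hC hE => (h.2.2 C hC hE).trans h3⟩

variable [Finite G]

theorem exists_am (R : Subgroup G) : ∃ A, Am R A := by
  obtain ⟨A, hA, hm⟩ := exists_max_card_subgroup (P := fun A : Subgroup G => A ≤ R ∧ EA A) (H := ⊥) ⟨bot_le, ea_bot⟩
  exact ⟨A, hA.1, hA.2, fun B h1 h2 => hm B ⟨h1, h2⟩⟩

theorem Am.le_of_cent {R A X : Subgroup G} (h : Am R A) (hX : X ≤ R) (hE : EA X) (hc : A ≤ 𝒞(X)) : X ≤ A := by
  have := Subgroup.eq_of_le_of_card_ge (le_sup_left : A ≤ A ⊔ X) (h.2.2 _ (sup_le h.1 hX) (h.2.1.sup hE hc))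
  rw [this]; exact le_sup_right

theorem Am.mem_of_cent {R A : Subgroup G} (h : Am R A) {x : G} (hx : x ∈ R) (h2 : x * x = 1)
    (hc : ∀ a ∈ A, a * x = x * a) : x ∈ A :=
  h.le_of_cent (zpowers_le.2 hx) (ea_zpowers h2) (by
    rw [cent_zpowers]; intro a ha; rw [mem_centralizer_singleton_iff]; exact hc a ha) (mem_zpowers x)

theorem J_eq_of_le {R R' : Subgroup G} (h1 : JJ R ≤ R') (h2 : R' ≤ R) : JJ R' = JJ R := by
  obtain ⟨A, hA⟩ := exists_am R
  refine le_antisymm (J_le_of fun B hB => ?_) (J_le_of fun B hB => (hB.of_le (hB.le_J.trans h1) h2).le_J)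
  exact (hA.of_card (hB.1.trans h2) hB.2.1 (hB.2.2 A (hA.le_J.trans h1) hA.2.1)).le_J

theorem am_of_J {R R' A : Subgroup G} (h1 : JJ R ≤ R') (h2 : R' ≤ R) (h : Am R' A) : Am R A := by
  obtain ⟨B, hB⟩ := exists_am R
  exact hB.of_card (h.1.trans h2) h.2.1 (h.2.2 B (hB.le_J.trans h1) hB.2.1)

theorem J_bm (R : Subgroup G) : JJ (Bm R) = JJ R := J_eq_of_le (J_le_bm R) (bm_le R)
theorem J_J (R : Subgroup G) : JJ (JJ R) = JJ R := J_eq_of_le le_rfl (J_le R)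

theorem mem_oz_J {R : Subgroup G} {x : G} (hx : x ∈ R) (h2 : x * x = 1) (hc : ∀ y ∈ JJ R, y * x = x * y) :
    x ∈ OZ (JJ R) := by
  obtain ⟨A, hA⟩ := exists_am R
  exact ⟨hA.le_J (hA.mem_of_cent hx h2 fun a ha => hc a (hA.le_J ha)), h2, hc⟩

theorem oz_le_oz_J (R : Subgroup G) : OZ R ≤ OZ (JJ R) := fun x hx =>
  mem_oz_J hx.1 hx.2.1 fun y hy => hx.2.2 y (J_le R hy)

theorem oz_ne_bot {R : Subgroup G} (hR : IsPGrp 2 R) (h0 : R ≠ ⊥) : OZ R ≠ ⊥ := by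
  have h1 := center_nil_ne_bot hR.nil h0
  obtain ⟨x, hx, ho⟩ := IsPGrp.exists_orderOf_eq (p := 2) (hR.of_le (inf_le_left : 𝒵(R) ≤ R)) h1
  refine ne_bot_of_mem (x := x) ⟨hx.1, ?_, hx.2⟩ fun e => ?_
  · rw [← pow_two, ← ho, pow_orderOf_eq_one]
  · rw [e, orderOf_one] at ho; exact absurd ho (by decide)

theorem J_ne_bot {R : Subgroup G} (hR : IsPGrp 2 R) (h0 : R ≠ ⊥) : JJ R ≠ ⊥ :=
  ne_bot_mono ((oz_le_oz_J R).trans (oz_le _)) (oz_ne_bot hR h0)

noncomputable def mm (R : Subgroup G) : ℕ := Nat.card ↥(Classical.choose (exists_am R) : Subgroup G)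

theorem Am.card {R A : Subgroup G} (h : Am R A) : Nat.card A = mm R := by
  have := Classical.choose_spec (exists_am R)
  exact le_antisymm (this.2.2 A h.1 h.2.1) (h.2.2 _ this.1 this.2.1)

theorem mm_mono {R R' : Subgroup G} (h : R ≤ R') : mm R ≤ mm R' := by
  obtain ⟨A, hA⟩ := exists_am R
  obtain ⟨B, hB⟩ := exists_am R'
  rw [← hA.card, ← hB.card]
  exact hB.2.2 A (hA.1.trans h) hA.2.1

theorem mm_conj (R : Subgroup G) (g : G) : mm (R :^ g) = mm R := by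
  obtain ⟨A, hA⟩ := exists_am R
  rw [← hA.card, ← (hA.conj g).card, card_conjg]

theorem mm_J (R : Subgroup G) : mm (JJ R) = mm R := by
  obtain ⟨A, hA⟩ := exists_am R
  rw [← hA.card, ← (hA.of_le hA.le_J (J_le R)).card]

theorem J_mono_of_mm {R R' : Subgroup G} (h : R ≤ R') (hm : mm R' ≤ mm R) : JJ R ≤ JJ R' := by
  obtain ⟨B, hB⟩ := exists_am R'
  refine J_le_of fun A hA => (hB.of_card (hA.1.trans h) hA.2.1 ?_).le_J
  rw [hA.card, hB.card]; exact hm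

theorem frattini_J {K M T : Subgroup G} (hK : K ⊲ M) (hT : IsSylowOf 2 T M) (hJ : JJ T ≤ K) :
    M ≤ K ⊔ 𝒩(JJ T) := by
  rw [← frattini_arg Nat.prime_two hK (IsPiHallOf.inf_normal hT hK)]
  refine sup_le_sup_left (inf_le_right.trans ?_) _
  rw [← J_eq_of_le (le_inf (J_le T) hJ) inf_le_left]
  exact norm_J _

end CA.Amg

theorem CA.realizeEqns_Amg_J : True := by
  have := @CA.Amg.JJ.eq_1.{0}
  have := @CA.Amg.JJ.eq_def.{0}
  have := @CA.Amg.JJ.congr_simp.{0}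
  have := @CA.Amg.Am.eq_1.{0}
  have := @CA.Amg.Am.eq_def.{0}
  have := @CA.Amg.Am.congr_simp.{0}
  have := @CA.Amg.Bm.eq_1.{0}
  have := @CA.Amg.Bm.eq_def.{0}
  have := @CA.Amg.Bm.congr_simp.{0}
  have := @CA.Amg.OZ.eq_1.{0}
  have := @CA.Amg.OZ.eq_def.{0}
  have := @CA.Amg.OZ.congr_simp.{0}
  have := @CA.Amg.EA.eq_1.{0}
  have := @CA.Amg.EA.eq_def.{0}
  have := @CA.Amg.EA.congr_simp.{0}
  have := @CA.Amg.mm.eq_1.{0}
  have := @CA.Amg.mm.eq_def.{0}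
  have := @CA.Amg.mm.congr_simp.{0}
  trivial
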