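import Cfsg.Agent.Amg.Ph

/-! Generation of 2-local subgroups by parabolics over the Baumann subgroup. -/

set_option linter.unusedSectionVars false
set_option linter.unusedVariables false

namespace CA.Amg
open Subgroup Cfsg CA.FG CA.BG

variable {G : Type*} [Group G] [Finite G]

theorem card_zp {x : G} {p : ℕ} (hp : p.Prime) (h : x ^ p = 1) (h1 : x ≠ 1) : Nat.card (zpowers x) = p := by
  have : Fact p.Prime := ⟨hp⟩
  rw [Nat.card_zpowers, orderOf_eq_prime h h1]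

theorem ada {a d : G} (a2 : a * a = 1) (d3 : d ^ 3 = 1) (hi : a * d * a = d⁻¹) : a * (d * a * d⁻¹) = d := by
  calc _ = (a * d * a) * d⁻¹ := by group
    _ = d ^ 3 * d⁻¹ * d⁻¹ := by rw [hi, d3, one_mul]
    _ = d := by group

theorem par_mk {B Q : Subgroup G} {a d r s : G} (QB : Q ≤ B) (pB : IsPGrp 2 B) (i2 : Q.relIndex B = 2) (aB : a ∈ B)
    (aQ : a ∉ Q) (a2 : a * a = 1) (d3 : d ^ 3 = 1) (d1 : d ≠ 1) (hi : a * d * a = d⁻¹) (nd : d ∈ 𝒩(Q))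
    (hr : r ∈ OZ Q) (hs : s ∈ OZ Q) (Br : B ≤ 𝒞[r]) (dr : d * r ≠ r * d) (as : a * s ≠ s * a) (hJ : ¬ JJ B ≤ Q) :
    Par (B ⊔ zpowers d) B Q := by
  have nB : B ≤ 𝒩(Q) := (normal_of_index_eq_of_pGrp Nat.prime_two pB QB i2).2
  have pQ : IsPGrp 2 Q := pB.of_le QB
  have p3 : IsPiGrp {2}ᶜ (zpowers d) := piGrp_zpowers_iff.2 (Lc.three_odd d3)
  have nD : zpowers d ≤ 𝒩(Q) := zpowers_le.2 nd
  have ai := inv_of_sq a2
  have i3 : B.relIndex (B ⊔ zpowers d) = 3 := by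
    have c1 := card_sup_of_inf_eq_bot (Or.inr nD) (pQ.inf_eq_bot p3)
    have n1 : zpowers a ≤ 𝒩(Q ⊔ zpowers d) := norm_sup (zpowers_le.2 (nB aB)) (zpowers_le.2 (mem_norm_of_forall (by
      rintro _ ⟨n, rfl⟩
      simp only
      rw [← conj_zpow, ai, hi]; exact zpow_mem (inv_mem (mem_zpowers d)) n)))
    have a1 : a ≠ 1 := fun e => aQ (e ▸ one_mem _)
    have ca := card_zp Nat.prime_two (by rw [pow_two, a2]) a1
    have c2 := card_sup_of_inf_eq_bot (Or.inr n1) (by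
      rw [inf_comm]
      refine (inf_eq_bot_or_le_of_card_prime (by rw [ca]; exact Nat.prime_two) _).resolve_right fun e => aQ ?_
      exact IsPiHallOf.mem_of_normal (pHall_left_of_sup (Or.inr nD) rfl pQ p3) (sup_le le_normalizer nD)
        (pElt_of_pow_eq_one Nat.prime_two (by rw [pow_two, a2])) (e (mem_zpowers a)))
    have e : B ⊔ zpowers d = Q ⊔ zpowers d ⊔ zpowers a :=
      le_antisymm (sup_le (idx2_le i2 aB aQ (le_sup_left.trans le_sup_left) (mem_sup_right (mem_zpowers a)))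
        (le_sup_right.trans le_sup_left))
        (sup_le (sup_le_sup_right QB _) ((zpowers_le.2 aB).trans le_sup_left))
    have c3 := card_mul_relIndex QB
    have c4 := card_mul_relIndex (le_sup_left : B ≤ B ⊔ zpowers d)
    rw [c1, card_zp Nat.prime_three d3 d1, ca, ← e, ← c4, ← c3, i2] at c2
    have p1 : 0 < Nat.card Q := Nat.card_pos
    nlinarith
  have cQ : (B ⊔ zpowers d) ⊓ 𝒞(OZ Q) ≤ Q := by
    rintro g ⟨gP, gC⟩
    have gB : g ∈ B := by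
      by_contra nB
      have m := maximalIn_of_index_prime (le_sup_left : B ≤ B ⊔ zpowers d) (by rw [i3]; exact Nat.prime_three)
      by_cases e : 𝒞[r] ⊓ (B ⊔ zpowers d) = B ⊔ zpowers d
      · exact dr (mem_centralizer_singleton_iff.1 (inf_eq_right.1 e (mem_sup_right (mem_zpowers d))))
      · have := m.2 _ (le_inf Br le_sup_left) (lt_of_le_of_ne inf_le_right e)
        exact nB (this ▸ (⟨mem_centralizer_singleton_iff.2 (gC r hr).symm, gP⟩ : g ∈ 𝒞[r] ⊓ (B ⊔ zpowers d)))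
    by_contra gQ
    have h1 := hs.2.2 _ (idx2_mul i2 gB aB gQ aQ)
    rw [← mul_assoc, gC s hs, mul_assoc, mul_assoc] at h1
    exact as (mul_left_cancel h1)
  refine ⟨QB, le_sup_left, pB, sup_le nB nD, i2, i3, cQ, fun e => d1 (two_elt_ne3 pB d3 ?_),
    ff_of_J QB i2 ((inf_le_inf_right _ le_sup_left).trans cQ) hJ⟩
  rw [← ada a2 d3 hi]
  exact mul_mem aB (conj_mem_of_le_norm e (mem_sup_right (mem_zpowers d)) aB)

def WW (P : Subgroup G) (r : G) : Subgroup G := closure {x | ∃ g ∈ P, x = g * r * g⁻¹}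

theorem mem_WW {P : Subgroup G} {g : G} (hg : g ∈ P) (r : G) : g * r * g⁻¹ ∈ WW P r := subset_closure ⟨g, hg, rfl⟩
theorem self_mem_WW (P : Subgroup G) (r : G) : r ∈ WW P r := by simpa using mem_WW (one_mem P) r
theorem WW_le {P X : Subgroup G} {r : G} (hr : r ∈ X) (h : P ≤ 𝒩(X)) : WW P r ≤ X :=
  (closure_le _).2 (by rintro _ ⟨g, hg, rfl⟩; exact conj_mem_of_le_norm h hg hr)
theorem norm_WW (P : Subgroup G) (r : G) : P ≤ 𝒩(WW P r) := norm_closure (by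
  rintro a ha _ ⟨g, hg, rfl⟩
  exact ⟨a * g, mul_mem ha hg, by group⟩)
theorem WW_conj (P : Subgroup G) (r g : G) : WW P r :^ g ≤ WW (P :^ g) (g * r * g⁻¹) := by
  rw [WW, conjg_closure]
  refine closure_mono ?_
  rintro _ ⟨_, ⟨k, hk, rfl⟩, rfl⟩
  exact ⟨g * k * g⁻¹, conj_mem_conjg g hk, by group⟩

namespace Lc
variable {L : Subgroup G}

local notation "𝑸" => pCoreOf 2 L

theorem baumann (h : Lc L) {T A : Subgroup G} (pT : IsPGrp 2 T) (h1 : 𝑸 ≤ T) (h2 : T ≤ L) (hA : Am T A) {a d : G}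
    {r : OZ 𝑸} (ha : a ∈ A) (hd : d ∈ L) (d3 : d ^ 3 = 1) (d1 : d ≠ 1) (hi : a * d * a = d⁻¹)
    (hb : Bl (ph 𝑸 a) (ph 𝑸 d) r) : ∃ Q', Par (Bm T ⊔ zpowers d) (Bm T) Q' ∧ ¬ JJ T ≤ Q' := by
  have nT : T ≤ 𝒩(OZ 𝑸) := h2.trans (nV L)
  have aT := hA.1 ha
  have a2 := hA.2.1 a ha
  have aJ := hA.le_J ha
  have mH : ∀ {x}, x ∈ L → ph 𝑸 x ∈ img (fz 𝑸) L := fun hx => ph_mem (nV L) hx
  have b1 : JJ T ≤ 𝒞[(r : G)] := by
    refine J_le_of fun A' hA' => h.ff h1 h2 hA' (fun x hx => mem_centralizer_singleton_iff.2 (r.2.2.2 x hx.2))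
      fun a' ha' r' hT' => mem_centralizer_singleton_iff.2 ((ph_fix_iff (nT (hA'.1 ha'))).1 ?_)
    rcases h.hy.tv_norm hb hT' (mH (h2 aT)) (mH hd) (mH (h2 (hA'.1 ha'))) with e | e
    · exact hb.fix_of_comm (k := 1) (by rw [pow_one, pow_two, hT'.sq]) (mul_inv_eq_iff_eq_mul.1 e) hb.r_mem
    · rw [hT'.inv] at e
      obtain ⟨k, hk⟩ := two_pow_of_mem pT (mul_mem aT (hA'.1 ha'))
      have := ph_two (nT (mul_mem aT (hA'.1 ha'))) hk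
      rw [ph_mul (nT aT) (nT (hA'.1 ha'))] at this
      rw [hb.eq_of_two (hT'.bl e hb.odd hb.ne) this, hb.tv.fix]
  have rU : (r : G) ∈ OZ (JJ T) := mem_oz_J (h1 r.2.1) r.2.2.1 fun y hy => mem_centralizer_singleton_iff.1 (b1 hy)
  have b2 : ∀ b ∈ Bm T, ph 𝑸 b * ph 𝑸 d * (ph 𝑸 b)⁻¹ = ph 𝑸 d ∨ ph 𝑸 b * ph 𝑸 d * (ph 𝑸 b)⁻¹ = (ph 𝑸 d)⁻¹ := by
    intro b hB
    have hb' := hb.conj (ph 𝑸 b)
    rw [(ph_fix_iff (nT hB.1)).2 (hB.2 r rU).symm] at hb'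
    have bH := mH (h2 hB.1)
    exact h.hy.eq_of_r hb' hb (mul_mem (mul_mem bH (mH (h2 aT))) (inv_mem bH))
      (mul_mem (mul_mem bH (mH hd)) (inv_mem bH)) (mH (h2 aT)) (mH hd)
  set Qh := T ⊓ pre (fz 𝑸) 𝒞[ph 𝑸 d] with hQh
  have mQh : ∀ {t}, t ∈ T → (t ∈ Qh ↔ ph 𝑸 t * ph 𝑸 d = ph 𝑸 d * ph 𝑸 t) := fun {t} ht => by
    rw [hQh, mem_inf, mem_pr (nT ht), mem_centralizer_singleton_iff]; exact ⟨fun h => h.2, fun h => ⟨ht, h⟩⟩
  have QhT : Qh ≤ T := inf_le_left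
  have aQh : a ∉ Qh := fun e => by
    have := hb.fix_of_comm (k := 1) (by rw [pow_one, pow_two, hb.tv.sq]) ((mQh aT).1 e) hb.s_mem
    rw [hb.as] at this
    exact hb.tv.ne (mul_eq_right.1 this)
  have ix : ∀ y ∈ Bm T, y ∉ Qh → y * a ∈ Qh := by
    intro y hy ny
    rw [mQh (mul_mem hy.1 aT), ph_mul (nT hy.1) (nT aT)]
    have e1 := (b2 y hy).resolve_left fun e => ny ((mQh hy.1).2 (mul_inv_eq_iff_eq_mul.1 e))
    calc _ = ph 𝑸 y * (ph 𝑸 a * ph 𝑸 d * ph 𝑸 a) * ph 𝑸 a := by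
          conv_lhs => rw [← mul_one (_ * _ * _), ← hb.tv.sq]
          group
      _ = (ph 𝑸 y * ph 𝑸 d * (ph 𝑸 y)⁻¹)⁻¹ * (ph 𝑸 y * ph 𝑸 a) := by rw [hb.inv]; group
      _ = _ := by rw [e1, inv_inv]
  have nd : d ∈ 𝒩(Qh) := by
    refine mem_norm_of_forall fun q hq => ?_
    have e : ph 𝑸 (d * q * d⁻¹) = ph 𝑸 q := by
      rw [ph_conj (nV L hd) (nT hq.1), ← (mQh hq.1).1 hq, mul_inv_cancel_right]
    obtain ⟨k, hk⟩ := two_pow_of_mem pT hq.1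
    have qT : d * q * d⁻¹ ∈ T := by
      simpa using mul_mem (h1 (h.same (mul_mem (mul_mem hd (h2 hq.1)) (inv_mem hd)) (h2 hq.1)
        (by rw [conj_pow, hk]; simp) hk e)) hq.1
    rw [mQh qT, e]; exact (mQh hq.1).1 hq
  have na : a ∈ 𝒩(Qh) := by
    refine mem_norm_of_forall fun q hq => ?_
    rw [mQh (mul_mem (mul_mem aT hq.1) (inv_mem aT)), ph_conj (nT aT) (nT hq.1), hb.tv.inv]
    have c1 : Commute (ph 𝑸 q) (ph 𝑸 d) := (mQh hq.1).1 hq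
    calc _ = ph 𝑸 a * (ph 𝑸 q * (ph 𝑸 a * ph 𝑸 d * ph 𝑸 a)) * ph 𝑸 a := by
          conv_lhs => rw [← mul_one (_ * _ * _ * _), ← hb.tv.sq]
          group
      _ = ph 𝑸 a * ((ph 𝑸 a * ph 𝑸 d * ph 𝑸 a) * ph 𝑸 q) * ph 𝑸 a := by rw [hb.inv, c1.inv_right.eq]
      _ = (ph 𝑸 a * ph 𝑸 a) * ph 𝑸 d * (ph 𝑸 a * ph 𝑸 q * ph 𝑸 a) := by group
      _ = _ := by rw [hb.tv.sq, one_mul]
  have WQ : WG 𝑸 d ≤ OZ Qh := by
    rintro _ ⟨w, hw, rfl⟩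
    refine ⟨(mQh (h1 w.2.1)).2 (by simp [ph_of_mem w.2.1]), w.2.2.1, fun q hq => ?_⟩
    obtain ⟨k, hk⟩ := two_pow_of_mem pT hq.1
    exact (ph_fix_iff (nT hq.1)).1 (hb.fix_of_comm (ph_two (nT hq.1) hk) ((mQh hq.1).1 hq) hw)
  have rW : (r : G) ∈ WG 𝑸 d := mem_WG.2 hb.r_mem
  have sW : d * r * d⁻¹ ∈ WG 𝑸 d := ph_coe (nV L hd) r ▸ mem_WG.2 hb.s_mem
  have r1 : (r : G) ≠ 1 := fun e => hb.tv.ne (Subtype.ext e)
  have as : a * (d * r * d⁻¹) ≠ d * r * d⁻¹ * a := fun e => by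
    rw [← ph_coe (nV L hd), ← ph_fix_iff (nT aT), hb.as] at e
    exact hb.tv.ne (mul_eq_right.1 e)
  have dr : d * r ≠ r * d := fun e => hb.dr ((ph_fix_iff (nV L hd)).2 e)
  have cAW : A ⊓ Qh ≤ 𝒞(WG 𝑸 d) := fun x hx w hw => ((WQ hw).2.2 x hx.2).symm
  have AQh : A ⊓ Qh ⊔ WG 𝑸 d ≤ Qh := sup_le inf_le_right (WQ.trans (oz_le _))
  have hA' : Am T (A ⊓ Qh ⊔ WG 𝑸 d) := by
    refine hA.of_card (AQh.trans QhT) ((hA.2.1.le inf_le_left).sup ((oz_ea _).le WQ) cAW) ?_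
    have k1 := card_sup_mul_card_inf (Or.inl (norm_of_cent cAW))
    have k2 := card_inf_mul_relIndex Qh A
    rw [idx2_mk ha aQh fun y hy => ix y (J_le_bm T (hA.le_J hy)), inf_comm] at k2
    have k3 : A ⊓ Qh ⊓ WG 𝑸 d ≤ zpowers (r : G) := by
      rintro x ⟨⟨xA, -⟩, xW⟩
      have c1 := hA.2.1.comm ha xA
      rcases hb.WG_cases (nV L hd) xW with e | e | e | e
      · rw [e]; exact one_mem _
      · rw [e]; exact mem_zpowers _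
      · rw [e] at c1; exact absurd c1 as
      · rw [e, ← mul_assoc, mem_centralizer_singleton_iff.1 (b1 aJ), mul_assoc, mul_assoc (r : G) _ a] at c1
        exact absurd (mul_left_cancel c1) as
    have k4 := Subgroup.card_le_of_le k3
    rw [card_zp Nat.prime_two (by rw [pow_two, r.2.2.1]) r1] at k4
    rw [hb.card_WG] at k1
    nlinarith
  have hA'' : Am Qh (A ⊓ Qh ⊔ WG 𝑸 d) := hA'.of_le AQh QhT
  have JJ' : JJ Qh ≤ JJ T := J_le_of fun B hB =>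
    (hA'.of_card (hB.1.trans QhT) hB.2.1 (hB.2.2 _ AQh hA'.2.1)).le_J
  have UE : OZ (JJ T) ≤ OZ (JJ Qh) := fun v hv =>
    mem_oz_J (AQh (hA'.mem_of_cent (J_le T hv.1) hv.2.1 fun y hy => hv.2.2 y (hA'.le_J hy))) hv.2.1
      fun y hy => hv.2.2 y (JJ' hy)
  have WE : WG 𝑸 d ≤ OZ (JJ Qh) := WQ.trans (oz_le_oz_J _)
  have aE : a ∈ 𝒩(OZ (JJ Qh)) := norm_oz _ (norm_J _ na)
  have dE : d ∈ 𝒩(OZ (JJ Qh)) := norm_oz _ (norm_J _ nd)
  have tv' : Tv (ph (JJ Qh) a) ⟨r, WE rW⟩ := by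
    refine ⟨fun e => r1 (congrArg Subtype.val e), (ph_fix_iff aE).2 (mem_centralizer_singleton_iff.1 (b1 aJ)),
      fun v => ?_, fun e => as ((ph_fix_iff aE (v := ⟨_, WE sW⟩)).1 (by rw [e]; rfl))⟩
    have vA := hA''.mem_of_cent (J_le _ v.2.1) v.2.2.1 fun y hy => v.2.2.2 y (hA''.le_J hy)
    obtain ⟨x, hx, _, ⟨w, hw, rfl⟩, e⟩ := (mem_sup_of_left_le_norm (norm_of_cent cAW)).1 vA
    have e1 : (ph (JJ Qh) a v : G) = x * ph 𝑸 a w := by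
      rw [ph_coe aE, ph_coe (nT aT), ← e, ← mul_assoc, hA.2.1.comm ha hx.1]; simp [mul_assoc]
    rcases hb.tv.act w with e2 | e2
    · left; apply Subtype.ext; rw [e1, e2, ← e]; rfl
    · right; apply Subtype.ext; rw [e1, e2]; simp [← e, mul_assoc]
  have hb' : Bl (ph (JJ Qh) a) (ph (JJ Qh) d) ⟨r, WE rW⟩ := by
    refine tv'.bl ?_ (Bl.ord3 (by rw [← ph_pow dE, d3, ph_one])) fun e => dr ?_
    · rw [← ph_mul aE dE, ← ph_mul (mul_mem aE dE) aE, hi, ph_inv dE]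
    · exact (ph_fix_iff dE (v := ⟨r, WE rW⟩)).1 (by rw [e]; rfl)
  have b3 : ∀ v ∈ OZ (JJ T), ∃ u ∈ OZ (JJ T), d * u = u * d ∧ (v = u ∨ v = u * r) := by
    intro v hv
    set v' : OZ (JJ Qh) := ⟨v, UE hv⟩
    have f1 := hb'.fixc v'
    have f2 := hb'.fix_of_fix f1
    have f3 : ph (JJ Qh) a v' = v' := (ph_fix_iff aE).2 (hv.2.2 a aJ)
    rw [map_mul, f3, mul_right_inj] at f2
    rcases hb'.W _ (wd_mem _ (ph (JJ Qh) d v')) with e | e | e | e <;> rw [e] at f1 f2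
    · exact ⟨v, hv, by simpa using (ph_fix_iff dE).1 f1, Or.inl rfl⟩
    · exact ⟨v * r, mul_mem hv rU, (ph_fix_iff dE).1 f1, Or.inr (by rw [mul_assoc, r.2.2.1, mul_one])⟩
    · rw [hb'.as] at f2; exact absurd (mul_eq_right.1 f2) hb'.tv.ne
    · rw [map_mul, hb'.as, hb'.tv.fix, mul_right_inj] at f2; exact absurd (mul_eq_right.1 f2) hb'.tv.ne
  have WQ' : WG 𝑸 d ≤ OZ (Bm T ⊓ Qh) := fun w hw => oz_of_le inf_le_right (WQ hw)
    ⟨⟨QhT (WQ hw).1, fun v hv => (oz_ea _).comm (UE hv) (WE hw)⟩, (WQ hw).1⟩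
  have nJ : ¬ JJ T ≤ Bm T ⊓ Qh := fun e => aQh (e aJ).2
  refine ⟨Bm T ⊓ Qh, par_mk inf_le_left (pT.of_le (bm_le T)) ?_ (J_le_bm T aJ) (fun e => aQh e.2) a2 d3 d1 hi ?_
    (WQ' rW) (WQ' sW) (fun b hb => mem_centralizer_singleton_iff.2 (hb.2 r rU).symm) dr as (by rwa [J_bm]), nJ⟩
  · exact idx2_mk (J_le_bm T aJ) (fun e => aQh e.2) fun y hy ny =>
      ⟨mul_mem hy (J_le_bm T aJ), ix y hy fun e => ny ⟨hy, e⟩⟩
  · refine mem_norm_of_forall fun q hq => ?_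
    have q1 := conj_mem_of_mem_norm nd hq.2
    refine ⟨⟨QhT q1, fun v hv => ?_⟩, q1⟩
    obtain ⟨u, hu, du, e⟩ := b3 v hv
    have c1 : Commute u (d * q * d⁻¹) :=
      ((Commute.symm du).mul_right (hq.1.2 u hu)).mul_right (Commute.symm du).inv_right
    have c2 : Commute (r : G) (d * q * d⁻¹) := ((WQ rW).2.2 _ q1).symm
    rcases e with e | e <;> rw [e]
    exacts [c1.eq, (c1.mul_left c2).eq]

theorem use1 (h : Lc L) {T X : Subgroup G} (hT : IsSylowOf 2 T L) (hJ : 𝒩(JJ T) ≤ X)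
    (hP : ∀ P Q', P ≤ L → Par P (Bm T) Q' → ¬ JJ T ≤ Q' → P ≤ X) : L ≤ X := by
  have h1 : 𝑸 ≤ T := IsPiHallOf.pcore_le hT
  have h2 : T ≤ L := hT.le
  have mH : ∀ {x}, x ∈ L → ph 𝑸 x ∈ img (fz 𝑸) L := fun hx => ph_mem (nV L) hx
  let H0 : Subgroup G :=
    { carrier := {g | g ∈ L ∧ ∀ a ∈ img (fz 𝑸) L, ∀ d ∈ img (fz 𝑸) L, ∀ r, Bl a d r →
        ph 𝑸 g * d * (ph 𝑸 g)⁻¹ = d ∨ ph 𝑸 g * d * (ph 𝑸 g)⁻¹ = d⁻¹}
      one_mem' := ⟨one_mem _, fun a _ d _ r _ => by simp [ph_one]⟩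
      mul_mem' := fun {x y} hx hy => ⟨mul_mem hx.1 hy.1, fun a ha d hd r hb => by
        rw [ph_mul (nV L hx.1) (nV L hy.1), show ∀ x y d : MulAut (OZ 𝑸), x * y * d * (x * y)⁻¹ =
          x * (y * d * y⁻¹) * x⁻¹ from fun x y d => by group]
        rcases hy.2 a ha d hd r hb with e | e <;> rw [e]
        · exact hx.2 a ha d hd r hb
        · have := hx.2 a ha _ (inv_mem hd) r hb.symm
          rw [inv_inv] at this
          exact this.symm⟩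
      inv_mem' := fun {x} hx => ⟨inv_mem hx.1, fun a ha d hd r hb => by
        rw [ph_inv (nV L hx.1)]
        rcases hx.2 a ha d hd r hb with e | e
        · left
          conv_lhs => rw [← e]
          group
        · right
          conv_lhs => rw [← inv_inv d, ← e]
          group⟩ }
  have H0L : H0 ≤ L := fun g hg => hg.1
  have nH0 : H0 ⊲ L := ⟨H0L, fun g hg => mem_norm_of_forall fun x hx =>
    ⟨mul_mem (mul_mem hg hx.1) (inv_mem hg), fun a ha d hd r hb => by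
      have gH := mH hg
      rw [ph_conj (nV L hg) (nV L hx.1)]
      have e0 : ∀ g x d : MulAut (OZ 𝑸), g * x * g⁻¹ * d * (g * x * g⁻¹)⁻¹ = g * (x * (g⁻¹ * d * g⁻¹⁻¹) * x⁻¹) * g⁻¹ :=
        fun g x d => by group
      rw [e0]
      rcases hx.2 _ (mul_mem (mul_mem (inv_mem gH) ha) (inv_mem (inv_mem gH))) _
        (mul_mem (mul_mem (inv_mem gH) hd) (inv_mem (inv_mem gH))) _ (hb.conj (ph 𝑸 g)⁻¹) with e | e <;> rw [e]
      · left; group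
      · right; group⟩⟩
  have JH0 : JJ T ≤ H0 := J_le_of fun A hA => h.ff h1 h2 hA
    (fun x hx => ⟨QL L hx.2, fun a _ d _ r _ => by simp [ph_of_mem hx.2]⟩)
    fun a' ha' r' hT' => ⟨h2 (hA.1 ha'), fun a ha d hd r hb => h.hy.tv_norm hb hT' ha hd (mH (h2 (hA.1 ha')))⟩
  refine (frattini_J nH0 hT JH0).trans (sup_le ?_ hJ)
  set S : Set (MulAut (OZ 𝑸)) := {x | ∃ A, Am T A ∧ ∃ a ∈ A, ∃ d ∈ img (fz 𝑸) L, ∃ r, Bl (ph 𝑸 a) d r ∧
    (x = ph 𝑸 a ∨ x = d)} with hS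
  have nY : H0 ⊓ pre (fz 𝑸) (closure S) ⊲ H0 := by
    refine inf_normalIn_of_norm (le_norm_pre (H0L.trans (nV L)) fun x hx => mem_norm_of_conjg_le ?_)
    obtain ⟨g, hg, rfl⟩ := (mem_im (H0L.trans (nV L))).1 hx
    rw [conjg_closure, closure_le]
    rintro _ ⟨_, ⟨A, hA, a, ha, d, hd, r, hb, e⟩, rfl⟩
    have m1 : ph 𝑸 a ∈ closure S := subset_closure ⟨A, hA, a, ha, d, hd, r, hb, Or.inl rfl⟩
    have m2 : d ∈ closure S := subset_closure ⟨A, hA, a, ha, d, hd, r, hb, Or.inr rfl⟩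
    have k := hg.2 _ (mH (h2 (hA.1 ha))) d hd r hb
    rcases e with e | e <;> simp only [e, SetLike.mem_coe]
    · have hb' : Bl (ph 𝑸 g * ph 𝑸 a * (ph 𝑸 g)⁻¹) d (ph 𝑸 g r) := by
        have := hb.conj (ph 𝑸 g)
        rcases k with k | k <;> rw [k] at this
        · exact this
        · simpa using this.symm
      rcases hb.conj_cases hb' with e | e | e <;> rw [e]
      exacts [m1, mul_mem (mul_mem m2 m1) (inv_mem m2), mul_mem (mul_mem (inv_mem m2) m1) m2]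
    · rcases k with k | k <;> rw [k]
      exacts [m2, inv_mem m2]
  have JY : JJ T ≤ H0 ⊓ pre (fz 𝑸) (closure S) := le_inf JH0 (J_le_of fun A hA => h.ff h1 h2 hA
    (fun x hx => (mem_pr (nV L (QL L hx.2))).2 (by rw [ph_of_mem hx.2]; exact one_mem _))
    fun a ha r hT' => (mem_pr (nV L (h2 (hA.1 ha)))).2 (by
      obtain ⟨d, hd, hb⟩ := h.hy.exists_bl hT' (mH (h2 (hA.1 ha)))
      exact subset_closure ⟨A, hA, a, ha, d, pcore_le _ _ hd, r, hb, Or.inl rfl⟩))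
  have eJ : JJ (T ⊓ H0) = JJ T := J_eq_of_le (le_inf (J_le T) JH0) inf_le_left
  refine (frattini_J nY (IsPiHallOf.inf_normal hT nH0) (eJ ▸ JY)).trans (sup_le ?_ (eJ ▸ hJ))
  have nX : X ⊓ L ≤ 𝒩(OZ 𝑸) := inf_le_right.trans (nV L)
  have SX : closure S ≤ img (fz 𝑸) (X ⊓ L) := by
    rw [closure_le]
    rintro _ ⟨A, hA, a, ha, d, hd, r, hb, rfl | rfl⟩
    · exact ph_mem nX ⟨hJ (le_normalizer (hA.le_J ha)), h2 (hA.1 ha)⟩
    · obtain ⟨e, eL, e3, e1, ei, hb'⟩ := h.lift (h2 (hA.1 ha)) (hA.2.1 a ha) hb.tv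
      obtain ⟨Q', hP', nJ⟩ := h.baumann hT.pGrp h1 h2 hA ha eL e3 e1 ei hb'
      have eX := hP _ Q' (sup_le ((bm_le T).trans h2) (zpowers_le.2 eL)) hP' nJ (mem_sup_right (mem_zpowers e))
      have := ph_mem nX ⟨eX, eL⟩
      rcases h.hy.bl_uniq hb' hb (mH (h2 (hA.1 ha))) (mH eL) hd with e | e <;> rw [e]
      exacts [this, inv_mem this]
  rintro y ⟨yH, yS⟩
  have yL := H0L yH
  obtain ⟨x, hx, e⟩ := (mem_im nX).1 (SX ((mem_pr (nV L yL)).1 yS))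
  have hc : y * x⁻¹ ∈ L ⊓ 𝒞(OZ 𝑸) := mem_inf.2 ⟨mul_mem yL (inv_mem hx.2),
    (ph_eq_one (nV L (mul_mem yL (inv_mem hx.2)))).1 (by
      rw [ph_mul (nV L yL) (nV L (inv_mem hx.2)), ph_inv (nV L hx.2), e, mul_inv_cancel])⟩
  simpa using mul_mem (hJ (norm_J T (h.cR hT.pGrp h1 h2 hc))) hx.1

theorem par_bl (h : Lc L) {P B Q1 : Subgroup G} (hP : Par P B Q1) (PL : P ≤ L) (hJ : JJ (B ⊔ 𝑸) ≤ B)
    (nJ : ¬ JJ B ≤ Q1) {r : G} (hr : RR B Q1 r) : ∃ a ∈ B, ∃ d ∈ P, ∃ ρ : OZ 𝑸, (ρ : G) = r ∧ d ∉ B ∧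
      Bl (ph 𝑸 a) (ph 𝑸 d) ρ ∧ WW P r = WG 𝑸 d := by
  have BL := hP.TP.trans PL
  have mH : ∀ {x}, x ∈ L → ph 𝑸 x ∈ img (fz 𝑸) L := fun hx => ph_mem (nV L) hx
  obtain ⟨A, hA, nA⟩ : ∃ A, Am B A ∧ ¬ A ≤ Q1 := by
    by_contra hn
    push Not at hn
    exact nJ (J_le_of hn)
  have hA' : Am (B ⊔ 𝑸) A := am_of_J hJ le_sup_left hA
  have QQ1 : P ⊓ 𝑸 ≤ Q1 := hP.le_Q (IsPiGrp.inf_right (pQ L) P) inf_le_left (norm_inf le_normalizer (PL.trans (nQ L)))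
  obtain ⟨a, ha, ρ, hT, na⟩ : ∃ a ∈ A, ∃ ρ, Tv (ph 𝑸 a) ρ ∧ a ∉ Q1 := by
    by_contra hn
    push Not at hn
    exact nA (h.ff le_sup_right (sup_le BL (QL L)) hA' ((inf_le_inf_right _ (hA.1.trans hP.TP)).trans QQ1) hn)
  have aB := hA.1 ha
  have a2 := hA.2.1 a ha
  obtain ⟨d, hd, d3, d1, hi⟩ := hP.exists_d aB na a2
  have hb := h.bl_of (BL aB) a2 (PL hd) d3 d1 hi hT
  have d3' := h.hy.bl_mem hb (mH (BL aB)) (mH (PL hd))
  have qW : ∀ q ∈ Q1, ∀ w ∈ Wd (ph 𝑸 d), ph 𝑸 q w = w := by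
    intro q hq w hw
    have qL := BL (hP.QT hq)
    obtain ⟨k, hk⟩ := two_pow_of_mem hP.pQ hq
    refine hb.fix_of_comm (ph_two (nV L qL) hk) ?_ hw
    have m1 : q * (d * q⁻¹ * d⁻¹) ∈ Q1 := mul_mem hq (conj_mem_of_le_norm hP.nQ hd (inv_mem hq))
    obtain ⟨l, hl⟩ := two_pow_of_mem hP.pQ m1
    have m2 := ph_two (nV L (BL (hP.QT m1))) hl
    rw [ph_mul (nV L qL) (nV L (mul_mem (mul_mem (PL hd) (inv_mem qL)) (inv_mem (PL hd)))),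
      ph_conj (nV L (PL hd)) (nV L (inv_mem qL)), ph_inv (nV L qL)] at m2
    have m3 : ph 𝑸 q * (ph 𝑸 d * (ph 𝑸 q)⁻¹ * (ph 𝑸 d)⁻¹) ∈ pCoreOf 3 (img (fz 𝑸) L) := by
      have := mul_mem (conj_mem_of_le_norm (pcore_norm _ _) (mH qL) d3') (inv_mem d3')
      rwa [show ∀ q d : MulAut (OZ 𝑸), q * d * q⁻¹ * d⁻¹ = q * (d * q⁻¹ * d⁻¹) from fun q d => by group] at this
    have m4 := IsPiElt.eq_one ((pElt_iff Nat.prime_two).2 ⟨l, m2⟩)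
      (PiNat.mono ((pcore_pGrp 3 _).piElt m3) (by simp))
    calc _ = ph 𝑸 q * (ph 𝑸 d * (ph 𝑸 q)⁻¹ * (ph 𝑸 d)⁻¹) * (ph 𝑸 d * ph 𝑸 q) := by group
      _ = _ := by rw [m4, one_mul]
  have Bρ : B ≤ 𝒞[(ρ : G)] := hP.T_le
    (fun q hq => mem_centralizer_singleton_iff.2 ((ph_fix_iff (nV L (BL (hP.QT hq)))).1 (qW q hq _ hb.r_mem))) aB na
    (mem_centralizer_singleton_iff.2 ((ph_fix_iff (nV L (BL aB))).1 hT.fix))
  have ρB : (ρ : G) ∈ B := hA.1 (hA'.mem_of_cent (mem_sup_right ρ.2.1) ρ.2.2.1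
    fun y hy => mem_centralizer_singleton_iff.1 (Bρ (hA.1 hy)))
  have ρZ : (ρ : G) ∈ OZ Q1 := hP.zz ⟨ρB, ρ.2.2.1, fun y hy => mem_centralizer_singleton_iff.1 (Bρ hy)⟩
  have e : (ρ : G) = r := by
    refine hP.r_eq hr aB (conj_mem_of_le_norm hP.nZ hd ρZ) ?_ fun e => hT.ne (Subtype.ext e)
    rw [← ph_coe (nV L (PL hd)), ← ph_coe (nV L (BL aB)), hb.as, mul_comm]; rfl
  have dB := hP.d_notin d3 d1
  refine ⟨a, aB, d, hd, ρ, e, dB, hb, le_antisymm (WW_le (e ▸ mem_WG.2 hb.r_mem) ?_) fun w hw => ?_⟩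
  · refine hP.le_of_mem (hP.T_le (fun q hq => norm_WG (nV L (BL (hP.QT hq))) fun w hw => by rwa [qW q hq w hw]) aB na
      (norm_WG (nV L (BL aB)) fun w hw => ?_)) hd dB (norm_WG (nV L (PL hd)) fun w hw => wd_comm rfl hw)
    rcases hT.act w with e | e <;> rw [e]
    exacts [hw, mul_mem hw hb.r_mem]
  · have m1 := self_mem_WW P r
    have m2 := mem_WW hd r
    rcases hb.WG_cases (nV L (PL hd)) hw with e1 | e1 | e1 | e1 <;> rw [e1]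
    · exact one_mem _
    all_goals rw [e]
    exacts [m1, m2, mul_mem m1 m2]

theorem use2 (h : Lc L) {P P' B Q1 Q1' : Subgroup G} (hP : Par P B Q1) (hP' : Par P' B Q1') (PL : P ≤ L)
    (PL' : P' ≤ L) (hJ : JJ (B ⊔ 𝑸) ≤ B) (nJ : ¬ JJ B ≤ Q1) (nJ' : ¬ JJ B ≤ Q1') {r : G} (hr : RR B Q1 r) :
    P' ≤ 𝒩(WW P r) := by
  have BL := hP.TP.trans PL
  have mH : ∀ {x}, x ∈ L → ph 𝑸 x ∈ img (fz 𝑸) L := fun hx => ph_mem (nV L) hx
  obtain ⟨r', hr'⟩ := hP'.exists_r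
  obtain ⟨a, ha, d, hd, ρ, -, -, hb, e⟩ := h.par_bl hP PL hJ nJ hr
  obtain ⟨a', ha', d', hd', ρ', -, dB', hb', -⟩ := h.par_bl hP' PL' hJ nJ' hr'
  refine hP'.le_of_mem (hP.TP.trans (norm_WW P r)) hd' dB' ?_
  rw [e]
  exact norm_WG (nV L (PL' hd')) fun w hw =>
    wd_comm (h.hy.bl_commute hb' hb (mH (BL ha')) (mH (PL' hd')) (mH (BL ha)) (mH (PL hd))) hw

end Lc
end CA.Amg

theorem CA.realizeEqns_Amg_Loc : True := by
  have := @CA.Amg.WW.eq_1.{0}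
  have := @CA.Amg.WW.eq_def.{0}
  have := @CA.Amg.WW.congr_simp.{0}
  trivial
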