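import Cfsg.Agent.Amg.J

/-! Parabolic subgroups of shape `Q.Sym(3)`. -/

set_option linter.unusedSectionVars false
set_option linter.unusedVariables false

namespace CA.Amg
open Subgroup Cfsg CA.FG CA.BG

variable {G : Type*} [Group G] [Finite G]

theorem idx2_mul' {K H : Subgroup G} (h : K.relIndex H = 2) {x y : G} (hx : x ∈ H) (hy : y ∈ H)
    (nx : x ∉ K) (ny : y ∉ K) : x * y⁻¹ ∈ K :=
  idx2_mul h hx (inv_mem hy) nx fun e => ny (by simpa using inv_mem e)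

theorem idx2_mul'' {K H : Subgroup G} (h : K.relIndex H = 2) {x y : G} (hx : x ∈ H) (hy : y ∈ H)
    (nx : x ∉ K) (ny : y ∉ K) : x⁻¹ * y ∈ K :=
  idx2_mul h (inv_mem hx) hy (fun e => nx (by simpa using inv_mem e)) ny

theorem idx2_sq {K H : Subgroup G} (h : K.relIndex H = 2) {x : G} (hx : x ∈ H) : x * x ∈ K := by
  by_cases nx : x ∈ K
  · exact mul_mem nx nx
  · exact idx2_mul h hx hx nx nx

theorem idx2_le {K H X : Subgroup G} (h : K.relIndex H = 2) {x : G} (hx : x ∈ H) (nx : x ∉ K) (hK : K ≤ X)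
    (hX : x ∈ X) : H ≤ X := fun y hy => by
  by_cases ny : y ∈ K
  · exact hK ny
  · simpa using mul_mem (hK (idx2_mul' h hy hx ny nx)) hX

theorem idx3 {T P : Subgroup G} (h : T.relIndex P = 3) {g k l : G} (hg : g ∈ P) (hk : k ∈ P) (hl : l ∈ P)
    (ng : g ∉ T) (nk : k ∉ T) (nl : l ∉ T) (ngk : g⁻¹ * k ∉ T) : g⁻¹ * l ∈ T ∨ k⁻¹ * l ∈ T := by
  classical
  by_contra hn
  push Not at hn
  have hc : Nat.card (P ⧸ T.subgroupOf P) = 3 := h
  let q : P → P ⧸ T.subgroupOf P := QuotientGroup.mk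
  have ne : ∀ x y : P, (x : G)⁻¹ * y ∉ T → q x ≠ q y := fun x y hxy e =>
    hxy (QuotientGroup.eq (s := T.subgroupOf P) (a := x) (b := y) |>.1 e)
  have h4 : ({q 1, q ⟨g, hg⟩, q ⟨k, hk⟩, q ⟨l, hl⟩} : Set (P ⧸ T.subgroupOf P)).ncard = 4 := by
    rw [Set.ncard_insert_of_notMem, Set.ncard_insert_of_notMem, Set.ncard_pair (ne _ _ hn.2)]
    · simp only [Set.mem_insert_iff, Set.mem_singleton_iff, not_or]
      exact ⟨ne _ _ ngk, ne _ _ hn.1⟩
    · simp only [Set.mem_insert_iff, Set.mem_singleton_iff, not_or]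
      exact ⟨ne _ _ (by simpa using ng), ne _ _ (by simpa using nk), ne _ _ (by simpa using nl)⟩
  have := Set.ncard_le_card ({q 1, q ⟨g, hg⟩, q ⟨k, hk⟩, q ⟨l, hl⟩} : Set (P ⧸ T.subgroupOf P))
  omega

theorem two_elt_ne3 {T : Subgroup G} (hT : IsPGrp 2 T) {d : G} (h3 : d ^ 3 = 1) (hd : d ∈ T) : d = 1 :=
  IsPiElt.eq_one (hT.piElt hd) (PiNat.mono (pElt_of_pow_eq_one Nat.prime_three h3) (by simp))

structure Par (P T Q : Subgroup G) : Prop where
  QT : Q ≤ T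
  TP : T ≤ P
  pT : IsPGrp 2 T
  nQ : P ≤ 𝒩(Q)
  i2 : Q.relIndex T = 2
  i3 : T.relIndex P = 3
  cQ : P ⊓ 𝒞(OZ Q) ≤ Q
  nn : ¬ P ≤ 𝒩(T)
  ff : (OZ T).relIndex (OZ Q) = 2

theorem oz_le_of_cQ {T Q : Subgroup G} (QT : Q ≤ T) (cQ : T ⊓ 𝒞(OZ Q) ≤ Q) : OZ T ≤ OZ Q := fun x hx =>
  oz_of_le QT hx (cQ ⟨hx.1, fun y hy => hx.2.2 y (QT hy.1)⟩)

theorem ff_of_J {T Q : Subgroup G} (QT : Q ≤ T) (i2 : Q.relIndex T = 2) (cQ : T ⊓ 𝒞(OZ Q) ≤ Q)
    (hJ : ¬ JJ T ≤ Q) : (OZ T).relIndex (OZ Q) = 2 := by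
  obtain ⟨A, hA, nA⟩ : ∃ A, Am T A ∧ ¬ A ≤ Q := by
    by_contra hn
    push Not at hn
    exact hJ (J_le_of hn)
  obtain ⟨a, aA, aQ⟩ := SetLike.not_le_iff_exists.1 nA
  have zz := oz_le_of_cQ QT cQ
  have h1 : (OZ T).relIndex (OZ Q) ≠ 1 := fun e =>
    aQ (cQ ⟨hA.1 aA, fun y hy => ((relIndex_eq_one.1 e hy).2.2 a (hA.1 aA)).symm⟩)
  have hc : A ⊓ Q ≤ 𝒞(OZ Q) := inf_le_right.trans (le_cent_oz Q)
  have h2 := hA.2.2 _ (sup_le (inf_le_right.trans QT) ((oz_le Q).trans QT))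
    ((hA.2.1.le inf_le_left).sup (oz_ea Q) hc)
  have h3 := card_sup_mul_card_inf (Or.inl (norm_of_cent hc))
  have h4 : A ⊓ Q ⊓ OZ Q ≤ OZ T := by
    rintro x ⟨⟨xA, xQ⟩, xZ⟩
    refine ⟨QT xQ, xZ.2.1, fun y hy => ?_⟩
    have : T ≤ 𝒞[x] := idx2_le i2 (hA.1 aA) aQ
      (fun q hq => mem_centralizer_singleton_iff.2 (xZ.2.2 q hq))
      (mem_centralizer_singleton_iff.2 (hA.2.1.comm aA xA))
    exact mem_centralizer_singleton_iff.1 (this hy)
  have h5 := Subgroup.card_le_of_le h4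
  have h6 := card_inf_mul_relIndex Q A
  have h7 : Q.relIndex A ≤ 2 := i2 ▸ Subgroup.relIndex_le_of_le_right hA.1 (by rw [i2]; decide)
  have h8 := card_mul_relIndex zz
  rw [inf_comm] at h6
  have p1 : 0 < Nat.card (A ⊓ Q : Subgroup G) := Nat.card_pos
  have p2 : 0 < Nat.card (OZ T) := Nat.card_pos
  have p3 := relIndex_pos (OZ T) (OZ Q)
  have : (OZ T).relIndex (OZ Q) ≤ 2 := by
    have k1 : Nat.card (A ⊓ Q : Subgroup G) * Nat.card (OZ Q) ≤ Nat.card A * Nat.card (OZ T) := by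
      rw [← h3]; exact Nat.mul_le_mul h2 h5
    have k2 : Nat.card A ≤ Nat.card (A ⊓ Q : Subgroup G) * 2 := by rw [← h6]; exact Nat.mul_le_mul_left _ h7
    rw [← h8] at k1
    have k3 : Nat.card (A ⊓ Q : Subgroup G) * Nat.card (OZ T) * (OZ T).relIndex (OZ Q) ≤
        Nat.card (A ⊓ Q : Subgroup G) * Nat.card (OZ T) * 2 := by nlinarith
    exact Nat.le_of_mul_le_mul_left k3 (Nat.mul_pos p1 p2)
  omega

/-- the commutator involution -/
def RR (T Q : Subgroup G) (r : G) : Prop :=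
  r ≠ 1 ∧ r ∈ OZ T ∧ ∀ t ∈ T, t ∉ Q → ∀ x ∈ OZ Q, x ∉ OZ T → t * x * t⁻¹ = x * r

theorem RR.conj {T Q : Subgroup G} {r : G} (h : RR T Q r) (g : G) : RR (T :^ g) (Q :^ g) (g * r * g⁻¹) := by
  refine ⟨fun e => h.1 (by simpa using e), oz_conj T g ▸ conj_mem_conjg g h.2.1, fun t ht nt x hx nx => ?_⟩
  rw [← oz_conj] at hx nx
  have := h.2.2 _ (mem_conjg.1 ht) (fun e => nt (mem_conjg.2 e)) _ (mem_conjg.1 hx) (fun e => nx (mem_conjg.2 e))
  calc t * x * t⁻¹ = g * (g⁻¹ * t * g * (g⁻¹ * x * g) * (g⁻¹ * t * g)⁻¹) * g⁻¹ := by group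
    _ = _ := by rw [this]; group

namespace Par
variable {P T Q : Subgroup G}

theorem conj (h : Par P T Q) (g : G) : Par (P :^ g) (T :^ g) (Q :^ g) where
  QT := conjg_mono g h.QT
  TP := conjg_mono g h.TP
  pT := h.pT.conjg g
  nQ := conjg_le_norm_iff.2 h.nQ
  i2 := by rw [relIndex_conjg, h.i2]
  i3 := by rw [relIndex_conjg, h.i3]
  cQ := by rw [← oz_conj, ← conjg_cent, ← conjg_inf]; exact conjg_mono g h.cQ
  nn := fun e => h.nn (conjg_le_norm_iff.1 e)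
  ff := by rw [← oz_conj, ← oz_conj, relIndex_conjg, h.ff]

theorem QP (h : Par P T Q) : Q ≤ P := h.QT.trans h.TP
theorem pQ (h : Par P T Q) : IsPGrp 2 Q := h.pT.of_le h.QT
theorem cT (h : Par P T Q) : T ⊓ 𝒞(OZ Q) ≤ Q := (inf_le_inf_right _ h.TP).trans h.cQ
theorem zz (h : Par P T Q) : OZ T ≤ OZ Q := oz_le_of_cQ h.QT h.cT
theorem nZ (h : Par P T Q) : P ≤ 𝒩(OZ Q) := h.nQ.trans (norm_oz Q)
theorem sylow (h : Par P T Q) : IsSylowOf 2 T P := sylow_mk h.TP h.pT (by rw [h.i3]; decide)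

theorem max (h : Par P T Q) {X : Subgroup G} (h1 : T ≤ X) (h2 : X ≤ P) : X = T ∨ X = P := by
  have := maximalIn_of_index_prime h.TP (by rw [h.i3]; exact Nat.prime_three)
  by_cases e : X = P
  · exact Or.inr e
  · exact Or.inl (this.2 X h1 (lt_of_le_of_ne h2 e))

theorem le_of_mem (h : Par P T Q) {X : Subgroup G} (h1 : T ≤ X) {g : G} (hg : g ∈ P) (ng : g ∉ T) (hX : g ∈ X) :
    P ≤ X := by
  rcases h.max (le_inf h1 h.TP) inf_le_right with e | e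
  · exact absurd (e ▸ (⟨hX, hg⟩ : g ∈ X ⊓ P)) ng
  · rw [← e]; exact inf_le_left

theorem T_le (h : Par P T Q) {X : Subgroup G} (h1 : Q ≤ X) {t : G} (ht : t ∈ T) (nt : t ∉ Q) (hX : t ∈ X) : T ≤ X :=
  idx2_le h.i2 ht nt h1 hX

theorem ex_t (h : Par P T Q) : ∃ t ∈ T, t ∉ Q := idx_ex (by rw [h.i2]; decide)
theorem ex_g (h : Par P T Q) : ∃ g ∈ P, g ∉ T := idx_ex (by rw [h.i3]; decide)
theorem ex_x (h : Par P T Q) : ∃ x ∈ OZ Q, x ∉ OZ T := idx_ex (by rw [h.ff]; decide)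

theorem le_Q (h : Par P T Q) {X : Subgroup G} (pX : IsPGrp 2 X) (hX : X ≤ P) (nX : P ≤ 𝒩(X)) : X ≤ Q := by
  have h1 : X ≤ T := IsPiHallOf.le_of_norm_le h.sylow pX hX (h.TP.trans nX)
  intro x hx
  by_contra nx
  have : T = Q ⊔ X := le_antisymm (h.T_le le_sup_left (h1 hx) nx (mem_sup_right hx)) (sup_le h.QT h1)
  exact h.nn (this ▸ norm_sup h.nQ nX)

theorem pcore (h : Par P T Q) : pCoreOf 2 P = Q :=
  le_antisymm (h.le_Q (pcore_pGrp 2 P) (pcore_le _ P) (pcore_norm _ P)) (pcore_max ⟨h.QP, h.nQ⟩ h.pQ)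

theorem Q_uniq {T' Q' : Subgroup G} (h : Par P T Q) (h' : Par P T' Q') : Q = Q' := h.pcore.symm.trans h'.pcore

theorem mem_T_of_norm (h : Par P T Q) {g : G} (hg : g ∈ P) (hn : g ∈ 𝒩(T)) : g ∈ T := by
  by_contra ng
  exact h.nn (h.le_of_mem le_normalizer hg ng hn)

theorem d_notin (h : Par P T Q) {d : G} (h3 : d ^ 3 = 1) (h1 : d ≠ 1) : d ∉ T := fun e => h1 (two_elt_ne3 h.pT h3 e)

theorem exists_d (h : Par P T Q) {a : G} (ha : a ∈ T) (na : a ∉ Q) (h2 : a * a = 1) :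
    ∃ d ∈ P, d ^ 3 = 1 ∧ d ≠ 1 ∧ a * d * a = d⁻¹ := by
  obtain ⟨x, xP, nx⟩ : ∃ x ∈ P, x * a * x⁻¹ ∉ T := by
    by_contra hn
    push Not at hn
    refine h.nn fun x hx => mem_norm_of_conjg_le (conjg_le_iff.2 (h.T_le ?_ ha na ?_))
    · exact fun q hq => mem_conjg_inv.2 (h.QT (conj_mem_of_le_norm h.nQ hx hq))
    · exact mem_conjg_inv.2 (hn x hx)
  set y := a * (x * a * x⁻¹) with hy
  have yP : y ∈ P := mul_mem (h.TP ha) (mul_mem (mul_mem xP (h.TP ha)) (inv_mem xP))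
  have ai := inv_of_sq h2
  have hi : a * y * a⁻¹ = y⁻¹ := by
    rw [hy]
    calc _ = (a * a) * (x * a * x⁻¹) * a⁻¹ := by group
      _ = _ := by rw [h2]; simp only [mul_inv_rev, inv_inv, ai]; group
  have hi' : ∀ z ∈ zpowers y, a * z * a⁻¹ = z⁻¹ := by
    rintro _ ⟨n, rfl⟩
    simp only
    rw [← conj_zpow, hi, inv_zpow]
  have h3 : 3 ∣ orderOf y := by
    by_contra n3
    have py : IsPGrp 2 (zpowers y) := by
      rw [IsPGrp, piGrp_zpowers_iff]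
      have hd := orderOf_dvd_card_of_mem yP
      rw [← card_mul_relIndex h.TP, h.i3] at hd
      exact PiNat.of_dvd h.pT (((Nat.Prime.coprime_iff_not_dvd Nat.prime_three).2 n3).symm.dvd_of_dvd_mul_right hd)
    have n1 : zpowers a ≤ 𝒩(zpowers y) :=
      zpowers_le.2 (mem_norm_of_forall fun z hz => by rw [hi' z hz]; exact inv_mem hz)
    have p1 : IsPGrp 2 (zpowers a ⊔ zpowers y : Subgroup G) := IsPiGrp.sup (ea_zpowers h2).pGrp py (Or.inl n1)
    have l1 : zpowers a ⊔ zpowers y ≤ P := sup_le (zpowers_le.2 (h.TP ha)) (zpowers_le.2 yP)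
    have p2 : IsPGrp 2 (Q ⊔ (zpowers a ⊔ zpowers y) : Subgroup G) := IsPiGrp.sup h.pQ p1 (Or.inr (l1.trans h.nQ))
    have := IsPiHallOf.eq_of_le h.sylow p2
      (h.T_le le_sup_left ha na (mem_sup_right (mem_sup_left (mem_zpowers a)))) (sup_le h.QP l1)
    have yT : y ∈ T := this ▸ mem_sup_right (mem_sup_right (mem_zpowers y))
    exact nx (by simpa [hy] using mul_mem (inv_mem ha) yT)
  obtain ⟨d, hd, ho⟩ := exists_mem_zpowers_orderOf_eq Nat.prime_three h3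
  refine ⟨d, zpowers_le.2 yP hd, by rw [← ho, pow_orderOf_eq_one], fun e => ?_, by rw [← hi' d hd, ai]⟩
  rw [e, orderOf_one] at ho; exact absurd ho (by decide)

theorem mem_ozT (h : Par P T Q) {t x : G} (ht : t ∈ T) (nt : t ∉ Q) (hx : x ∈ OZ Q) (hc : t * x = x * t) :
    x ∈ OZ T := by
  refine ⟨h.QT hx.1, hx.2.1, fun y hy => ?_⟩
  have : T ≤ 𝒞[x] := h.T_le (fun q hq => mem_centralizer_singleton_iff.2 (hx.2.2 q hq)) ht nt
    (mem_centralizer_singleton_iff.2 hc)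
  exact mem_centralizer_singleton_iff.1 (this hy)

theorem exists_r (h : Par P T Q) : ∃ r, RR T Q r := by
  obtain ⟨t, ht, nt⟩ := h.ex_t
  obtain ⟨x, hx, nx⟩ := h.ex_x
  have hx' : t * x * t⁻¹ ∈ OZ Q := conj_mem_of_le_norm h.nZ (h.TP ht) hx
  have cm : ∀ q ∈ Q, ∀ y ∈ OZ Q, q * y * q⁻¹ = y := fun q hq y hy => mul_inv_eq_iff_eq_mul.2 (hy.2.2 q hq)
  refine ⟨x * (t * x * t⁻¹), fun e => nx (h.mem_ozT ht nt hx ?_), h.mem_ozT ht nt (mul_mem hx hx') ?_,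
    fun s hs ns y hy ny => ?_⟩
  · have := eq_inv_of_mul_eq_one_right e
    rw [inv_of_sq hx.2.1] at this
    exact mul_inv_eq_iff_eq_mul.1 this
  · apply mul_inv_eq_iff_eq_mul.1
    calc _ = t * x * t⁻¹ * ((t * t) * x * (t * t)⁻¹) := by group
      _ = _ := by rw [cm _ (idx2_sq h.i2 ht) x hx, (oz_ea Q).comm hx hx']
  · have h1 := idx2_mul'' h.i2 ht hs nt ns
    have h2 := idx2_mul h.ff hx hy nx ny
    have h3 : y = x * (x * y) := by rw [← mul_assoc, hx.2.1, one_mul]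
    calc s * y * s⁻¹ = t * (t⁻¹ * s * y * (t⁻¹ * s)⁻¹) * t⁻¹ := by group
      _ = t * (x * (x * y)) * t⁻¹ := by rw [cm _ h1 y hy, ← h3]
      _ = t * x * t⁻¹ * (t * (x * y) * t⁻¹) := by group
      _ = t * x * t⁻¹ * (x * y) := by rw [mul_inv_eq_iff_eq_mul.2 (h2.2.2 t ht)]
      _ = _ := by
        rw [(oz_ea Q).comm hx hy, (oz_ea Q).comm hx' (mul_mem hy hx), mul_assoc]

theorem act (h : Par P T Q) {r : G} (hr : RR T Q r) {t x : G} (ht : t ∈ T) (hx : x ∈ OZ Q) :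
    t * x * t⁻¹ = x ∨ t * x * t⁻¹ = x * r := by
  by_cases nt : t ∈ Q
  · exact Or.inl (mul_inv_eq_iff_eq_mul.2 (hx.2.2 t nt))
  by_cases nx : x ∈ OZ T
  · exact Or.inl (mul_inv_eq_iff_eq_mul.2 (nx.2.2 t ht))
  · exact Or.inr (hr.2.2 t ht nt x hx nx)

theorem r_eq (h : Par P T Q) {r r' : G} (hr : RR T Q r) {t x : G} (ht : t ∈ T) (hx : x ∈ OZ Q)
    (e : t * x * t⁻¹ = x * r') (h1 : r' ≠ 1) : r' = r := by
  rcases h.act hr ht hx with e' | e' <;> rw [e] at e'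
  · exact absurd (mul_eq_left.1 e') h1
  · exact mul_left_cancel e'

theorem r_uniq (h : Par P T Q) {r r' : G} (hr : RR T Q r) (hr' : RR T Q r') : r' = r := by
  obtain ⟨t, ht, nt⟩ := h.ex_t
  obtain ⟨x, hx, nx⟩ := h.ex_x
  exact h.r_eq hr ht hx (hr'.2.2 t ht nt x hx nx) hr'.1

theorem r_not_cent (h : Par P T Q) {r : G} (hr : RR T Q r) : ¬ P ≤ 𝒞[r] := by
  intro hc
  have cr : ∀ g ∈ P, g * r * g⁻¹ = r := fun g hg =>
    mul_inv_eq_iff_eq_mul.2 (mem_centralizer_singleton_iff.1 (hc hg))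
  have r2 := hr.2.1.2.1
  -- every element of `P` acts like a transvection
  have key : ∀ g ∈ P, ∀ x ∈ OZ Q, g * x * g⁻¹ = x ∨ g * x * g⁻¹ = x * r := by
    let K : Subgroup G :=
      { carrier := {g | g ∈ P ∧ ∀ x ∈ OZ Q, g * x * g⁻¹ = x ∨ g * x * g⁻¹ = x * r}
        one_mem' := ⟨one_mem _, fun x _ => by simp⟩
        mul_mem' := fun {a b} ha hb => ⟨mul_mem ha.1 hb.1, fun x hx => by
          have e0 : a * b * x * (a * b)⁻¹ = a * (b * x * b⁻¹) * a⁻¹ := by group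
          have e1 : a * (x * r) * a⁻¹ = a * x * a⁻¹ * r := by
            conv_rhs => rw [← cr a ha.1]
            group
          rw [e0]
          rcases hb.2 x hx with e | e <;> rw [e]
          · exact ha.2 x hx
          · rw [e1]
            rcases ha.2 x hx with e | e <;> rw [e]
            · exact Or.inr rfl
            · left; rw [mul_assoc, r2, mul_one]⟩
        inv_mem' := fun {a} ha => ⟨inv_mem ha.1, fun x hx => by
          rcases ha.2 x hx with e | e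
          · left
            conv_lhs => rw [← e]
            group
          · right
            have : x = a * x * a⁻¹ * r := by rw [e, mul_assoc, r2, mul_one]
            conv_lhs => rw [this, ← cr a ha.1]
            group⟩ }
    have TK : T ≤ K := fun t ht => ⟨h.TP ht, fun x hx => h.act hr ht hx⟩
    rcases h.max TK (fun g hg => hg.1) with e | e
    · exfalso
      refine h.nn fun g hg => mem_norm_of_forall fun t ht => ?_
      rw [← e]
      refine ⟨mul_mem (mul_mem hg (h.TP ht)) (inv_mem hg), fun x hx => ?_⟩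
      have e0 : g * t * g⁻¹ * x * (g * t * g⁻¹)⁻¹ = g * (t * (g⁻¹ * x * g) * t⁻¹) * g⁻¹ := by group
      rw [e0]
      rcases h.act hr ht (conj_mem_of_le_norm' h.nZ hg hx) with e1 | e1 <;> rw [e1]
      · left; group
      · right
        conv_rhs => rw [← cr g hg]
        group
    · intro g hg
      rw [← e] at hg
      exact hg.2
  obtain ⟨d, hd, ho⟩ := exists_mem_orderOf_eq (H := P) Nat.prime_three
    (by rw [← card_mul_relIndex h.TP, h.i3]; exact dvd_mul_left _ _)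
  have h3 : d ^ 3 = 1 := by rw [← ho, pow_orderOf_eq_one]
  have hdd : d * d ∈ Q := by
    refine h.cQ ⟨mul_mem hd hd, fun x hx => (mul_inv_eq_iff_eq_mul.1 ?_).symm⟩
    have e0 : d * d * x * (d * d)⁻¹ = d * (d * x * d⁻¹) * d⁻¹ := by group
    rw [e0]
    rcases key d hd x hx with e | e
    · rw [e, e]
    · conv_lhs => rw [e]
      calc _ = d * x * d⁻¹ * (d * r * d⁻¹) := by group
        _ = x := by rw [e, cr d hd, mul_assoc, r2, mul_one]
  have : d = d * d * (d * d) := by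
    calc d = d ^ 3 * d := by rw [h3, one_mul]
      _ = _ := by simp [pow_succ, mul_assoc]
  have := two_elt_ne3 h.pQ h3 (this ▸ mul_mem hdd hdd)
  rw [this, orderOf_one] at ho
  exact absurd ho (by decide)

end Par
end CA.Amg

theorem CA.realizeEqns_Amg_Par : True := by
  have := @CA.Amg.RR.eq_1.{0}
  have := @CA.Amg.RR.eq_def.{0}
  have := @CA.Amg.RR.congr_simp.{0}
  trivial
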