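import Cfsg.Agent.Amg.Par

/-! The action of a 2-local subgroup on `Ω₁Z(O₂)`. -/

set_option linter.unusedSectionVars false
set_option linter.unusedVariables false

namespace CA.Amg
open Subgroup Cfsg CA.FG CA.BG

variable {G : Type*} [Group G]

instance instCommOZ (X : Subgroup G) : CommGroup ↥(OZ X) :=
  { (inferInstance : Group ↥(OZ X)) with mul_comm := fun a b => Subtype.ext ((oz_ea X).comm a.2 b.2) }

instance instE2OZ (X : Subgroup G) : E2 ↥(OZ X) := ⟨fun v => Subtype.ext v.2.2.1⟩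

def fz (Q : Subgroup G) : ↥𝒩(OZ Q) →* MulAut ↥(OZ Q) := (OZ Q).normalizerMonoidHom

open Classical in
noncomputable def ph (Q : Subgroup G) (g : G) : MulAut ↥(OZ Q) := if h : g ∈ 𝒩(OZ Q) then fz Q ⟨g, h⟩ else 1

variable {Q : Subgroup G}

theorem ph_eq {g : G} (h : g ∈ 𝒩(OZ Q)) : ph Q g = fz Q ⟨g, h⟩ := dif_pos h

theorem ph_coe {g : G} (h : g ∈ 𝒩(OZ Q)) (v : OZ Q) : (ph Q g v : G) = g * v * g⁻¹ := by
  rw [ph_eq h]; rfl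

theorem ph_mul {g k : G} (hg : g ∈ 𝒩(OZ Q)) (hk : k ∈ 𝒩(OZ Q)) : ph Q (g * k) = ph Q g * ph Q k := by
  rw [ph_eq hg, ph_eq hk, ph_eq (mul_mem hg hk), ← map_mul]; rfl

theorem ph_one : ph Q 1 = 1 := by rw [ph_eq (one_mem _)]; exact map_one _

theorem ph_inv {g : G} (hg : g ∈ 𝒩(OZ Q)) : ph Q g⁻¹ = (ph Q g)⁻¹ := by
  rw [ph_eq hg, ph_eq (inv_mem hg), ← map_inv]; rfl

theorem ph_pow {g : G} (hg : g ∈ 𝒩(OZ Q)) (n : ℕ) : ph Q (g ^ n) = ph Q g ^ n := by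
  rw [ph_eq hg, ph_eq (pow_mem hg n), ← map_pow]; rfl

theorem ph_conj {g k : G} (hg : g ∈ 𝒩(OZ Q)) (hk : k ∈ 𝒩(OZ Q)) :
    ph Q (g * k * g⁻¹) = ph Q g * ph Q k * (ph Q g)⁻¹ := by
  rw [ph_mul (mul_mem hg hk) (inv_mem hg), ph_mul hg hk, ph_inv hg]

theorem ph_fix_iff {g : G} (hg : g ∈ 𝒩(OZ Q)) {v : OZ Q} : ph Q g v = v ↔ g * v = v * g := by
  rw [← mul_inv_eq_iff_eq_mul, ← ph_coe hg, Subtype.ext_iff]

theorem ph_eq_one {g : G} (hg : g ∈ 𝒩(OZ Q)) : ph Q g = 1 ↔ g ∈ 𝒞(OZ Q) := by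
  constructor
  · intro h v hv
    exact ((ph_fix_iff hg (v := ⟨v, hv⟩)).1 (by rw [h]; rfl)).symm
  · intro h
    ext v
    rw [(ph_fix_iff hg).2 (h v v.2).symm]; rfl

theorem ph_of_cent {g : G} (hg : g ∈ 𝒞(OZ Q)) : ph Q g = 1 := (ph_eq_one (cent_le_norm _ hg)).2 hg

theorem ph_of_mem {g : G} (hg : g ∈ Q) : ph Q g = 1 := ph_of_cent (le_cent_oz Q hg)

theorem mem_im {X : Subgroup G} (hX : X ≤ 𝒩(OZ Q)) {x : MulAut (OZ Q)} :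
    x ∈ img (fz Q) X ↔ ∃ g ∈ X, ph Q g = x := by
  rw [mem_img]
  constructor
  · rintro ⟨g, hg, rfl⟩; exact ⟨g, hg, ph_eq g.2⟩
  · rintro ⟨g, hg, rfl⟩; exact ⟨⟨g, hX hg⟩, hg, (ph_eq _).symm⟩

theorem ph_mem {X : Subgroup G} (hX : X ≤ 𝒩(OZ Q)) {g : G} (hg : g ∈ X) : ph Q g ∈ img (fz Q) X :=
  (mem_im hX).2 ⟨g, hg, rfl⟩

theorem mem_pr {Y : Subgroup (MulAut (OZ Q))} {g : G} (hg : g ∈ 𝒩(OZ Q)) : g ∈ pre (fz Q) Y ↔ ph Q g ∈ Y := by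
  rw [mem_pre, ph_eq hg]
  exact ⟨fun ⟨_, h⟩ => h, fun h => ⟨hg, h⟩⟩

theorem pr_bot : pre (fz Q) ⊥ = 𝒞(OZ Q) := by
  ext g
  constructor
  · intro h
    have hg := pre_le _ _ h
    exact (ph_eq_one hg).1 ((mem_pr hg).1 h)
  · intro h
    exact (mem_pr (cent_le_norm _ h)).2 (ph_of_cent h)

theorem ph_two {g : G} (hg : g ∈ 𝒩(OZ Q)) {k : ℕ} (h : g ^ 2 ^ k = 1) : ph Q g ^ 2 ^ k = 1 := by
  rw [← ph_pow hg, h, ph_one]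

variable [Finite G]

theorem two_pow_of_mem {T : Subgroup G} (hT : IsPGrp 2 T) {x : G} (hx : x ∈ T) : ∃ k, x ^ 2 ^ k = 1 :=
  (pElt_iff Nat.prime_two).1 (hT.piElt hx)

theorem pGrp_zpowers {x : G} {k : ℕ} (h : x ^ 2 ^ k = 1) : IsPGrp 2 (zpowers x) :=
  piGrp_zpowers_iff.2 ((pElt_iff Nat.prime_two).2 ⟨k, h⟩)

theorem idx2_mk {K H : Subgroup G} {a : G} (ha : a ∈ H) (na : a ∉ K) (h : ∀ y ∈ H, y ∉ K → y * a ∈ K) :
    K.relIndex H = 2 := by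
  rw [relIndex, index_eq_two_iff]
  refine ⟨⟨a, ha⟩, fun b => ?_⟩
  by_cases hb : (b : G) ∈ K
  · exact Or.inr ⟨hb, fun e => na (by simpa using mul_mem (inv_mem hb) e)⟩
  · exact Or.inl ⟨h b b.2 hb, hb⟩

/-- the commutator space as a subgroup of `G` -/
noncomputable def WG (Q : Subgroup G) (d : G) : Subgroup G := (Wd (ph Q d)).map (OZ Q).subtype

theorem WG_le (d : G) : WG Q d ≤ OZ Q := map_subtype_le _

theorem mem_WG {d : G} {v : OZ Q} : (v : G) ∈ WG Q d ↔ v ∈ Wd (ph Q d) :=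
  ⟨fun ⟨w, hw, e⟩ => Subtype.ext e ▸ hw, fun h => ⟨v, h, rfl⟩⟩

theorem norm_WG {d g : G} (hg : g ∈ 𝒩(OZ Q)) (h : ∀ w ∈ Wd (ph Q d), ph Q g w ∈ Wd (ph Q d)) : g ∈ 𝒩(WG Q d) := by
  refine mem_norm_of_forall ?_
  rintro _ ⟨w, hw, rfl⟩
  exact ⟨_, h w hw, ph_coe hg w⟩

theorem Bl.WG_cases {a d : G} {r : OZ Q} (h : Bl (ph Q a) (ph Q d) r) (hd : d ∈ 𝒩(OZ Q)) {w : G} (hw : w ∈ WG Q d) :
    w = 1 ∨ w = r ∨ w = d * r * d⁻¹ ∨ w = r * (d * r * d⁻¹) := by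
  obtain ⟨v, hv, rfl⟩ := hw
  rw [← ph_coe hd]
  rcases h.W v hv with e | e | e | e <;> rw [e] <;> simp

theorem Bl.card_WG {a d : G} {r : OZ Q} (h : Bl (ph Q a) (ph Q d) r) : Nat.card (WG Q d) = 4 := by
  rw [WG, card_map_of_injective (OZ Q).subtype_injective, h.card]

/-- hypotheses on a 2-local subgroup -/
structure Lc (L : Subgroup G) : Prop where
  sol : Group.IsSolvable L
  cQ : 𝒞(pCoreOf 2 L) ≤ pCoreOf 2 L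
  hZ : ∀ S : Subgroup G, IsSylowOf 2 S ⊤ → 𝒞(OZ S) ≤ 𝒩(S)

namespace Lc
variable (L : Subgroup G)

local notation "𝑸" => pCoreOf 2 L

theorem nQ : L ≤ 𝒩(𝑸) := pcore_norm _ L
theorem nV : L ≤ 𝒩(OZ 𝑸) := (pcore_norm _ L).trans (norm_oz _)
theorem QL : 𝑸 ≤ L := pcore_le _ L
theorem pQ : IsPGrp 2 𝑸 := pcore_pGrp 2 L
theorem nC : L ⊓ 𝒞(OZ 𝑸) ⊲ L := inf_cent_normalIn_of_norm (nV L)
variable {L}
theorem p_sup {R : Subgroup G} (hR : IsPGrp 2 R) (h : R ≤ L) : IsPGrp 2 (R ⊔ 𝑸 : Subgroup G) :=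
  IsPiGrp.sup hR (pQ L) (Or.inl (h.trans (nQ L)))

theorem comm_mem (h : Lc L) {c x : G} {k : ℕ} (hc : c ∈ L ⊓ 𝒞(OZ 𝑸)) (hx : x ∈ L) (h2 : x ^ 2 ^ k = 1) :
    c * x * c⁻¹ * x⁻¹ ∈ 𝑸 := by
  obtain ⟨S, hS, le⟩ := sylow_superset (M := ⊤) Nat.prime_two (p_sup (pGrp_zpowers h2) (zpowers_le.2 hx)) le_top
  have QS : 𝑸 ≤ S := le_sup_right.trans le
  have xS : x ∈ S := le (mem_sup_left (mem_zpowers x))
  have h1 : OZ S ≤ OZ 𝑸 := fun z hz => oz_of_le QS hz (h.cQ fun y hy => hz.2.2 y (QS hy))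
  have nS : L ⊓ 𝒞(OZ 𝑸) ≤ 𝒩(S) := inf_le_right.trans ((cent_anti h1).trans (h.hZ S hS))
  have h3 : (L ⊓ 𝒞(OZ 𝑸)) ⊓ S ≤ 𝑸 :=
    (pcore_max (inf_normalIn_of_norm nS) (IsPiGrp.inf_right hS.pGrp _)).trans ((nC L).pcore_le _)
  refine h3 (mem_inf.2 ⟨?_, mul_mem (conj_mem_of_le_norm nS hc xS) (inv_mem xS)⟩)
  have := mul_mem hc (conj_mem_of_le_norm (nC L).2 hx (inv_mem hc))
  rwa [show c * (x * c⁻¹ * x⁻¹) = c * x * c⁻¹ * x⁻¹ by group] at this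

theorem cR (h : Lc L) {R : Subgroup G} (hR : IsPGrp 2 R) (h1 : 𝑸 ≤ R) (h2 : R ≤ L) : L ⊓ 𝒞(OZ 𝑸) ≤ 𝒩(R) := by
  intro c hc
  refine mem_norm_of_forall fun x hx => ?_
  obtain ⟨k, hk⟩ := two_pow_of_mem hR hx
  simpa using mul_mem (h1 (h.comm_mem hc (h2 hx) hk)) hx

theorem two_C (h : Lc L) {c : G} {k : ℕ} (hc : c ∈ L ⊓ 𝒞(OZ 𝑸)) (h2 : c ^ 2 ^ k = 1) : c ∈ 𝑸 := by
  have l1 : zpowers c ≤ L := zpowers_le.2 hc.1
  have p1 := p_sup (pGrp_zpowers h2) l1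
  have : zpowers c ⊔ 𝑸 ≤ 𝑸 :=
    (pcore_max ⟨sup_le (zpowers_le.2 hc) (le_inf (QL L) (le_cent_oz _)),
      h.cR p1 le_sup_right (sup_le l1 (QL L))⟩ p1).trans ((nC L).pcore_le _)
  exact this (mem_sup_left (mem_zpowers c))

theorem same (h : Lc L) {x y : G} {k l : ℕ} (hx : x ∈ L) (hy : y ∈ L) (x2 : x ^ 2 ^ k = 1) (y2 : y ^ 2 ^ l = 1)
    (e : ph 𝑸 x = ph 𝑸 y) : x * y⁻¹ ∈ 𝑸 := by
  have hc : x * y⁻¹ ∈ L ⊓ 𝒞(OZ 𝑸) := mem_inf.2 ⟨mul_mem hx (inv_mem hy), (ph_eq_one (nV L (mul_mem hx (inv_mem hy)))).1 (by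
    rw [ph_mul (nV L hx) (nV L (inv_mem hy)), ph_inv (nV L hy), e, mul_inv_cancel])⟩
  have l1 : zpowers y ≤ L := zpowers_le.2 hy
  have p1 := p_sup (pGrp_zpowers y2) l1
  have yR : y ∈ zpowers y ⊔ 𝑸 := mem_sup_left (mem_zpowers y)
  have n1 : x ∈ 𝒩(zpowers y ⊔ 𝑸) := by
    simpa using mul_mem (h.cR p1 le_sup_right (sup_le l1 (QL L)) hc) (le_normalizer yR)
  have p2 : IsPGrp 2 (zpowers x ⊔ (zpowers y ⊔ 𝑸) : Subgroup G) :=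
    IsPiGrp.sup (pGrp_zpowers x2) p1 (Or.inl (zpowers_le.2 n1))
  obtain ⟨m, hm⟩ := two_pow_of_mem p2 (mul_mem (mem_sup_left (mem_zpowers x)) (inv_mem (mem_sup_right yR)))
  exact h.two_C hc hm

theorem hy (h : Lc L) : Hy (img (fz 𝑸) L) := by
  refine ⟨sol_img _ h.sol, ?_⟩
  set Y := pCoreOf 2 (img (fz 𝑸) L) with hY
  have nK : L ⊓ pre (fz 𝑸) Y ⊲ L := inf_normalIn_of_norm (le_norm_pre (nV L) (pcore_norm _ _))
  set K := L ⊓ pre (fz 𝑸) Y with hK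
  have CK : L ⊓ 𝒞(OZ 𝑸) ≤ K := inf_le_inf_left L (pr_bot.ge.trans (pre_bot_le_pre _ Y))
  have QC : 𝑸 ≤ L ⊓ 𝒞(OZ 𝑸) := le_inf (QL L) (le_cent_oz _)
  obtain ⟨R, hR, QR⟩ := sylow_superset Nat.prime_two (pQ L) (QC.trans CK)
  have hi : PiNat {2} ((L ⊓ 𝒞(OZ 𝑸)).relIndex K) := by
    have e1 := card_img_of_le (f := fz 𝑸) (nK.1.trans (nV L))
    have e2 : (L ⊓ 𝒞(OZ 𝑸)).relIndex K = (𝒞(OZ 𝑸)).relIndex K := by
      rw [← inf_relIndex_right (L ⊓ _) K, ← inf_relIndex_right 𝒞(OZ 𝑸) K]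
      congr 1
      exact le_antisymm (inf_le_inf_right _ inf_le_right) (le_inf (le_inf (inf_le_right.trans nK.1) inf_le_left) inf_le_right)
    rw [e2, ← pr_bot, ← e1]
    exact (pcore_pGrp 2 _).of_le (img_le_of_le_pre inf_le_right)
  have e3 := IsPiHallOf.sup_eq_of_index hR CK hi
  have nR : K ≤ 𝒩(R) := e3 ▸ sup_le (h.cR hR.pGrp QR (hR.le.trans nK.1)) le_normalizer
  have RQ : R ≤ 𝑸 := (pcore_max ⟨hR.le, nR⟩ hR.pGrp).trans (nK.pcore_le _)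
  refine le_bot_iff.1 fun y hy => ?_
  obtain ⟨g, hg, rfl⟩ := (mem_im (nV L)).1 (pcore_le _ _ hy)
  have : g ∈ K := ⟨hg, (mem_pr (nV L hg)).2 hy⟩
  rw [← e3, sup_eq_left.2 (RQ.trans QC)] at this
  exact ph_of_cent this.2

theorem bo {R A : Subgroup G} (h1 : 𝑸 ≤ R) (h2 : R ≤ L) (hA : Am R A) :
    ∀ B ≤ img (fz 𝑸) A, Nat.card (Fx B) * Nat.card B ≤ Nat.card (Fx (img (fz 𝑸) A)) * Nat.card (img (fz 𝑸) A) := by
  intro B' hB'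
  have nA : A ≤ 𝒩(OZ 𝑸) := hA.1.trans (h2.trans (nV L))
  set B := A ⊓ pre (fz 𝑸) B' with hB
  have iB : img (fz 𝑸) B = B' := by rw [hB, img_inf_pre, inf_eq_right.2 hB']
  set W := (Fx B').map (OZ 𝑸).subtype with hW
  have cW : B ≤ 𝒞(W) := by
    rintro b hb _ ⟨w, hw, rfl⟩
    exact ((ph_fix_iff (nA hb.1)).1 (hw _ ((mem_pr (nA hb.1)).1 hb.2))).symm
  have k1 := hA.2.2 _ (sup_le (inf_le_left.trans hA.1) ((map_subtype_le _).trans ((oz_le _).trans h1)))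
    ((hA.2.1.le inf_le_left).sup ((oz_ea _).le (map_subtype_le _)) cW)
  have k2 := card_sup_mul_card_inf (Or.inl (norm_of_cent cW))
  have k3 : B ⊓ W ≤ (Fx (img (fz 𝑸) A)).map (OZ 𝑸).subtype := by
    rintro _ ⟨xB, w, hw, rfl⟩
    refine ⟨w, fun a ha => ?_, rfl⟩
    obtain ⟨g, hg, rfl⟩ := (mem_im nA).1 ha
    exact (ph_fix_iff (nA hg)).2 (hA.2.1.comm hg xB.1)
  have k4 := Subgroup.card_le_of_le k3
  rw [card_map_of_injective (OZ 𝑸).subtype_injective] at k4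
  have k5 : Nat.card W = Nat.card (Fx B') := card_map_of_injective (OZ 𝑸).subtype_injective
  have k6 := card_inf_mul_relIndex (pre (fz 𝑸) ⊥) A
  have k7 := card_inf_mul_relIndex (pre (fz 𝑸) ⊥) B
  rw [← card_img_of_le nA] at k6
  rw [← card_img_of_le (inf_le_left.trans nA), iB, show pre (fz 𝑸) ⊥ ⊓ B = pre (fz 𝑸) ⊥ ⊓ A from
    le_antisymm (inf_le_inf_left _ inf_le_left)
      (le_inf inf_le_left (le_inf inf_le_right (inf_le_left.trans (pre_bot_le_pre _ _))))] at k7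
  have p1 : 0 < Nat.card (pre (fz 𝑸) ⊥ ⊓ A : Subgroup G) := Nat.card_pos
  have k8 : Nat.card B * Nat.card W ≤ Nat.card A * Nat.card (Fx (img (fz 𝑸) A)) := by
    rw [← k2]; exact Nat.mul_le_mul k1 k4
  rw [← k6, ← k7, k5, mul_assoc, mul_assoc] at k8
  have := Nat.le_of_mul_le_mul_left k8 p1
  rwa [mul_comm, mul_comm (Nat.card (img (fz 𝑸) A))] at this

theorem ff (h : Lc L) {R A X : Subgroup G} (h1 : 𝑸 ≤ R) (h2 : R ≤ L) (hA : Am R A) (hQ : A ⊓ 𝑸 ≤ X)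
    (hT : ∀ a ∈ A, ∀ r, Tv (ph 𝑸 a) r → a ∈ X) : A ≤ X := by
  have AL := hA.1.trans h2
  have nA : A ≤ 𝒩(OZ 𝑸) := AL.trans (nV L)
  have hE : EA (img (fz 𝑸) A) := fun x hx => by
    obtain ⟨g, hg, rfl⟩ := (mem_im nA).1 hx
    rw [← ph_mul (nA hg) (nA hg), hA.2.1 g hg, ph_one]
  have k1 := h.hy.ff _ _ rfl (img_mono _ AL) hE.elem (bo h1 h2 hA)
  have k2 : img (fz 𝑸) A ≤ img (fz 𝑸) (A ⊓ X) := by
    refine k1.trans ((closure_le _).2 ?_)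
    rintro x ⟨hx, r, hr⟩
    obtain ⟨g, hg, rfl⟩ := (mem_im nA).1 hx
    exact ph_mem (inf_le_left.trans nA) ⟨hg, hT g hg r hr⟩
  intro a ha
  obtain ⟨x, hx, e⟩ := (mem_im (inf_le_left.trans nA)).1 (k2 (ph_mem nA ha))
  have := h.same (k := 1) (l := 1) (AL ha) (AL hx.1) (by rw [pow_one, pow_two, hA.2.1 a ha])
    (by rw [pow_one, pow_two, hA.2.1 x hx.1]) e.symm
  simpa using mul_mem (hQ (mem_inf.2 ⟨mul_mem ha (inv_mem hx.1), this⟩)) hx.2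

theorem inv_C (h : Lc L) {a c : G} (ha : a ∈ L) (a2 : a * a = 1) (hc : c ∈ L ⊓ 𝒞(OZ 𝑸)) (hi : a * c * a = c⁻¹)
    (ho : IsPiElt {2}ᶜ c) : c = 1 := by
  have h1 := h.comm_mem (k := 1) hc ha (by rw [pow_one, pow_two, a2])
  have e : c * a * c⁻¹ * a⁻¹ = c * c := by
    rw [← hi, inv_of_sq a2]
    calc _ = c * (a * a) * c * (a * a) := by group
      _ = _ := by rw [a2]; group
  rw [e] at h1
  have h2 : c * c = 1 := IsPiElt.eq_one ((pQ L).piElt h1) (ho.mul ho rfl)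
  exact IsPiElt.eq_one (pElt_of_pow_eq_one Nat.prime_two (by rw [pow_two, h2])) ho

theorem three_odd {d : G} (h3 : d ^ 3 = 1) : IsPiElt {2}ᶜ d :=
  PiNat.mono (pElt_of_pow_eq_one Nat.prime_three h3) (by simp)

theorem bl_of (h : Lc L) {a d : G} {r : OZ 𝑸} (ha : a ∈ L) (a2 : a * a = 1) (hd : d ∈ L) (h3 : d ^ 3 = 1) (h1 : d ≠ 1)
    (hi : a * d * a = d⁻¹) (hT : Tv (ph 𝑸 a) r) : Bl (ph 𝑸 a) (ph 𝑸 d) r := by
  refine hT.bl ?_ (Bl.ord3 (by rw [← ph_pow (nV L hd), h3, ph_one])) fun e => h1 ?_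
  · rw [← ph_mul (nV L ha) (nV L hd), ← ph_mul (nV L (mul_mem ha hd)) (nV L ha), hi, ph_inv (nV L hd)]
  · exact h.inv_C ha a2 ⟨hd, (ph_eq_one (nV L hd)).1 e⟩ hi (three_odd h3)

theorem lift (h : Lc L) {a : G} {r : OZ 𝑸} (ha : a ∈ L) (a2 : a * a = 1) (hT : Tv (ph 𝑸 a) r) :
    ∃ d ∈ L, d ^ 3 = 1 ∧ d ≠ 1 ∧ a * d * a = d⁻¹ ∧ Bl (ph 𝑸 a) (ph 𝑸 d) r := by
  obtain ⟨e, he, hb⟩ := h.hy.exists_bl hT (ph_mem (nV L) ha)
  obtain ⟨x, hx, rfl⟩ := (mem_im (nV L)).1 (pcore_le _ _ he)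
  set y := a * (x * a * x⁻¹) with hy
  have yL : y ∈ L := mul_mem ha (mul_mem (mul_mem hx ha) (inv_mem hx))
  have ai := inv_of_sq a2
  have hi : a * y * a⁻¹ = y⁻¹ := by
    rw [hy]
    calc _ = (a * a) * (x * a * x⁻¹) * a⁻¹ := by group
      _ = _ := by rw [a2]; simp only [mul_inv_rev, inv_inv, ai]; group
  have hi' : ∀ z ∈ zpowers y, a * z * a = z⁻¹ := by
    rintro _ ⟨n, rfl⟩
    simp only
    have : a * y ^ n * a⁻¹ = (y ^ n)⁻¹ := by rw [← conj_zpow, hi, inv_zpow]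
    rwa [ai] at this
  have py : ph 𝑸 y = ph 𝑸 x := by
    rw [hy, ph_mul (nV L ha) (nV L (mul_mem (mul_mem hx ha) (inv_mem hx))), ph_conj (nV L hx) (nV L ha)]
    calc _ = (ph 𝑸 a * ph 𝑸 x * ph 𝑸 a) * (ph 𝑸 x)⁻¹ := by group
      _ = _ := by rw [hb.inv]; have := hb.symm.inv_eq; rw [inv_inv] at this; exact this.symm
  obtain ⟨u, d, hu, hd, pu, pd, e, -⟩ := exists_piPart {2} y
  have uL := zpowers_le.2 yL hu
  have dL := zpowers_le.2 yL hd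
  have u1 : ph 𝑸 u = 1 := by
    obtain ⟨k, hk⟩ := (pElt_iff Nat.prime_two).1 pu
    obtain ⟨n, hn⟩ := mem_powers_iff_mem_zpowers.2 hu
    have h3 : ph 𝑸 u ^ 3 = 1 := by
      rw [← hn, ph_pow (nV L yL), py, ← pow_mul, mul_comm, pow_mul, hb.d3, one_pow]
    exact two_elt_ne3 (pGrp_zpowers (ph_two (nV L uL) hk)) h3 (mem_zpowers _)
  have pd' : ph 𝑸 d = ph 𝑸 x := by rw [← py, e, ph_mul (nV L uL) (nV L dL), u1, one_mul]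
  have d3 : d ^ 3 = 1 := h.inv_C ha a2 ⟨pow_mem dL 3, (ph_eq_one (nV L (pow_mem dL 3))).1 (by
    rw [ph_pow (nV L dL), pd', hb.d3])⟩ (hi' _ (pow_mem hd 3)) (pd.pow 3)
  refine ⟨d, dL, d3, fun e1 => hb.ne ?_, hi' d hd, pd' ▸ hb⟩
  rw [← pd', e1, ph_one]

end Lc
end CA.Amg

theorem CA.realizeEqns_Amg_Ph : True := by
  have := @CA.Amg.ph.eq_1.{0}
  have := @CA.Amg.ph.eq_def.{0}
  have := @CA.Amg.ph.congr_simp.{0}
  have := @CA.Amg.fz.eq_1.{0}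
  have := @CA.Amg.fz.eq_def.{0}
  have := @CA.Amg.fz.congr_simp.{0}
  have := @CA.Amg.WG.eq_1.{0}
  have := @CA.Amg.WG.eq_def.{0}
  have := @CA.Amg.WG.congr_simp.{0}
  trivial
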