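import Cfsg.Agent.Amg.Fin
import Cfsg.Agent.Fi.Words

/-! Transfer and identification of the parabolics. -/

set_option linter.unusedSectionVars false
set_option linter.unusedVariables false

namespace CA.Amg
open Subgroup Cfsg CA.FG CA.BG

variable {G : Type*} [Group G] [Finite G]

theorem tt_transfer {H : Subgroup G} {m : ℕ} (hm : Odd m) (hH : H.index = 2 * m) {e : G}
    (he : e * e = 1) (hf : ∀ g : G, g⁻¹ * e * g ∉ H) : ∃ φ : G →* ℤˣ, φ e = -1 := by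
  classical
  have := Fintype.ofFinite (G ⧸ H)
  refine ⟨Equiv.Perm.sign.comp (MulAction.toPermHom G (G ⧸ H)), ?_⟩
  rw [MonoidHom.comp_apply, Equiv.Perm.sign_of_pow_two_eq_one (by rw [← map_pow, pow_two, he, map_one])]
  have : Fintype.card (Function.fixedPoints (MulAction.toPermHom G (G ⧸ H) e)) = 0 := by
    rw [Fintype.card_eq_zero_iff]
    refine ⟨fun ⟨c, hc⟩ => ?_⟩
    obtain ⟨g, rfl⟩ := QuotientGroup.mk_surjective c
    have h1 : ((e * g : G) : G ⧸ H) = g := hc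
    have h2 := inv_mem (QuotientGroup.eq.1 h1)
    exact hf g (by simpa [mul_assoc] using h2)
  rw [this, ← Nat.card_eq_fintype_card, ← index, hH, Nat.sub_zero, Nat.mul_div_cancel_left _ two_pos,
    hm.neg_one_pow]

theorem ext2 {K : Subgroup G} {x : G} (hx : x ∈ 𝒩(K)) (h2 : x * x ∈ K) :
    ∃ K' : Subgroup G, ∀ y, y ∈ K' ↔ y ∈ K ∨ x⁻¹ * y ∈ K := by
  refine ⟨{ carrier := {y | y ∈ K ∨ x⁻¹ * y ∈ K}, one_mem' := Or.inl (one_mem _), mul_mem' := ?_, inv_mem' := ?_ },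
    fun y => Iff.rfl⟩
  · rintro a b (ha | ha) (hb | hb)
    · exact Or.inl (mul_mem ha hb)
    · right
      have := mul_mem (conj_mem_of_mem_norm' hx ha) hb
      rwa [show x⁻¹ * a * x * (x⁻¹ * b) = x⁻¹ * (a * b) by group] at this
    · exact Or.inr (by rw [← mul_assoc]; exact mul_mem ha hb)
    · left
      have := mul_mem (mul_mem (conj_mem_of_mem_norm hx ha) h2) hb
      rwa [show x * (x⁻¹ * a) * x⁻¹ * (x * x) * (x⁻¹ * b) = a * b by group] at this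
  · rintro a (ha | ha)
    · exact Or.inl (inv_mem ha)
    · right
      have := mul_mem (conj_mem_of_mem_norm' hx (inv_mem ha)) (inv_mem h2)
      rwa [show x⁻¹ * (x⁻¹ * a)⁻¹ * x * (x * x)⁻¹ = x⁻¹ * a⁻¹ by group] at this

theorem odd_ker {H : Subgroup G} (hH : H = closure {g : G | Odd (orderOf g)}) (φ : G →* ℤˣ) {x : G} (hx : x ∈ H) :
    φ x = 1 := by
  have : H ≤ φ.ker := by
    rw [hH, closure_le]
    intro g hg
    exact odd_sq (Odd.of_dvd_nat hg (orderOf_map_dvd φ g)) (Int.units_mul_self _)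
  exact this hx

theorem odd_norm {H : Subgroup G} (hH : H = closure {g : G | Odd (orderOf g)}) (A : Subgroup G) : A ≤ 𝒩(H) :=
  hH ▸ norm_closure fun a _ x hx => by
    change Odd (orderOf _)
    rw [CA.FG.orderOf_conj]; exact hx

namespace Fn
variable {B P1 Q1 P2 Q2 : Subgroup G} {r : G}

theorem Q0 (F : Fn B P1 Q1 P2 Q2 r) : Q1 ≠ ⊥ := ne_bot_of_mem (F.ZQ F.rZ) F.r1.1

theorem gp_le (F : Fn B P1 Q1 P2 Q2 r) {P : Subgroup G} (h : GP B P Q1) : P ≤ P1 :=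
  (F.g1.use2 F.hG h F.p1.pQ F.Q0 F.p1.nQ h.1.nQ F.r1).trans F.normW

theorem n3 (F : Fn B P1 Q1 P2 Q2 r) {R : Subgroup G} (pR : IsPGrp 2 R) (BR : B ≤ R) (h1 : R ≤ 𝒩(B)) {y : G}
    (hy : y ∈ R) (h2 : y ∈ 𝒩(Q1)) : y ∈ B := by
  refine (F.good (R := R ⊓ 𝒩(Q1)) (loc_mk F.p1.pQ F.Q0) F.p1.nQ (IsPiGrp.inf_left pR _)
    (le_inf BR (F.p1.TP.trans F.p1.nQ)) inf_le_right).2 ⟨⟨hy, h2⟩, F.cent_Z (h1 hy) fun c hc => ?_⟩
  have := F.g1.conj (h1 hy)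
  rw [conjg_of_mem_norm h2] at this
  exact conj_mem_of_mem_norm (norm_inf (zpowers_le.2 (h1 hy))
    (norm_cent (zpowers_le.2 (mem_norm_of_conjg_le (F.gp_le this)))) (mem_zpowers y)) hc

theorem cardQ (F : Fn B P1 Q1 P2 Q2 r) : Nat.card Q1 = Nat.card Q2 := F.symm.am.card.trans F.am.card.symm

theorem swap_of (F : Fn B P1 Q1 P2 Q2 r) {y : G} (hy : y ∈ 𝒩(B)) (h : y ∉ 𝒩(Q1)) : Q1 :^ y = Q2 :=
  Subgroup.eq_of_le_of_card_ge ((F.ea_le (conjg_le_of_mem_norm F.p1.QT hy) (F.e1.conj y)).resolve_left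
    fun e => h (mem_norm_of_conjg_le e)) (by rw [card_conjg, F.cardQ])

theorem swP (F : Fn B P1 Q1 P2 Q2 r) {y : G} (hy : y ∈ 𝒩(B)) (h : Q1 :^ y = Q2) : P1 :^ y ≤ P2 :=
  F.symm.gp_le (h ▸ F.g1.conj hy)

theorem swW (F : Fn B P1 Q1 P2 Q2 r) {y : G} (hy : y ∈ 𝒩(B)) (h : Q1 :^ y = Q2) {w : G} (hw : w ∈ WW P1 r) :
    y * w * y⁻¹ ∈ WW P2 r := by
  have := WW_conj P1 r y (conj_mem_conjg y hw)
  rw [F.fix_r hy] at this
  exact WW_le (self_mem_WW P2 r) ((F.swP hy h).trans (norm_WW P2 r)) this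

theorem cardP (F : Fn B P1 Q1 P2 Q2 r) : Nat.card P1 = Nat.card B * 3 := by
  rw [← card_mul_relIndex F.p1.TP, F.p1.i3]

theorem swC (F : Fn B P1 Q1 P2 Q2 r) {y : G} (hy : y ∈ 𝒩(B)) (h : Q1 :^ y = Q2) {c : G} (hc : c ∈ B ⊓ 𝒞(P1)) :
    y * c * y⁻¹ ∈ B ⊓ 𝒞(P2) := by
  have e := Subgroup.eq_of_le_of_card_ge (F.swP hy h) (by rw [card_conjg, F.cardP, F.symm.cardP])
  rw [← e, ← conjg_cent]
  exact ⟨conj_mem_of_mem_norm hy hc.1, conj_mem_conjg y hc.2⟩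

theorem swc (F : Fn B P1 Q1 P2 Q2 r) {y : G} (hy : y ∈ 𝒩(B)) (h : Q1 :^ y = Q2) {c : G} (hc : c ∈ B ⊓ 𝒞(P1))
    (c1 : c ≠ 1) : y * c * y⁻¹ = c * r :=
  (F.symm.Cu (F.Cr hc c1) (F.swC hy h hc) fun e => F.rC (by
    rw [← inv_of_sq F.rr, ← eq_inv_of_mul_eq_one_left e]; exact hc)).resolve_left fun e => c1 (by simpa using e)

theorem not_conj (F : Fn B P1 Q1 P2 Q2 r) {c : G} (hc : c ∈ B ⊓ 𝒞(P1)) (c1 : c ≠ 1) (g : G) : g * r * g⁻¹ ≠ c := by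
  intro e
  have PC : P1 ≤ 𝒞[c] := mem_cent_iff_le_cent_singleton.1 hc.2
  have CN : 𝒞[c] ≤ 𝒩(zpowers c) := norm_zpowers_of_cent le_rfl
  have hL := loc_mk (ea_zpowers (F.CZ hc).2.1).pGrp (fun e => c1 (zpowers_eq_bot.1 e))
  have sy : IsSylowOf 2 B 𝒞[c] := by
    refine sylow_of_maximal Nat.prime_two F.p1.pT (F.p1.TP.trans PC) fun R pR BR RC => le_antisymm (fun q hq => ?_) BR
    obtain ⟨k1, k2⟩ := F.good hL (PC.trans CN) pR BR (RC.trans CN)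
    refine k2 ⟨hq, F.cent_Z (k1 hq) fun c' hc' => ?_⟩
    rcases F.Cu hc hc' c1 with e | e <;> rw [e]
    · simp
    · rw [mul_inv_eq_iff_eq_mul.2 (mem_centralizer_singleton_iff.1 (RC hq))]; exact hc
  have l1 : B :^ g ≤ 𝒞[c] := by
    rw [← e, ← conjg_cent1]
    exact conjg_mono g fun b hb => mem_centralizer_singleton_iff.2 (F.cr hb)
  obtain ⟨u, hu, e1⟩ := sylow_trans Nat.prime_two sy (IsPiHallOf.of_card_eq sy l1 (card_conjg B g))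
  have e2 := F.fix_r (conjg_eq_conjg_iff.1 e1)
  refine F.rC (e2 ▸ ?_)
  rw [show u⁻¹ * g * r * (u⁻¹ * g)⁻¹ = u⁻¹ * (g * r * g⁻¹) * u by group, e, mul_assoc,
    ← mem_centralizer_singleton_iff.1 hu, inv_mul_cancel_left]
  exact hc

theorem WB (F : Fn B P1 Q1 P2 Q2 r) : WW P1 r ≤ B := F.WQ.trans F.p1.QT
theorem nW (F : Fn B P1 Q1 P2 Q2 r) : B ≤ 𝒩(WW P1 r) := F.p1.TP.trans (norm_WW P1 r)
theorem B0B (F : Fn B P1 Q1 P2 Q2 r) : WW P1 r ⊔ WW P2 r ≤ B := sup_le F.WB F.symm.WB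
theorem memB0 (F : Fn B P1 Q1 P2 Q2 r) {b : G} (hb : b ∈ WW P1 r ⊔ WW P2 r) :
    ∃ u ∈ WW P1 r, ∃ v ∈ WW P2 r, u * v = b := (mem_sup_of_left_le_norm (F.WB.trans F.symm.nW)).1 hb

theorem B0Q (F : Fn B P1 Q1 P2 Q2 r) {b : G} (hb : b ∈ WW P1 r ⊔ WW P2 r) (h : b ∈ Q1) : b ∈ WW P1 r := by
  obtain ⟨u, hu, v, hv, rfl⟩ := F.memB0 hb
  rcases F.symm.WZ hv ((Subgroup.mul_mem_cancel_left _ (F.WQ hu)).1 h) with e | e <;> rw [e]
  exacts [mul_mem hu (one_mem _), mul_mem hu (self_mem_WW P1 r)]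

theorem not_B0 (F : Fn B P1 Q1 P2 Q2 r) {c : G} (hc : c ∈ B ⊓ 𝒞(P1)) (c1 : c ≠ 1) (g : G) :
    g⁻¹ * c * g ∉ WW P1 r ⊔ WW P2 r := by
  intro h
  have h2 : g⁻¹ * c * g * (g⁻¹ * c * g) = 1 := by
    calc _ = g⁻¹ * (c * c) * g := by group
      _ = 1 := by rw [(F.CZ hc).2.1]; group
  have key : (g⁻¹ * c * g = 1 ∨ ∃ k, g⁻¹ * c * g = k * r * k⁻¹) := by
    rcases F.inv_mem_Q (F.B0B h) h2 with e | e
    · exact (F.W_conj (F.B0Q h e)).imp id fun ⟨k, _, e⟩ => ⟨k, e⟩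
    · exact (F.symm.W_conj (F.symm.B0Q (sup_comm (WW P1 r) _ ▸ h) e)).imp id fun ⟨k, _, e⟩ => ⟨k, e⟩
  rcases key with e | ⟨k, e⟩
  · refine c1 ?_
    calc c = g * (g⁻¹ * c * g) * g⁻¹ := by group
      _ = 1 := by rw [e]; group
  · refine F.not_conj hc c1 (g * k) ?_
    calc _ = g * (k * r * k⁻¹) * g⁻¹ := by group
      _ = c := by rw [← e]; group

theorem B_dec (F : Fn B P1 Q1 P2 Q2 r) : B ≤ B ⊓ 𝒞(P1) ⊔ (WW P1 r ⊔ WW P2 r) := by
  obtain ⟨d, -, -, -, -, -, -, -, -, h1⟩ := F.exd'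
  obtain ⟨d, -, -, -, -, -, -, -, -, h2⟩ := F.symm.exd'
  refine F.B_le (h1.trans (sup_le_sup_left le_sup_left _)) (h2.trans (sup_le (fun c hc => ?_)
    (le_sup_right.trans le_sup_right)))
  rcases F.Zc (F.symm.CZ hc) with e | e
  · exact mem_sup_left e
  · exact (Subgroup.mul_mem_cancel_right _ (mem_sup_right (mem_sup_left (self_mem_WW P1 r)))).1 (mem_sup_left e)

theorem B_idx (F : Fn B P1 Q1 P2 Q2 r) {c : G} (hc : c ∈ B ⊓ 𝒞(P1)) (c1 : c ≠ 1) {y : G} (hy : y ∈ B) :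
    y ∈ WW P1 r ⊔ WW P2 r ∨ c * y ∈ WW P1 r ⊔ WW P2 r := by
  obtain ⟨c', hc', b, hb, rfl⟩ := F.dec (F.B0B.trans F.p1.TP) (F.B_dec hy)
  rcases F.Cu hc hc' c1 with e | e <;> rw [e]
  · left; simpa using hb
  · right; rwa [← mul_assoc, (F.CZ hc).2.1, one_mul]

theorem WW_inf (F : Fn B P1 Q1 P2 Q2 r) {w : G} (h1 : w ∈ WW P1 r) (h2 : w ∈ WW P2 r) : w = 1 ∨ w = r :=
  F.WZ h1 (F.symm.WQ h2)

theorem sw_sq (F : Fn B P1 Q1 P2 Q2 r) {c : G} (hc : c ∈ B ⊓ 𝒞(P1)) (c1 : c ≠ 1) {x : G} (hx : x ∈ 𝒩(B))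
    (h1 : Q1 :^ x = Q2) (h2 : Q2 :^ x = Q1) (hB : x * x ∈ B) : x * x ∈ WW P1 r ⊔ WW P2 r := by
  refine (F.B_idx hc c1 hB).resolve_right fun h => ?_
  obtain ⟨u, hu, v, hv, e⟩ := F.memB0 h
  have hu' := F.swW hx h1 hu
  have hv' := F.symm.swW hx h2 hv
  have fr := F.fix_r hx
  have cZ := F.CZ hc
  have r1 := F.r1.1
  have e1 : x * u * x⁻¹ * (x * v * x⁻¹) = r * (u * v) := by
    rw [conj_mul, e]
    calc _ = x * c * x⁻¹ * (x * x) := by group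
      _ = _ := by rw [F.swc hx h1 hc c1, F.cr hc.1, mul_assoc]
  have fx : ∀ w, w = 1 ∨ w = r → x * w * x⁻¹ = w := by rintro w (e | e) <;> rw [e]; exacts [by simp, fr]
  have nu : u ∉ Q2 := fun e2 => by
    have e3 := F.WZ hu e2
    have cu : u * r = r * u := F.cr (F.WB hu)
    rw [fx u e3, ← mul_assoc r, ← cu, mul_assoc u r] at e1
    have e4 := mul_left_cancel e1
    have : v ∈ WW P1 r := (Subgroup.mul_mem_cancel_left _ (self_mem_WW P1 r)).1 (e4 ▸ hv')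
    rw [fx v (F.WW_inf this hv)] at e4
    exact r1 (mul_eq_right.1 e4.symm)
  have nv : v ∉ Q1 := fun e2 => by
    rw [fx v (F.symm.WZ hv e2), ← mul_assoc r] at e1
    have e4 := mul_right_cancel e1
    have : u ∈ WW P2 r := (Subgroup.mul_mem_cancel_left _ (self_mem_WW P2 r)).1 (e4 ▸ hu')
    rw [fx u (F.WW_inf hu this)] at e4
    exact r1 (mul_eq_right.1 e4.symm)
  have nu' : x * u * x⁻¹ ∉ Q1 := fun e => nu (conj_mem_conjg_iff.1 (h2.symm ▸ e))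
  have nv' : x * v * x⁻¹ ∉ Q2 := fun e => nv (conj_mem_conjg_iff.1 (h1.symm ▸ e))
  have e2 := F.act (F.symm.WB hu') nu' (F.WQ hv') nv'
  have e3 : x * v * x⁻¹ * (x * u * x⁻¹) = u * v := by
    rw [mul_inv_eq_iff_eq_mul.1 e2, F.cr (F.WB hv'), mul_assoc] at e1
    exact mul_left_cancel e1
  have e4 : u⁻¹ * (x * v * x⁻¹) = v * (x * u * x⁻¹)⁻¹ := by
    rw [inv_mul_eq_iff_eq_mul, ← mul_assoc, ← e3]; group
  have e5 := fx _ (F.WW_inf (mul_mem (inv_mem hu) hv') (e4 ▸ mul_mem hv (inv_mem hu')))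
  have e6 := F.act hB (fun e2 => nv ((Subgroup.mul_mem_cancel_left _ (F.WQ hu)).1 (e ▸ mul_mem (F.ZQ cZ) e2)))
    (F.WQ hu) nu
  -- `x u x⁻¹ = ε⁻¹ v` with `ε = u⁻¹ (x v x⁻¹)` fixed by `x`
  have e7 : x * u * x⁻¹ = (u⁻¹ * (x * v * x⁻¹))⁻¹ * v := by rw [e4]; group
  have e8 : x * x * u * (x * x)⁻¹ = u := by
    calc _ = x * (x * u * x⁻¹) * x⁻¹ := by group
      _ = (x * (u⁻¹ * (x * v * x⁻¹)) * x⁻¹)⁻¹ * (x * v * x⁻¹) := by
        conv_lhs => rw [e7]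
        generalize u⁻¹ * (x * v * x⁻¹) = w
        group
      _ = (x * v * x⁻¹)⁻¹ * (u * (x * v * x⁻¹)) := by rw [e5]; group
      _ = u := by rw [F.e1.comm (F.WQ hu) (F.WQ hv')]; group
  rw [e8] at e6
  exact r1 (mul_eq_left.1 e6.symm)

theorem sw_inv (F : Fn B P1 Q1 P2 Q2 r) {c : G} (hc : c ∈ B ⊓ 𝒞(P1)) (c1 : c ≠ 1) {x : G} (hx : x ∈ 𝒩(B))
    (h1 : Q1 :^ x = Q2) (h2 : Q2 :^ x = Q1) (x2 : x * x = 1) {b : G} (hb : b ∈ WW P1 r ⊔ WW P2 r) :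
    x * c * b * (x * c * b) ≠ 1 := by
  intro h
  have bB := F.B0B hb
  obtain ⟨u, hu, v, hv, rfl⟩ := F.memB0 hb
  have hu' := F.swW hx h1 hu
  have hv' := F.symm.swW hx h2 hv
  have fr := F.fix_r hx
  have cZ := F.CZ hc
  have fx : ∀ w, w = 1 ∨ w = r → x * w * x⁻¹ = w := by rintro w (e | e) <;> rw [e]; exacts [by simp, fr]
  have e1 : r * (x * u * x⁻¹ * (x * v * x⁻¹)) * (u * v) = 1 := by
    rw [← h, conj_mul]
    calc _ = r * (c * c) * (x * (u * v) * x⁻¹) * (u * v) := by rw [cZ.2.1, mul_one]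
      _ = (r * c) * (c * (x * (u * v) * x⁻¹)) * (u * v) := by group
      _ = (x * c * x⁻¹) * (x * (u * v) * x⁻¹ * c) * (u * v) := by
        rw [F.swc hx h1 hc c1, F.cr hc.1, cZ.2.2 _ (conj_mem_of_mem_norm hx bB)]
      _ = x * c * (u * v) * (x⁻¹ * c * (u * v)) := by group
      _ = _ := by rw [inv_of_sq x2]
  have e2 : v * (x * u * x⁻¹) = r * (u⁻¹ * (x * v * x⁻¹)⁻¹) := by
    have : r * (v * (x * u * x⁻¹)) * ((x * v * x⁻¹) * u) = 1 := by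
      calc _ = v * (r * (x * u * x⁻¹ * (x * v * x⁻¹)) * (u * v)) * v⁻¹ := by
            rw [← mul_assoc r v, ← F.cr (F.symm.WB hv)]; group
        _ = 1 := by rw [e1]; group
    calc _ = r⁻¹ * (r * (v * (x * u * x⁻¹)) * ((x * v * x⁻¹) * u)) * (u⁻¹ * (x * v * x⁻¹)⁻¹) := by group
      _ = _ := by rw [this, inv_of_sq F.rr, mul_one]
  have e3 := fx _ (F.WW_inf (e2 ▸ mul_mem (self_mem_WW P1 r) (mul_mem (inv_mem hu) (inv_mem hv'))) (mul_mem hv hu'))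
  have e4 : x * (v * (x * u * x⁻¹)) * x⁻¹ = x * v * x⁻¹ * u := by
    calc _ = x * v * x⁻¹ * ((x * x) * u * (x * x)⁻¹) := by group
      _ = _ := by rw [x2]; group
  rw [e4, e2, ← mul_inv_rev, inv_of_sq (F.e1 _ (F.WQ (mul_mem hv' hu)))] at e3
  exact F.r1.1 (mul_eq_right.1 e3.symm)

theorem transfer (F : Fn B P1 Q1 P2 Q2 r) {c : G} (hc : c ∈ B ⊓ 𝒞(P1)) (c1 : c ≠ 1) : ∃ φ : G →* ℤˣ, φ c = -1 := by
  obtain ⟨S, hS, BS⟩ := sylow_superset Nat.prime_two F.p1.pT (le_top : B ≤ ⊤)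
  have oS : Odd S.index := by
    have := hS.not_dvd_index Nat.prime_two
    rwa [relIndex_top_right, ← even_iff_two_dvd, Nat.not_even_iff_odd] at this
  have c2 := (F.CZ hc).2.1
  have cB0 : c ∉ WW P1 r ⊔ WW P2 r := by simpa using F.not_B0 hc c1 1
  have ix : ∀ y ∈ B, y ∉ WW P1 r ⊔ WW P2 r → y * c ∈ WW P1 r ⊔ WW P2 r := fun y hy ny => by
    rw [(F.CZ hc).2.2 y hy]; exact (F.B_idx hc c1 hy).resolve_left ny
  by_cases SB : S = B
  · refine tt_transfer oS ?_ c2 (F.not_B0 hc c1)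
    rw [← relIndex_mul_index F.B0B, idx2_mk hc.1 cB0 ix, SB]
  obtain ⟨x, ⟨xS, xN⟩, xB⟩ := SetLike.exists_of_lt (nilpotent_proper_norm hS.pGrp.nil (lt_of_le_of_ne BS (Ne.symm SB)))
  have p1 : IsPGrp 2 (S ⊓ 𝒩(B) : Subgroup G) := IsPiGrp.inf_left hS.pGrp _
  have B1 : B ≤ S ⊓ 𝒩(B) := le_inf BS le_normalizer
  have sw : ∀ y ∈ S ⊓ 𝒩(B), y ∉ B → Q1 :^ y = Q2 ∧ Q2 :^ y = Q1 := fun y hy ny =>
    ⟨F.swap_of hy.2 fun e => ny (F.n3 p1 B1 inf_le_right hy e),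
      F.symm.swap_of hy.2 fun e => ny (F.symm.n3 p1 B1 inf_le_right hy e)⟩
  have i2 : B.relIndex (S ⊓ 𝒩(B)) = 2 := idx2_mk ⟨xS, xN⟩ xB fun y hy ny =>
    F.n3 p1 B1 inf_le_right (mul_mem hy ⟨xS, xN⟩) (by
      rw [← conjg_eq_self_iff, conjg_mul, (sw x ⟨xS, xN⟩ xB).1, (sw y hy ny).2])
  have JS : JJ (S ⊓ 𝒩(B)) ≤ B := J_le_of fun A hA y hy => by
    by_contra ny
    obtain ⟨s1, s2⟩ := sw y (hA.1 hy) ny
    have fy : ∀ z ∈ A, y * z * y⁻¹ = z := fun z hz => mul_inv_eq_iff_eq_mul.2 (hA.2.1.comm hy hz)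
    have k1 : A ⊓ B ≤ zpowers r := by
      intro z hz
      have zZ : z ∈ OZ B := by
        rcases F.inv_mem_Q hz.2 (hA.2.1 z hz.1) with e | e
        · exact F.mem_Z e (by rw [← s1, ← fy z hz.1]; exact conj_mem_conjg y e)
        · exact F.mem_Z (by rw [← s2, ← fy z hz.1]; exact conj_mem_conjg y e) e
      rcases F.Zc zZ with e | e
      · rw [F.CC e (fy z hz.1 ▸ F.swC (hA.1 hy).2 s1 e)]; exact one_mem _
      · have := F.swC (hA.1 hy).2 s1 e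
        rw [← conj_mul, fy z hz.1, F.fix_r (hA.1 hy).2] at this
        rw [eq_inv_of_mul_eq_one_left (F.CC e this)]; exact inv_mem (mem_zpowers r)
    have k2 := Subgroup.card_le_of_le k1
    rw [card_zp Nat.prime_two (by rw [pow_two, F.rr]) F.r1.1] at k2
    have k3 := card_inf_mul_relIndex B A
    have k4 : B.relIndex A ≤ 2 := i2 ▸ Subgroup.relIndex_le_of_le_right hA.1 (by rw [i2]; decide)
    have k5 := hA.2.2 Q1 (F.p1.QT.trans B1) F.e1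
    have k6 := card_lt_of_lt (lt_of_le_of_ne F.WQ fun e => cB0 (mem_sup_left (e ▸ F.ZQ (F.CZ hc))))
    rw [F.cardW] at k6
    rw [inf_comm] at k3
    nlinarith
  have eS : S ⊓ 𝒩(B) = S := nilpotent_sub_norm hS.pGrp.nil inf_le_left (inf_le_inf_left S ((norm_J _).trans (by
    rw [← J_eq_of_le JS B1, F.JB])))
  rw [eS] at sw i2
  have SN : S ≤ 𝒩(B) := inf_eq_left.1 eS
  obtain ⟨x', x'S, x'B, hx'⟩ : ∃ x' ∈ S, x' ∉ B ∧ ∀ b ∈ WW P1 r ⊔ WW P2 r, x' * b * (x' * b) ≠ 1 := by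
    by_cases h : ∀ b ∈ WW P1 r ⊔ WW P2 r, x * b * (x * b) ≠ 1
    · exact ⟨x, xS, xB, h⟩
    push Not at h
    obtain ⟨b, hb, h⟩ := h
    have m1 := mul_mem xS (BS (F.B0B hb))
    have m2 : x * b ∉ B := fun e => xB ((Subgroup.mul_mem_cancel_right _ (F.B0B hb)).1 e)
    exact ⟨x * b * c, mul_mem m1 (BS hc.1), fun e => m2 ((Subgroup.mul_mem_cancel_right _ hc.1).1 e),
      fun b' hb' => F.sw_inv hc c1 (SN m1) (sw _ m1 m2).1 (sw _ m1 m2).2 h hb'⟩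
  obtain ⟨s1, s2⟩ := sw x' x'S x'B
  obtain ⟨K, hK⟩ := ext2 (K := WW P1 r ⊔ WW P2 r) (x := x') (mem_norm_of_conjg_le (by
      rw [conjg_sup]
      refine sup_le (fun z hz => ?_) fun z hz => ?_ <;> obtain ⟨w, hw, rfl⟩ := mem_conjg'.1 hz
      exacts [mem_sup_right (F.swW (SN x'S) s1 hw), mem_sup_left (F.symm.swW (SN x'S) s2 hw)]))
    (F.sw_sq hc c1 (SN x'S) s1 s2 (idx2_sq i2 x'S))
  have KS : K ≤ S := fun y hy => by
    rcases (hK y).1 hy with e | e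
    · exact BS (F.B0B e)
    · exact (Subgroup.mul_mem_cancel_left _ (inv_mem x'S)).1 (BS (F.B0B e))
  have nf : ∀ g : G, g⁻¹ * c * g ∉ K := fun g h => by
    rcases (hK _).1 h with e | e
    · exact F.not_B0 hc c1 g e
    · refine hx' _ e ?_
      calc _ = g⁻¹ * (c * c) * g := by group
        _ = 1 := by rw [c2]; group
  refine tt_transfer oS ?_ c2 nf
  rw [← relIndex_mul_index KS, idx2_mk (BS hc.1) (by simpa using nf 1) fun y hy ny => ?_]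
  rw [hK, not_or] at ny
  rw [hK]
  by_cases yB : y ∈ B
  · exact Or.inl (ix y yB ny.1)
  · exact Or.inr (by rw [← mul_assoc]; exact ix _ (idx2_mul'' i2 x'S hy x'B yB) ny.2)

variable {H : Subgroup G}

theorem CH (F : Fn B P1 Q1 P2 Q2 r) (hH : H = closure {g : G | Odd (orderOf g)}) {c : G} (hc : c ∈ B ⊓ 𝒞(P1))
    (h : c ∈ H) : c = 1 := by
  by_contra c1
  obtain ⟨φ, e⟩ := F.transfer hc c1
  rw [odd_ker hH φ h] at e
  exact absurd e (by decide)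

theorem dH (hH : H = closure {g : G | Odd (orderOf g)}) {d : G} (d3 : d ^ 3 = 1) : d ∈ H :=
  hH ▸ subset_closure (Bl.ord3 d3)

theorem WH (F : Fn B P1 Q1 P2 Q2 r) (hH : H = closure {g : G | Odd (orderOf g)}) : WW P1 r ≤ H := by
  obtain ⟨d, -, d3, -, -, h1, -⟩ := F.exd'
  have nH := odd_norm hH ⊤
  have m1 : r * (d * r * d⁻¹) ∈ H := by
    have := mul_mem (conj_mem_of_le_norm nH (mem_top r) (dH hH d3)) (inv_mem (dH hH d3))
    rwa [inv_of_sq F.rr, show r * d * r * d⁻¹ = r * (d * r * d⁻¹) by group] at this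
  have := conj_mem_of_le_norm nH (mem_top d) (h1 ▸ m1)
  exact WW_le (by simpa [mul_assoc] using this) (odd_norm hH _)

theorem BH (F : Fn B P1 Q1 P2 Q2 r) (hH : H = closure {g : G | Odd (orderOf g)}) : B ⊓ H = WW P1 r ⊔ WW P2 r := by
  have l := sup_le (F.WH hH) (F.symm.WH hH)
  refine le_antisymm (fun y hy => ?_) (le_inf F.B0B l)
  obtain ⟨c, hc, b, hb, rfl⟩ := F.dec (F.B0B.trans F.p1.TP) (F.B_dec hy.1)
  rwa [F.CH hH hc ((Subgroup.mul_mem_cancel_right _ (l hb)).1 hy.2), one_mul]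

theorem cardB0 (F : Fn B P1 Q1 P2 Q2 r) : Nat.card (WW P1 r ⊔ WW P2 r : Subgroup G) = 8 := by
  have h1 := card_sup_mul_card_inf (Or.inl (F.WB.trans F.symm.nW))
  have h2 : WW P1 r ⊓ WW P2 r = zpowers r := le_antisymm (fun w hw => by
    rcases F.WW_inf hw.1 hw.2 with e | e <;> rw [e]
    exacts [one_mem _, mem_zpowers r]) (zpowers_le.2 ⟨self_mem_WW _ _, self_mem_WW _ _⟩)
  rw [h2, card_zp Nat.prime_two (by rw [pow_two, F.rr]) F.r1.1, F.cardW, F.symm.cardW] at h1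
  omega

theorem s4 (F : Fn B P1 Q1 P2 Q2 r) (hH : H = closure {g : G | Odd (orderOf g)}) :
    Nonempty ((P1 ⊓ H : Subgroup G) ≃* Equiv.Perm (Fin 4)) ∧ P1 ≤ B ⊓ 𝒞(P1) ⊔ P1 ⊓ H := by
  obtain ⟨a, ha, na⟩ := F.symm.exW
  obtain ⟨d, hd, d3, d1, hi, h1, h2, -, h3, -⟩ := F.exd (F.symm.WQ ha) na
  have a2 := F.e2 a (F.symm.WQ ha)
  have ar := F.cr (F.symm.WB ha)
  have s2 := F.e1 _ (F.WQ (mem_WW hd r))
  have dd : d * d = d⁻¹ := by rw [eq_inv_iff_mul_eq_one, ← d3]; simp [pow_succ]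
  have ad : a * d = d⁻¹ * a := by rw [← hi, mul_assoc, a2, mul_one]
  have ad' : a * d⁻¹ = d * a := by rw [← hi, ← mul_assoc, ← mul_assoc, a2, one_mul]
  obtain ⟨φ, f1, f2, f3⟩ := CA.Fi.exists_hom_S4 (a := a) (b := a * d) (c := a * r) a2
    (by rw [← mul_assoc, hi, inv_mul_cancel]) (sq_mul_of_comm a2 F.rr ar)
    (by rw [← mul_assoc, a2, one_mul, mul_assoc (a * d), ← mul_assoc a a, a2, one_mul, mul_assoc, dd, ad'])
    (by
      have e1 : d * (a * r) * (a * d) = d * r * d := by rw [mul_assoc, mul_assoc a r, ← mul_assoc r, ← ar]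
                                                        rw [mul_assoc a r, ← mul_assoc a a, a2]; group
      have e2 : r * (a * d) * (a * r) = r * d⁻¹ * r := by rw [← hi]; group
      rw [mul_assoc a d, mul_assoc a, e1, mul_assoc a r, mul_assoc a, e2, mul_right_inj]
      have e3 : d⁻¹ * r = r * (d * r * d⁻¹) * d⁻¹ := by rw [← h2]; group
      calc d * r * d = d * r * d⁻¹ * (d * d) := by group
        _ = (r * r) * (d * r * d⁻¹) * d⁻¹ := by rw [dd, F.rr, one_mul]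
        _ = _ := by rw [mul_assoc r d⁻¹, e3]; group)
    (by rw [mul_assoc, ← ar])
  have inj := CA.Fi.injective_S4 φ (by rw [f1, f3]; exact fun e => F.r1.1 (mul_eq_left.1 e.symm))
  have aK : a ∈ φ.range := ⟨_, f1⟩
  have dK : d ∈ φ.range := (Subgroup.mul_mem_cancel_left _ aK).1 ⟨_, f2⟩
  have rK : r ∈ φ.range := (Subgroup.mul_mem_cancel_left _ aK).1 ⟨_, f3⟩
  have sK := mul_mem (mul_mem dK rK) (inv_mem dK)
  have W1K : WW P1 r ≤ φ.range := fun w hw => by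
    rcases h3 w hw with e | e | e | e <;> rw [e]
    exacts [one_mem _, rK, sK, mul_mem rK sK]
  have W2K : WW P2 r ≤ φ.range := fun w hw => by
    by_cases e : w ∈ Q1
    · rcases F.symm.WZ hw e with e | e <;> rw [e]
      exacts [one_mem _, rK]
    · refine (Subgroup.mul_mem_cancel_right _ aK).1 ?_
      rcases F.symm.WZ (mul_mem hw ha) (idx2_mul F.p1.i2 (F.symm.WB hw) (F.symm.WB ha) e na) with e | e <;> rw [e]
      exacts [one_mem _, rK]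
  have B0P : WW P1 r ⊔ WW P2 r ≤ P1 ⊓ H := F.BH hH ▸ inf_le_inf_right H F.p1.TP
  have dP : d ∈ P1 ⊓ H := ⟨hd, dH hH d3⟩
  have gen : ∀ X : Subgroup G, WW P1 r ⊔ WW P2 r ≤ X → d ∈ X → P1 ≤ B ⊓ 𝒞(P1) ⊔ X := fun X h1 h2 =>
    F.p1.le_of_mem (F.B_dec.trans (sup_le_sup_left h1 _)) hd (F.p1.d_notin d3 d1) (mem_sup_right h2)
  have l1 : P1 ⊓ H ≤ φ.range := fun y hy => by
    obtain ⟨c, hc, k, hk, rfl⟩ := F.dec inf_le_left (gen (P1 ⊓ (H ⊓ φ.range))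
      (le_inf (B0P.trans inf_le_left) (le_inf (B0P.trans inf_le_right) (sup_le W1K W2K))) ⟨hd, dP.2, dK⟩ hy.1)
    rw [F.CH hH hc ((Subgroup.mul_mem_cancel_right _ hk.2.1).1 hy.2), one_mul]
    exact hk.2.2
  have c1 : Nat.card φ.range = 24 := by
    rw [← Nat.card_congr (MonoidHom.ofInjective inj).toEquiv, Nat.card_perm, Nat.card_fin]; rfl
  have c2 : 24 ∣ Nat.card (P1 ⊓ H : Subgroup G) :=
    Nat.Coprime.mul_dvd_of_dvd_of_dvd (m := 8) (n := 3) (by decide) (F.cardB0 ▸ card_dvd_of_le B0P)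
      (card_zp Nat.prime_three d3 d1 ▸ card_dvd_of_le (zpowers_le.2 dP))
  have e := Subgroup.eq_of_le_of_card_ge l1 (c1 ▸ Nat.le_of_dvd Nat.card_pos c2)
  exact ⟨⟨(MulEquiv.subgroupCongr e).trans (MonoidHom.ofInjective inj).symm⟩, gen _ B0P dP⟩

theorem maxl (F : Fn B P1 Q1 P2 Q2 r) (hH : H = closure {g : G | Odd (orderOf g)}) :
    IsMaximalTwoLocal (P1.subgroupOf H) := by
  have WH := F.WH hH
  have pW : IsPGrp 2 (WW P1 r) := F.p1.pQ.of_le F.WQ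
  have e0 : P1.subgroupOf H = 𝒩((WW P1 r).subgroupOf H) := by
    rw [← subgroupOf_normalizer_eq WH, le_antisymm F.normW (norm_WW P1 r)]
  refine ⟨e0 ▸ loc_mk (pW.subgroupOf H) fun e => ne_bot_of_mem (self_mem_WW P1 r) F.r1.1
    ((subgroupOf_eq_bot_iff WH).1 e), ?_⟩
  rintro _ ⟨U, pU, U0, rfl⟩ le
  obtain ⟨-, gen⟩ := F.s4 hH
  set U' := U.map H.subtype with hU'
  have UH : U' ≤ H := map_subtype_le U
  have eU : U'.subgroupOf H = U := subgroupOf_map_subtype' U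
  have n1 : P1 ⊓ H ≤ 𝒩(U') := by
    rw [← subgroupOf_norm_iff inf_le_right UH, eU, inf_subgroupOf_right]; exact le
  have pU' : IsPGrp 2 U' := (pGrp_of_isPGroup Nat.prime_two pU).map _
  have WP : WW P1 r ≤ P1 ⊓ H := le_inf F.WP WH
  have p2 : IsPGrp 2 (U' ⊔ WW P1 r : Subgroup G) := IsPiGrp.sup pU' pW (Or.inr (WP.trans n1))
  have nn : ∀ Y : Subgroup G, Y ≤ P1 → P1 ⊓ H ≤ 𝒩(Y) → P1 ≤ 𝒩(Y) := fun Y h1 h2 =>
    gen.trans (sup_le (norm_of_cent (inf_le_right.trans (cent_anti h1))) h2)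
  have l1 : (U' ⊔ WW P1 r) ⊓ 𝒩(WW P1 r) ≤ WW P1 r := by
    intro y hy
    have yQ := F.ulem (IsPiGrp.inf_left p2 _) (nn _ (inf_le_right.trans F.normW)
      (norm_inf (norm_sup n1 (inf_le_left.trans (norm_WW P1 r)))
        (norm_norm (inf_le_left.trans (norm_WW P1 r))))) hy
    exact F.B0Q (F.BH hH ▸ ⟨F.p1.QT yQ, sup_le UH WH hy.1⟩) yQ
  have e1 := nilpotent_sub_norm p2.nil le_sup_right l1
  have UW : U' ≤ WW P1 r := e1 ▸ le_sup_left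
  have nU := nn U' (UW.trans F.WP) n1
  obtain ⟨u, hu, u1⟩ := exists_mem_ne_one (H := U') fun e => U0 (by rw [← eU, e, bot_subgroupOf])
  obtain ⟨g, hg, e⟩ := (F.W_conj (UW hu)).resolve_left u1
  have rU : r ∈ U' := by
    have := conj_mem_of_le_norm' nU hg hu
    rw [e] at this
    simpa [mul_assoc] using this
  rw [e0, ← eU, le_antisymm UW (WW_le rU nU)]

theorem final (F : Fn B P1 Q1 P2 Q2 r) (hH : H = closure {g : G | Odd (orderOf g)}) :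
    ∃ M₁ M₂ : Subgroup H, M₁ ≠ M₂ ∧ IsMaximalTwoLocal M₁ ∧ IsMaximalTwoLocal M₂ ∧
      Nonempty (M₁ ≃* Equiv.Perm (Fin 4)) ∧ Nonempty (M₂ ≃* Equiv.Perm (Fin 4)) ∧ Nat.card ↥(M₁ ⊓ M₂) = 8 := by
  have iso : ∀ {P1 Q1 P2 Q2 : Subgroup G}, Fn B P1 Q1 P2 Q2 r → Nonempty (P1.subgroupOf H ≃* Equiv.Perm (Fin 4)) := by
    intro P1 Q1 P2 Q2 F
    obtain ⟨⟨e⟩, -⟩ := F.s4 hH
    rw [← inf_subgroupOf_right]
    exact ⟨(subgroupOfEquivOfLe inf_le_right).trans e⟩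
  have c8 : Nat.card ↥(P1.subgroupOf H ⊓ P2.subgroupOf H) = 8 := by
    rw [← subgroupOf_inf', F.p1.inf_eq F.p2 F.o2, card_subgroupOf', F.BH hH, F.cardB0]
  refine ⟨_, _, fun e => ?_, F.maxl hH, F.symm.maxl hH, iso F, iso F.symm, c8⟩
  obtain ⟨e1⟩ := iso F
  rw [← e, inf_idem, Nat.card_congr e1.toEquiv, Nat.card_perm, Nat.card_fin] at c8
  exact absurd c8 (by decide)

end Fn

theorem s0518 (hL : IsCharacteristicTwoType G) (hO : pCore 2 G = ⊥)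
    (hN : ∀ N : Subgroup G, IsTwoLocal N → Group.IsSolvable N)
    (hZ : ∀ S : Sylow 2 G, centralizer {z : G | z ∈ (S : Subgroup G) ∧ z ^ 2 = 1 ∧ ∀ s ∈ (S : Subgroup G),
      s * z = z * s} ≤ normalizer ((S : Subgroup G) : Set G))
    (H : Subgroup G) (hH : H = closure {g : G | Odd (orderOf g)}) :
    (∃ K : Subgroup G, IsStronglyEmbedded K) ∨
      ∃ M₁ M₂ : Subgroup H, M₁ ≠ M₂ ∧ IsMaximalTwoLocal M₁ ∧ IsMaximalTwoLocal M₂ ∧
        Nonempty (M₁ ≃* Equiv.Perm (Fin 4)) ∧ Nonempty (M₂ ≃* Equiv.Perm (Fin 4)) ∧ Nat.card ↥(M₁ ⊓ M₂) = 8 := by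
  rw [or_iff_not_imp_left]
  intro hs
  have hG := lc_of hL hN hZ
  obtain ⟨R, hR⟩ := exists_two hL.1 hO hs
  obtain ⟨B, P1, Q1, P2, Q2, g1, g2, o2⟩ := exists_amalgam hG hR
  obtain ⟨r, F⟩ := exists_fn hG g1 g2 o2
  exact F.final hH

end CA.Amg
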