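import Cfsg.Agent.BG.I01

/-! Transvections on an elementary abelian 2-group. -/

set_option linter.unusedSectionVars false
set_option linter.unusedVariables false

namespace CA.Amg
open Subgroup Cfsg CA.FG CA.BG

theorem idx2_mul {G : Type*} [Group G] {K H : Subgroup G} (h : K.relIndex H = 2) {x y : G} (hx : x ∈ H) (hy : y ∈ H)
    (nx : x ∉ K) (ny : y ∉ K) : x * y ∈ K := by
  have := (Subgroup.mul_mem_iff_of_index_two (H := K.subgroupOf H) h (a := ⟨x, hx⟩) (b := ⟨y, hy⟩)).2
    (by simp [mem_subgroupOf, nx, ny])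
  exact this

theorem idx_ex {G : Type*} [Group G] {K H : Subgroup G} (h : K.relIndex H ≠ 1) : ∃ x ∈ H, x ∉ K := by
  by_contra hn
  push Not at hn
  exact h (relIndex_eq_one.2 hn)

class E2 (V : Type*) [CommGroup V] : Prop where
  sq : ∀ v : V, v * v = 1

variable {V : Type*} [CommGroup V] [E2 V]

theorem e2a (v : V) : v * v = 1 := E2.sq v
theorem e2b (v w : V) : v * (v * w) = w := by rw [← mul_assoc, e2a, one_mul]
theorem e2i (v : V) : v⁻¹ = v := inv_eq_of_mul_eq_one_right (e2a v)
theorem e2eq {v w : V} (h : v * w = 1) : v = w := by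
  have : v * (v * w) = v := by rw [h, mul_one]
  rw [e2b] at this; exact this.symm

macro "ac2" : tactic => `(tactic| simp only [mul_assoc, mul_comm, mul_left_comm, CA.Amg.e2a, CA.Amg.e2b,
  CA.Amg.e2i, mul_one, one_mul])

structure Tv (a : MulAut V) (r : V) : Prop where
  ne : r ≠ 1
  fix : a r = r
  act : ∀ v, a v = v ∨ a v = v * r
  ane : a ≠ 1

theorem Tv.aa {a : MulAut V} {r : V} (h : Tv a r) (v : V) : a (a v) = v := by
  rcases h.act v with e | e
  · rw [e, e]
  · conv_lhs => rw [e, map_mul, e, h.fix]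
    ac2

theorem Tv.sq {a : MulAut V} {r : V} (h : Tv a r) : a * a = 1 := by
  ext v; exact h.aa v

theorem Tv.inv {a : MulAut V} {r : V} (h : Tv a r) : a⁻¹ = a := inv_eq_of_mul_eq_one_right h.sq

omit [E2 V] in
theorem Tv.conj {a : MulAut V} {r : V} (h : Tv a r) (g : MulAut V) : Tv (g * a * g⁻¹) (g r) where
  ne := fun e => h.ne ((map_eq_one_iff g g.injective).1 e)
  fix := by simp [h.fix]
  act := fun v => by
    rcases h.act (g⁻¹ v) with e | e
    · left; simp only [MulAut.mul_apply]; rw [e]; simp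
    · right; simp only [MulAut.mul_apply]; rw [e]; simp
  ane := fun e => h.ane (by
    have : a = g⁻¹ * (g * a * g⁻¹) * g := by group
    rw [this, e]; group)

omit [E2 V] in
theorem Tv.ex {a : MulAut V} {r : V} (h : Tv a r) : ∃ v, a v = v * r := by
  by_contra hn
  push Not at hn
  apply h.ane
  ext v
  exact (h.act v).resolve_right (hn v)

omit [E2 V] in
theorem Tv.uniq {a : MulAut V} {r r' : V} (h : Tv a r) (h' : Tv a r') : r = r' := by
  obtain ⟨v, hv⟩ := h.ex
  rcases h'.act v with e | e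
  · rw [hv] at e; exact absurd (mul_eq_left.1 e) h.ne
  · rw [hv] at e; exact mul_left_cancel e

theorem tv_of_idx {a : MulAut V} (h2 : a * a = 1) (h1 : a ≠ 1) (x : V)
    (h : ∀ v, a v = v ∨ a (v * x) = v * x) : ∃ r, Tv a r := by
  have aa : ∀ v, a (a v) = v := fun v => by
    have := congrArg (fun g : MulAut V => g v) h2; simpa using this
  have hx : a x ≠ x := fun e => h1 (by
    ext v
    rcases h v with e' | e'
    · exact e'
    · rw [map_mul, e] at e'; exact mul_right_cancel e')
  refine ⟨x * a x, fun e => hx (e2eq e).symm, ?_, fun v => ?_, h1⟩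
  · rw [map_mul, aa, mul_comm]
  · rcases h v with e' | e'
    · exact Or.inl e'
    · right
      rw [map_mul] at e'
      calc a v = a v * a x * a x := by ac2
        _ = _ := by rw [e']; ac2

/-- the commutator space of `d` -/
def Wd (d : MulAut V) : Subgroup V where
  carrier := {w | ∃ v, w = v * d v}
  one_mem' := ⟨1, by simp⟩
  mul_mem' := by
    rintro _ _ ⟨v, rfl⟩ ⟨w, rfl⟩
    exact ⟨v * w, by rw [map_mul]; ac2⟩
  inv_mem' := by
    rintro _ ⟨v, rfl⟩
    exact ⟨v, e2i _⟩

theorem wd_mem (d : MulAut V) (v : V) : v * d v ∈ Wd d := ⟨v, rfl⟩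

theorem wd_comm {d g : MulAut V} (h : g * d = d * g) {w : V} (hw : w ∈ Wd d) : g w ∈ Wd d := by
  obtain ⟨v, rfl⟩ := hw
  refine ⟨g v, ?_⟩
  have := congrArg (fun k : MulAut V => k v) h
  simp only [MulAut.mul_apply] at this
  rw [map_mul, this]

theorem odd_sq {Γ : Type*} [Group Γ] {g : Γ} (ho : Odd (orderOf g)) (h : g * g = 1) : g = 1 := by
  have h2 : orderOf g ∣ 2 := orderOf_dvd_of_pow_eq_one (by rw [pow_two, h])
  rcases (Nat.dvd_prime Nat.prime_two).1 h2 with e | e
  · exact orderOf_eq_one_iff.1 e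
  · rw [e] at ho; exact absurd ho (by decide)

theorem odd_triv {g : MulAut V} (ho : Odd (orderOf g)) (h : ∀ v, g (v * g v) = v * g v) : g = 1 := by
  apply odd_sq ho
  ext v
  have := h v
  rw [map_mul, mul_comm] at this
  simpa using mul_right_cancel this

theorem wd_fix {d : MulAut V} (ho : Odd (orderOf d)) {w : V} (hw : w ∈ Wd d) (hf : d w = w) : w = 1 := by
  obtain ⟨v, hv⟩ := hw
  have h1 : d v = v * w := by rw [hv]; ac2
  have h2 : ∀ n : ℕ, (d ^ (2 * n + 1)) v = v * w := by
    intro n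
    induction n with
    | zero => simpa using h1
    | succ n ih =>
      have : 2 * (n + 1) + 1 = 1 + 1 + (2 * n + 1) := by ring
      rw [this, pow_add, pow_add, pow_one, MulAut.mul_apply, ih, MulAut.mul_apply, map_mul, h1, hf, map_mul, map_mul,
        h1, hf]
      ac2
  obtain ⟨n, hn⟩ := ho
  have := h2 n
  rw [← hn, pow_orderOf_eq_one] at this
  simpa using this.symm

structure Bl (a d : MulAut V) (r : V) : Prop where
  tv : Tv a r
  inv : a * d * a = d⁻¹
  d3 : d ^ 3 = 1
  ne : d ≠ 1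
  dd : d (d r) = r * d r
  as : a (d r) = r * d r
  dr : d r ≠ r
  W : ∀ w ∈ Wd d, w = 1 ∨ w = r ∨ w = d r ∨ w = r * d r

theorem Tv.bl {a d : MulAut V} {r : V} (h : Tv a r) (hi : a * d * a = d⁻¹) (ho : Odd (orderOf d)) (h1 : d ≠ 1) :
    Bl a d r := by
  obtain ⟨k, hk⟩ := id ho
  set e := d ^ (k + 1) with he
  have ee : e * e = d := by
    rw [he, ← pow_add, show k + 1 + (k + 1) = (2 * k + 1) + 1 by ring, ← hk, pow_succ, pow_orderOf_eq_one, one_mul]
  have hae : a * e * a = e⁻¹ := by
    have : a * e * a⁻¹ = (a * d * a⁻¹) ^ (k + 1) := by rw [he, conj_pow]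
    rw [h.inv] at this
    rw [this, hi, he, inv_pow]
  have h' := h.conj e
  have ha' : e * a * e⁻¹ = d * a := by
    rw [← hae, ← ee]
    calc e * a * (a * e * a) = e * (a * a) * e * a := by group
      _ = _ := by rw [h.sq]; group
  rw [ha'] at h'
  set t := e r with ht
  have hd : ∀ v, d v = (d * a) (a v) := fun v => by rw [MulAut.mul_apply, h.aa]
  have dr : d r ≠ r := by
    intro e1
    have e2 : t = r := by
      rw [ht, he]
      have : ∀ n : ℕ, (d ^ n) r = r := fun n => by
        induction n with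
        | zero => simp
        | succ n ih => rw [pow_succ, MulAut.mul_apply, e1, ih]
      exact this _
    rw [e2] at h'
    apply h1
    apply odd_triv ho
    intro v
    have hv : v * d v = 1 ∨ v * d v = r := by
      rw [hd]
      rcases h.act v with e3 | e3 <;> rcases h'.act (a v) with e4 | e4 <;> rw [e4, e3]
      · left; ac2
      · right; ac2
      · right; ac2
      · left; ac2
    rcases hv with e3 | e3 <;> rw [e3]
    · simp
    · exact e1
  have s1 : d r = r * t := by
    have := h'.act r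
    rw [MulAut.mul_apply, h.fix] at this
    exact this.resolve_left dr
  have at' : a t = t * r := by
    refine (h.act t).resolve_left fun e1 => dr ?_
    have e2 : a (e (a r)) = e⁻¹ r := by
      have := congrArg (fun k : MulAut V => k r) hae
      simpa using this
    rw [h.fix, ← ht, e1, ht] at e2
    rw [← ee, MulAut.mul_apply, e2]; simp
  have dt : d t = r := by
    rw [hd, at', map_mul, h'.fix, MulAut.mul_apply, h.fix, s1]; ac2
  have dd : d (d r) = r * d r := by
    conv_lhs => rw [s1, map_mul, dt]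
    ac2
  have as : a (d r) = r * d r := by
    rw [s1, map_mul, at', h.fix]; ac2
  have hW : ∀ w ∈ Wd d, w = 1 ∨ w = r ∨ w = d r ∨ w = r * d r := by
    rintro _ ⟨v, rfl⟩
    rw [s1, hd v]
    rcases h.act v with e3 | e3 <;> rcases h'.act (a v) with e4 | e4 <;> rw [e4, e3]
    · left; ac2
    · right; right; right; ac2
    · right; left; ac2
    · right; right; left; ac2
  have d3r : d (d (d r)) = r := by rw [dd, map_mul, dd]; ac2
  refine ⟨h, hi, ?_, h1, dd, as, dr, hW⟩
  apply odd_triv
  · exact Odd.of_dvd_nat ho (orderOf_pow_dvd 3)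
  · intro v
    have p3 : ∀ v, (d ^ 3) v = d (d (d v)) := fun v => by simp [pow_succ]
    have hm : v * (d ^ 3) v ∈ Wd d := by
      have := mul_mem (mul_mem (wd_mem d v) (wd_mem d (d v))) (wd_mem d (d (d v)))
      rw [p3]; convert this using 1; ac2
    have d3s : d (d (d (d r))) = d r := by rw [d3r]
    rcases hW _ hm with e1 | e1 | e1 | e1 <;> rw [e1, p3]
    · simp
    · exact d3r
    · exact d3s
    · rw [map_mul, map_mul, map_mul, d3r]

namespace Bl
variable {a d : MulAut V} {r : V}

omit [E2 V] in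
theorem ord3 {Γ : Type*} [Group Γ] {d : Γ} (h3 : d ^ 3 = 1) : Odd (orderOf d) :=
  Odd.of_dvd_nat (by decide) (orderOf_dvd_of_pow_eq_one h3)

theorem odd (h : Bl a d r) : Odd (orderOf d) := ord3 h.d3

theorem ddd (h : Bl a d r) (v : V) : d (d (d v)) = v := by
  have := congrArg (fun k : MulAut V => k v) h.d3
  simpa [pow_succ] using this

theorem inv_eq (h : Bl a d r) : d⁻¹ = d * d := by
  rw [inv_eq_iff_mul_eq_one, ← h.d3]; simp [pow_succ, mul_assoc]

theorem inv_r (h : Bl a d r) : d⁻¹ r = r * d r := by rw [h.inv_eq, MulAut.mul_apply, h.dd]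

theorem symm (h : Bl a d r) : Bl a d⁻¹ r := by
  refine h.tv.bl ?_ (by rw [orderOf_inv]; exact h.odd) (inv_ne_one.2 h.ne)
  rw [inv_inv]
  have := congrArg (·⁻¹) h.inv
  simp only [mul_inv_rev, inv_inv, h.tv.inv] at this
  rw [mul_assoc, this]

theorem conj (h : Bl a d r) (g : MulAut V) : Bl (g * a * g⁻¹) (g * d * g⁻¹) (g r) := by
  refine (h.tv.conj g).bl ?_ (by rw [CA.FG.orderOf_conj]; exact h.odd) fun e => h.ne ?_
  · calc _ = g * (a * d * a) * g⁻¹ := by group
      _ = _ := by rw [h.inv]; group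
  · have : d = g⁻¹ * (g * d * g⁻¹) * g := by group
    rw [this, e]; group

theorem rs_mem (h : Bl a d r) : r * d r ∈ Wd d := wd_mem d r
theorem r_mem (h : Bl a d r) : r ∈ Wd d := by
  have := wd_mem d (d r)
  rw [h.dd] at this
  convert this using 1; ac2
theorem s_mem (h : Bl a d r) : d r ∈ Wd d := wd_comm rfl h.r_mem
theorem s_ne (h : Bl a d r) : d r ≠ 1 := fun e => h.tv.ne ((map_eq_one_iff d d.injective).1 e)
theorem rs_ne (h : Bl a d r) : r * d r ≠ 1 := fun e => h.dr (e2eq e).symm

theorem card (h : Bl a d r) : Nat.card (Wd d) = 4 := by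
  have : ((Wd d : Subgroup V) : Set V) = {1, r, d r, r * d r} := by
    ext w
    constructor
    · intro hw; exact h.W w hw
    · rintro (e | e | e | e) <;> rw [e]
      exacts [one_mem _, h.r_mem, h.s_mem, h.rs_mem]
  have h1 : r ≠ r * d r := fun e => h.s_ne (by simpa using e.symm)
  have h2 : d r ≠ r * d r := fun e => h.tv.ne (by simpa using e.symm)
  change Nat.card ((Wd d : Subgroup V) : Set V) = 4
  rw [this, Nat.card_coe_set_eq, Set.ncard_insert_of_notMem, Set.ncard_insert_of_notMem, Set.ncard_pair h2]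
  · simp [h1, h.dr.symm]
  · simp [h.tv.ne.symm, h.s_ne.symm, h.rs_ne.symm]

/-- the `d`-fixed component -/
theorem fixc (h : Bl a d r) (v : V) : d (v * (d v * d (d v))) = v * (d v * d (d v)) := by
  rw [map_mul, map_mul, h.ddd]; ac2

theorem fix_of_fix (h : Bl a d r) {u : V} (hu : d u = u) : a u = u := by
  refine (h.tv.act u).resolve_right fun e => h.dr ?_
  have h1 : d⁻¹ u = u := by
    conv_lhs => rw [← hu]
    simp
  have e2 : a (d (a u)) = u := by
    have := congrArg (fun k : MulAut V => k u) h.inv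
    simp only [MulAut.mul_apply] at this
    rw [this, h1]
  have e3 : d (a u) = a u := by
    conv_rhs => rw [← e2, h.tv.aa]
  rw [e, map_mul, hu] at e3
  exact mul_left_cancel e3

/-- a 2-element commuting with `d` fixes `Wd d` -/
theorem fix_of_comm (h : Bl a d r) {q : MulAut V} {k : ℕ} (hq : q ^ 2 ^ k = 1) (hc : q * d = d * q)
    {w : V} (hw : w ∈ Wd d) : q w = w := by
  have key : ∀ {d : MulAut V}, Bl a d r → q * d = d * q → q r ≠ d r := by
    intro d h hc e
    have cm : ∀ v, q (d v) = d (q v) := fun v => by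
      have := congrArg (fun k : MulAut V => k v) hc
      simpa using this
    have h1 : ∀ n : ℕ, (q ^ n) r = (d ^ n) r := by
      intro n
      induction n with
      | zero => simp
      | succ n ih =>
        have hc' : q * d ^ n = d ^ n * q := (Commute.pow_right hc n).eq
        have := congrArg (fun k : MulAut V => k r) hc'
        simp only [MulAut.mul_apply] at this
        rw [pow_succ', MulAut.mul_apply, ih, this, e, pow_succ, MulAut.mul_apply]
    have h2 := h1 (2 ^ k)
    have h3 : ∀ k : ℕ, d ^ 2 ^ k = d ∨ d ^ 2 ^ k = d⁻¹ := by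
      intro k
      induction k with
      | zero => simp
      | succ k ih =>
        rw [pow_succ, pow_mul, pow_two]
        rcases ih with e | e <;> rw [e]
        · right; exact h.inv_eq.symm
        · left; have := h.symm.inv_eq; rw [inv_inv] at this; exact this.symm
    rw [hq] at h2
    rcases h3 k with e | e <;> rw [e] at h2
    · exact h.dr (by simpa using h2.symm)
    · exact h.symm.dr (by simpa using h2.symm)
  have cm : ∀ v, q (d v) = d (q v) := fun v => by
    have := congrArg (fun k : MulAut V => k v) hc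
    simpa using this
  have hr : q r = r := by
    rcases h.W _ (wd_comm hc h.r_mem) with e | e | e | e
    · exact absurd ((map_eq_one_iff q q.injective).1 e) h.tv.ne
    · exact e
    · exact absurd e (key h hc)
    · rw [← h.inv_r] at e
      exact absurd e (key h.symm (Commute.inv_right hc).eq)
  rcases h.W _ hw with e | e | e | e <;> rw [e]
  · simp
  · exact hr
  · rw [cm, hr]
  · rw [map_mul, cm, hr]

/-- same `d` and `r` -/
theorem eq_of_same {a' : MulAut V} (h : Bl a d r) (h' : Bl a' d r) : a = a' := by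
  ext v
  have hv : v = v * (d v * d (d v)) * (d v * d (d v)) := by ac2
  have e1 : ∀ {a : MulAut V}, Bl a d r → a v = v * (d v * d (d v)) * a (d v * d (d v)) := by
    intro a h
    conv_lhs => rw [hv, map_mul, h.fix_of_fix (h.fixc v)]
  rw [e1 h, e1 h']
  congr 1
  rcases h.W _ (wd_mem d (d v)) with e | e | e | e <;> rw [e]
  · simp
  · rw [h.tv.fix, h'.tv.fix]
  · rw [h.as, h'.as]
  · rw [map_mul, map_mul, h.tv.fix, h'.tv.fix, h.as, h'.as]

theorem conj_cases {a' : MulAut V} {r' : V} (h : Bl a d r) (h' : Bl a' d r') :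
    a' = a ∨ a' = d * a * d⁻¹ ∨ a' = d⁻¹ * a * d := by
  rcases h.W _ h'.r_mem with e | e | e | e
  · exact absurd e h'.tv.ne
  · left; rw [e] at h'; exact h'.eq_of_same h
  · right; left
    have := h.conj d
    rw [mul_inv_cancel_right, ← e] at this
    exact h'.eq_of_same this
  · right; right
    have := h.conj d⁻¹
    rw [inv_mul_cancel, one_mul, h.inv_r, ← e, inv_inv] at this
    exact h'.eq_of_same this

theorem eq_of_two {a' : MulAut V} {r' : V} (h : Bl a d r) (h' : Bl a' d r') {k : ℕ} (h2 : (a * a') ^ 2 ^ k = 1) :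
    a' = a := by
  have key : ∀ {d : MulAut V}, Bl a d r → a * (d * a * d⁻¹) = d := by
    intro d h
    calc _ = (a * d * a) * d⁻¹ := by group
      _ = d := by rw [h.inv]; have := h.symm.inv_eq; rw [inv_inv] at this; exact this.symm
  have k2 : ∀ {d : MulAut V}, Bl a d r → d ^ 2 ^ k ≠ 1 := by
    intro d h e
    have h1 := h.fix_of_comm e rfl h.r_mem
    exact h.dr h1
  rcases h.conj_cases h' with e | e | e
  · exact e
  · rw [e, key h] at h2; exact absurd h2 (k2 h)
  · have := key h.symm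
    rw [inv_inv] at this
    rw [e, this] at h2; exact absurd h2 (k2 h.symm)

/-- two elements with the same commutator space and same action on it -/
theorem eq_of_W {a' e : MulAut V} {r' : V} (h : Bl a d r) (h' : Bl a' e r') (hW : Wd d = Wd e) (hr : d r' = e r')
    (hs : d (e r') = e (e r')) (ho : Odd (orderOf (e⁻¹ * d))) : d = e := by
  have : e⁻¹ * d = 1 := by
    apply odd_triv ho
    intro v
    have hm : v * (e⁻¹ * d) v ∈ Wd e := by
      have h1 := wd_mem e (e⁻¹ (d v))
      have h2 := hW ▸ wd_mem d v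
      have := mul_mem h1 h2
      rw [MulAut.mul_apply]
      convert this using 1
      simp only [MulAut.apply_inv_self]; ac2
    have f1 : (e⁻¹ * d) r' = r' := by rw [MulAut.mul_apply, hr]; simp
    have f2 : (e⁻¹ * d) (e r') = e r' := by rw [MulAut.mul_apply, hs]; simp
    rcases h'.W _ hm with e1 | e1 | e1 | e1 <;> rw [e1]
    · simp
    · exact f1
    · exact f2
    · rw [map_mul, f1, f2]
  exact (inv_mul_eq_one.1 this).symm

variable [Finite V]

theorem W_eq {a' e : MulAut V} {r' : V} (h : Bl a d r) (h' : Bl a' e r') (h1 : r' ∈ Wd d) (h2 : e r' ∈ Wd d) :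
    Wd d = Wd e := by
  refine (Subgroup.eq_of_le_of_card_ge (fun w hw => ?_) (by rw [h.card, h'.card])).symm
  rcases h'.W _ hw with e1 | e1 | e1 | e1 <;> rw [e1]
  exacts [one_mem _, h1, h2, mul_mem h1 h2]

omit [Finite V] in
theorem wd_inv (h : Bl a d r) : Wd d⁻¹ = Wd d := by
  apply le_antisymm
  · rintro _ ⟨v, rfl⟩
    have := wd_mem d (d⁻¹ v)
    simpa [mul_comm] using this
  · rintro _ ⟨v, rfl⟩
    have := wd_mem d⁻¹ (d v)
    simpa [mul_comm] using this

/-- uniqueness of the inverted subgroup of order 3 inside a 3-group -/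
theorem uniq {e : MulAut V} {X : Subgroup (MulAut V)} (hX : IsPGrp 3 X) (h : Bl a d r) (h' : Bl a e r)
    (hd : d ∈ X) (he : e ∈ X) : e = d ∨ e = d⁻¹ := by
  have odX : ∀ x ∈ X, Odd (orderOf x) := fun x hx => by
    obtain ⟨k, hk⟩ := (pElt_iff Nat.prime_three).1 (hX.piElt hx)
    exact Odd.of_dvd_nat (Odd.pow (by decide)) (orderOf_dvd_of_pow_eq_one hk)
  have key : ∀ {d : MulAut V}, Bl a d r → d ∈ X → e r = d r → e = d := by
    intro d h hd hr
    refine h'.eq_of_W h (h'.W_eq h h'.r_mem (hr ▸ h'.s_mem)) hr ?_ (odX _ (mul_mem (inv_mem hd) he))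
    rw [← hr, h'.dd, hr, h.dd]
  by_cases c1 : e r = d r
  · exact Or.inl (key h hd c1)
  by_cases c2 : e r = r * d r
  · exact Or.inr (key h.symm (inv_mem hd) (by rw [h.inv_r, c2]))
  exfalso
  set Y : Subgroup (MulAut V) := closure {d, e} with hY
  have YX : Y ≤ X := by rw [hY, closure_le]; rintro x (rfl | rfl) <;> assumption
  have dY : d ∈ Y := subset_closure (by simp)
  have eY : e ∈ Y := subset_closure (by simp)
  have hZ := center_nil_ne_bot (IsPGrp.nil (p := 3) (hX.of_le YX)) (ne_bot_of_mem dY h.ne)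
  obtain ⟨z, ⟨zY, zc⟩, z1⟩ := exists_mem_ne_one hZ
  have zo := odX z (YX zY)
  have zd : z * d = d * z := (zc d dY).symm
  have ze : z * e = e * z := (zc e eY).symm
  have zr : z r = r := by
    have m1 := wd_comm zd h.r_mem
    have m2 := wd_comm ze h'.r_mem
    rcases h.W _ m1 with e1 | e1 | e1 | e1
    · exact absurd ((map_eq_one_iff z z.injective).1 e1) h.tv.ne
    · exact e1
    all_goals
      rcases h'.W _ m2 with e2 | e2 | e2 | e2
      · exact absurd ((map_eq_one_iff z z.injective).1 e2) h.tv.ne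
      · exact e2
      · first | exact absurd (e2.symm.trans e1) c1 | exact absurd (e2.symm.trans e1) c2
      · first
        | exact absurd (mul_left_cancel (e2.symm.trans e1)) c1
        | (refine absurd ?_ c2; rw [← e1, e2]; ac2)
  have zs : ∀ {d : MulAut V}, z * d = d * z → z (d r) = d r := by
    intro d zd
    have := congrArg (fun k : MulAut V => k r) zd
    simp only [MulAut.mul_apply] at this
    rw [this, zr]
  have zW : ∀ {d : MulAut V}, Bl a d r → z * d = d * z → ∀ w ∈ Wd d, z w = w := by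
    intro d h zd w hw
    rcases h.W _ hw with e1 | e1 | e1 | e1 <;> rw [e1]
    · simp
    · exact zr
    · exact zs zd
    · rw [map_mul, zr, zs zd]
  have hU : ∀ y ∈ Y, ∀ v, z (v * y v) = v * y v := by
    intro y hy
    induction hy using closure_induction with
    | mem x hx =>
      rcases hx with rfl | rfl
      · exact fun v => zW h zd _ (wd_mem _ v)
      · exact fun v => zW h' ze _ (wd_mem _ v)
    | one => intro v; simp [e2a]
    | mul x y _ _ hx hy =>
      intro v
      have : v * (x * y) v = (v * y v) * (y v * x (y v)) := by rw [MulAut.mul_apply]; ac2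
      rw [this, map_mul, hx, hy]
    | inv x _ hx =>
      intro v
      have := hx (x⁻¹ v)
      simpa [mul_comm] using this
  exact z1 (odd_triv zo (hU z zY))

/-- commuting blocks -/
theorem eq_of_moves {a' e : MulAut V} {r' : V} (h : Bl a d r) (h' : Bl a' e r') (hc : d * e = e * d)
    (hr : d r' ≠ r') : d = e ∨ d = e⁻¹ := by
  have key : ∀ {e : MulAut V}, Bl a' e r' → d * e = e * d → d r' = e r' → d = e := by
    intro e h' hc hr
    have cm : ∀ v, d (e v) = e (d v) := fun v => by
      have := congrArg (fun k : MulAut V => k v) hc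
      simpa using this
    have m1 : r' * e r' ∈ Wd d := hr ▸ wd_mem d r'
    have m2 : r' ∈ Wd d := by
      have := wd_comm hc.symm m1
      rw [map_mul, h'.dd] at this
      convert this using 1; ac2
    refine h.eq_of_W h' (h.W_eq h' m2 (wd_comm hc.symm m2)) hr (by rw [cm, hr]) (ord3 ?_)
    rw [Commute.mul_pow (Commute.inv_left (Commute.symm hc)), inv_pow, h.d3, h'.d3]; simp
  rcases h'.W _ (wd_comm hc h'.r_mem) with e1 | e1 | e1 | e1
  · exact absurd ((map_eq_one_iff d d.injective).1 e1) h'.tv.ne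
  · exact absurd e1 hr
  · exact Or.inl (key h' hc e1)
  · exact Or.inr (key h'.symm (Commute.inv_right hc).eq (by rw [e1, h'.inv_r]))

end Bl

variable [Finite V]

structure Hy (H : Subgroup (MulAut V)) : Prop where
  sol : Group.IsSolvable H
  o2 : pCoreOf 2 H = ⊥

namespace Hy
variable {H : Subgroup (MulAut V)} {a d a' e : MulAut V} {r r' : V}

theorem odd_of_mem (hH : Hy H) {x : MulAut V} (hx : x ∈ fittingOf H) : Odd (orderOf x) := by
  by_contra hn
  rw [Nat.not_odd_iff_even] at hn
  obtain ⟨y, hy, ho⟩ := exists_mem_zpowers_orderOf_eq Nat.prime_two hn.two_dvd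
  have h1 : zpowers y ≤ pCoreOf 2 H :=
    le_pcore_of_le_fitting (zpowers_le.2 (zpowers_le.2 hx hy))
      (pGrp_of_card_eq Nat.prime_two (by rw [Nat.card_zpowers, ho]))
  rw [hH.o2, le_bot_iff, zpowers_eq_bot] at h1
  rw [h1, orderOf_one] at ho
  exact absurd ho (by decide)

theorem odd_card (hH : Hy H) : Odd (Nat.card (fittingOf H)) := by
  by_contra hn
  rw [Nat.not_odd_iff_even] at hn
  obtain ⟨y, hy, ho⟩ := exists_mem_orderOf_eq Nat.prime_two hn.two_dvd
  have := hH.odd_of_mem hy
  rw [ho] at this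
  exact absurd this (by decide)

theorem mem3 (hH : Hy H) {x : MulAut V} (hx : x ∈ fittingOf H) (h3 : x ^ 3 = 1) : x ∈ pCoreOf 3 H :=
  le_pcore_of_le_fitting (zpowers_le.2 hx) (piGrp_zpowers_iff.2 (pElt_of_pow_eq_one Nat.prime_three h3))
    (mem_zpowers x)

/-- commutators with the Fitting subgroup -/
theorem bl_comm (hH : Hy H) (h : Tv a r) (ha : a ∈ H) {x : MulAut V} (hx : x ∈ fittingOf H) :
    a * x * a * x⁻¹ = 1 ∨ (Bl a (a * x * a * x⁻¹) r ∧ a * x * a * x⁻¹ ∈ pCoreOf 3 H) := by
  by_cases h1 : a * x * a * x⁻¹ = 1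
  · exact Or.inl h1
  right
  have hm : a * x * a * x⁻¹ ∈ fittingOf H := by
    refine mul_mem ?_ (inv_mem hx)
    have := conj_mem_of_le_norm (fitting_norm H) ha hx
    rwa [h.inv] at this
  have hb : Bl a (a * x * a * x⁻¹) r := by
    refine h.bl ?_ (hH.odd_of_mem hm) h1
    calc _ = (a * a) * x * a * x⁻¹ * a := by group
      _ = _ := by rw [h.sq]; simp only [mul_inv_rev, h.inv, inv_inv]; group
  exact ⟨hb, hH.mem3 hm hb.d3⟩

theorem exists_bl (hH : Hy H) (h : Tv a r) (ha : a ∈ H) : ∃ d ∈ pCoreOf 3 H, Bl a d r := by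
  by_contra hn
  have hc : a ∈ fittingOf H := by
    refine cent_sub_Fitting hH.sol ⟨ha, fun x hx => ?_⟩
    rcases hH.bl_comm h ha hx with e | e
    · have : a * x * a = x := mul_inv_eq_one.1 e
      calc x * a = a * x * a * a := by rw [this]
        _ = a * x := by rw [mul_assoc, h.sq, mul_one]
    · exact absurd ⟨_, e.2, e.1⟩ hn
  exact h.ane (odd_sq (hH.odd_of_mem hc) h.sq)

theorem bl_mem (hH : Hy H) (h : Bl a d r) (ha : a ∈ H) (hd : d ∈ H) : d ∈ pCoreOf 3 H := by
  obtain ⟨e, he, h'⟩ := hH.exists_bl h.tv ha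
  have hX : IsPGrp 3 (zpowers d ⊔ pCoreOf 3 H : Subgroup (MulAut V)) :=
    IsPiGrp.sup (piGrp_zpowers_iff.2 (pElt_of_pow_eq_one Nat.prime_three h.d3)) (pcore_pGrp 3 H)
      (Or.inl ((zpowers_le.2 hd).trans (pcore_norm _ H)))
  rcases h'.uniq hX h (mem_sup_right he) (mem_sup_left (mem_zpowers d)) with e1 | e1 <;> rw [e1]
  exacts [he, inv_mem he]

theorem bl_uniq (hH : Hy H) (h : Bl a d r) (h' : Bl a e r) (ha : a ∈ H) (hd : d ∈ H) (he : e ∈ H) :
    e = d ∨ e = d⁻¹ :=
  h.uniq (pcore_pGrp 3 H) h' (hH.bl_mem h ha hd) (hH.bl_mem h' ha he)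

theorem cent3 (hH : Hy H) (h : Bl a d r) (ha : a ∈ H) (hd : d ∈ H) {f : MulAut V} (hf : f ∈ pCoreOf 3 H) :
    f * d = d * f := by
  have fF := pcore_le_fitting 3 H hf
  have fH := pcore_le _ H hf
  have hc := h.conj f
  have hi : (f * a * f⁻¹) * d * (f * a * f⁻¹) = d⁻¹ := by
    have e0 : f * a * f⁻¹ = a * (a * f * a * f⁻¹) := by
      calc _ = (a * a) * f * a * f⁻¹ := by rw [h.tv.sq]; group
        _ = _ := by group
    have e1 : ∀ g, g * d = d * g → a * g * a = g⁻¹ → a * g * d * (a * g) = d⁻¹ := by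
      intro g h1 h2
      calc a * g * d * (a * g) = a * (g * d) * (a * g) := by group
        _ = (a * d * a) * (a * g * a) * g := by
          rw [h1]
          calc _ = a * d * (a * a) * g * a * g := by rw [h.tv.sq]; group
            _ = _ := by group
        _ = _ := by rw [h.inv, h2]; group
    rw [e0]
    rcases hH.bl_comm h.tv ha fF with e | ⟨e, e'⟩
    · rw [e, mul_one, h.inv]
    · refine e1 _ ?_ e.inv
      rcases hH.bl_uniq h e ha hd (pcore_le _ H e') with e2 | e2 <;> rw [e2]
      group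
  have hb : Bl (f * a * f⁻¹) d (f r) := hc.tv.bl hi h.odd h.ne
  have cH : ∀ {x}, x ∈ H → f * x * f⁻¹ ∈ H := fun hx => mul_mem (mul_mem fH hx) (inv_mem fH)
  rcases hH.bl_uniq hb hc (cH ha) hd (cH hd) with e | e
  · exact mul_inv_eq_iff_eq_mul.1 e
  · obtain ⟨k, hk⟩ := hH.odd_of_mem fF
    have c2 : Commute (f * f) d := by
      have : f * f * d * (f * f)⁻¹ = d := by
        calc _ = f * (f * d * f⁻¹) * f⁻¹ := by group
          _ = (f * d * f⁻¹)⁻¹ := by
            conv_lhs => rw [e]
            group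
          _ = d := by rw [e, inv_inv]
      exact mul_inv_eq_iff_eq_mul.1 this
    have : f = (f * f) ^ (k + 1) := by
      rw [← pow_two, ← pow_mul, show 2 * (k + 1) = (2 * k + 1) + 1 by ring, ← hk, pow_succ, pow_orderOf_eq_one,
        one_mul]
    rw [this]
    exact (c2.pow_left _).eq

theorem bl_commute (hH : Hy H) (h : Bl a d r) (h' : Bl a' e r') (ha : a ∈ H) (hd : d ∈ H) (ha' : a' ∈ H)
    (he : e ∈ H) : d * e = e * d :=
  hH.cent3 h' ha' he (hH.bl_mem h ha hd)

/-- different blocks -/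
theorem comm_of_ne (hH : Hy H) (h : Bl a d r) (h' : Bl a' e r') (ha : a ∈ H) (hd : d ∈ H) (ha' : a' ∈ H)
    (he : e ∈ H) (h1 : d ≠ e) (h2 : d ≠ e⁻¹) : a' * d = d * a' := by
  have key : ∀ {e : MulAut V}, Bl a' e r' → e ∈ H → d ≠ e → d ≠ e⁻¹ → a' * d * a' * d⁻¹ ≠ e := by
    intro e h' he h1 h2 e1
    have hc := hH.bl_commute h h' ha hd ha' he
    have dr : d r' = r' := by
      by_contra hn
      rcases h.eq_of_moves h' hc hn with e2 | e2
      exacts [h1 e2, h2 e2]
    have := congrArg (fun k : MulAut V => k r') (mul_inv_eq_iff_eq_mul.1 e1)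
    simp only [MulAut.mul_apply] at this
    rw [h'.tv.fix, dr, h'.tv.fix] at this
    exact h'.dr this.symm
  rcases hH.bl_comm h'.tv ha' (pcore_le_fitting 3 H (hH.bl_mem h ha hd)) with e1 | ⟨e1, e2⟩
  · have : a' * d * a' = d := mul_inv_eq_one.1 e1
    calc a' * d = a' * d * (a' * a') := by rw [h'.tv.sq, mul_one]
      _ = _ := by rw [← mul_assoc, this]
  · exfalso
    rcases hH.bl_uniq h' e1 ha' he (pcore_le _ H e2) with e3 | e3
    · exact key h' he h1 h2 e3
    · exact key h'.symm (inv_mem he) h2 (by rwa [inv_inv]) e3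

theorem eq_of_r (hH : Hy H) (h : Bl a d r) (h' : Bl a' e r) (ha : a ∈ H) (hd : d ∈ H) (ha' : a' ∈ H)
    (he : e ∈ H) : d = e ∨ d = e⁻¹ :=
  h.eq_of_moves h' (hH.bl_commute h h' ha hd ha' he) h.dr

/-- every transvection normalises every block -/
theorem tv_norm (hH : Hy H) (h : Bl a d r) (h' : Tv a' r') (ha : a ∈ H) (hd : d ∈ H) (ha' : a' ∈ H) :
    a' * d * a'⁻¹ = d ∨ a' * d * a'⁻¹ = d⁻¹ := by
  obtain ⟨e, he, hb⟩ := hH.exists_bl h' ha'
  by_cases h1 : d = e
  · right; rw [h'.inv, h1, hb.inv]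
  by_cases h2 : d = e⁻¹
  · right; rw [h'.inv, h2, hb.symm.inv]
  left
  exact mul_inv_eq_iff_eq_mul.2 (hH.comm_of_ne h hb ha hd ha' (pcore_le _ H he) h1 h2)

end Hy

/-- fixed points -/
def Fx (B : Subgroup (MulAut V)) : Subgroup V where
  carrier := {v | ∀ b ∈ B, b v = v}
  one_mem' := fun b _ => map_one b
  mul_mem' := fun {v w} hv hw b hb => by rw [map_mul, hv b hb, hw b hb]
  inv_mem' := fun {v} hv b hb => by rw [map_inv, hv b hb]

theorem fx_anti {A B : Subgroup (MulAut V)} (h : B ≤ A) : Fx A ≤ Fx B := fun v hv b hb => hv b (h hb)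

theorem exists_fix {B : Subgroup (MulAut V)} (hB : IsPGrp 2 B) {W : Subgroup V} (hW : W ≠ ⊥)
    (hn : ∀ b ∈ B, ∀ w ∈ W, b w ∈ W) : ∃ w ∈ W, w ≠ 1 ∧ w ∈ Fx B := by
  classical
  letI : MulAction B W :=
    { smul := fun b w => ⟨(b : MulAut V) w, hn b b.2 w w.2⟩
      one_smul := fun w => Subtype.ext rfl
      mul_smul := fun a b w => Subtype.ext rfl }
  haveI : Fact (Nat.Prime 2) := ⟨Nat.prime_two⟩
  have hp := hB.isPGroup Nat.prime_two
  have h2 : 2 ∣ Nat.card W :=
    IsPGrp.dvd_card (pGrp_of_forall_pow (k := 1) Nat.prime_two fun x _ => by rw [pow_one, pow_two, e2a]) hW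
  have h1 : (1 : W) ∈ MulAction.fixedPoints B W := fun b => Subtype.ext (map_one (b : MulAut V))
  obtain ⟨w, hw, hne⟩ := hp.exists_fixed_point_of_prime_dvd_card_of_fixed_point W h2 h1
  exact ⟨w, w.2, fun e => hne (Subtype.ext e.symm), fun b hb => congrArg Subtype.val (hw ⟨b, hb⟩)⟩

theorem Hy.hyper {H A : Subgroup (MulAut V)} (hH : Hy H) (hA : A ≤ H) (hE : IsElementaryAbelian 2 A) (h0 : A ≠ ⊥) :
    ∃ B ≤ A, B.relIndex A = 2 ∧ ¬ Fx B ≤ Fx A := by
  have pA := abelem_pGrp Nat.prime_two hE
  have sq : ∀ a ∈ A, a * a = 1 := fun a ha => by rw [← pow_two]; exact hE.2 a ha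
  have cA := abelian_iff_forall.1 hE.1
  by_contra hn
  push Not at hn
  have h1 : fittingOf H ≤ 𝒞(A) := by
    refine coprime_abelem_gen_cent_le Nat.prime_two hE h0 (hA.trans (fitting_norm H))
      (pA.coprime_of_not_dvd (n := Nat.card (fittingOf H)) (by
        rw [← even_iff_two_dvd, Nat.not_even_iff_odd]; exact hH.odd_card)).symm fun B hB iB => ?_
    rintro x ⟨xF, xB⟩ a ha
    by_contra hne
    have hm : a * x * a * x⁻¹ ∈ fittingOf H := by
      refine mul_mem ?_ (inv_mem xF)
      have := conj_mem_of_le_norm (fitting_norm H) (hA ha) xF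
      rwa [inv_eq_of_mul_eq_one_right (sq a ha)] at this
    set d := a * x * a * x⁻¹ with hd
    have d1 : d ≠ 1 := fun e => hne (by
      have : a * x * a = x := mul_inv_eq_one.1 e
      calc a * x = a * x * (a * a) := by rw [sq a ha, mul_one]
        _ = _ := by rw [← mul_assoc, this])
    have cb : ∀ b ∈ B, b * d = d * b := fun b hb => by
      have c1 : Commute b a := cA b (hB hb) a ha
      have c2 : Commute b x := xB b hb
      exact (((c1.mul_right c2).mul_right c1).mul_right c2.inv_right).eq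
    have hW : Wd d ≠ ⊥ := fun e => d1 (by
      ext v
      have := wd_mem d v
      rw [e, mem_bot] at this
      exact (e2eq this).symm)
    obtain ⟨w, wW, w1, wB⟩ := exists_fix (pA.of_le hB) hW fun b hb w hw => wd_comm (cb b hb) hw
    refine w1 (wd_fix (hH.odd_of_mem hm) wW ?_)
    have m1 : x⁻¹ w ∈ Fx B := fun b hb => by
      have c2 : Commute b x := xB b hb
      have := congrArg (fun k : MulAut V => k w) c2.inv_right.eq
      simp only [MulAut.mul_apply] at this
      rw [this, wB b hb]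
    simp only [hd, MulAut.mul_apply]
    rw [hn B hB iB m1 a ha, MulAut.apply_inv_self, hn B hB iB wB a ha]
  obtain ⟨a, ha, a1⟩ := exists_mem_ne_one h0
  have : a ∈ fittingOf H := cent_sub_Fitting hH.sol ⟨hA ha, le_cent_symm h1 ha⟩
  exact a1 (odd_sq (hH.odd_of_mem this) (sq a ha))

/-- best offenders are generated by transvections -/
theorem Hy.ff {H : Subgroup (MulAut V)} (hH : Hy H) (n : ℕ) : ∀ A : Subgroup (MulAut V), Nat.card A = n → A ≤ H →
    IsElementaryAbelian 2 A → (∀ B ≤ A, Nat.card (Fx B) * Nat.card B ≤ Nat.card (Fx A) * Nat.card A) →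
    A ≤ closure {a | a ∈ A ∧ ∃ r, Tv a r} := by
  classical
  induction n using Nat.strong_induction_on with
  | _ n ih =>
  intro A hn hA hE hBO
  by_cases h0 : A = ⊥
  · rw [h0]; exact bot_le
  have sq : ∀ a ∈ A, a * a = 1 := fun a ha => by rw [← pow_two]; exact hE.2 a ha
  have cA := abelian_iff_forall.1 hE.1
  obtain ⟨B, hB, iB, hF⟩ := hH.hyper hA hE h0
  have c1 := card_mul_relIndex hB
  rw [iB] at c1
  have c2 := card_mul_relIndex (fx_anti hB)
  have iF : (Fx A).relIndex (Fx B) = 2 := by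
    have h1 : (Fx A).relIndex (Fx B) ≠ 1 := fun e => hF (relIndex_eq_one.1 e)
    have h2 := relIndex_pos (Fx A) (Fx B)
    have h3 := hBO B hB
    rw [← c1, ← c2] at h3
    have p1 : 0 < Nat.card (Fx A) := Nat.card_pos
    have p2 : 0 < Nat.card B := Nat.card_pos
    have : (Fx A).relIndex (Fx B) ≤ 2 := by
      by_contra hh
      push Not at hh
      have := Nat.mul_pos p1 p2
      nlinarith
    omega
  rw [iF] at c2
  have hBc : B ≤ closure {a | a ∈ B ∧ ∃ r, Tv a r} := by
    refine ih (Nat.card B) (by have : 0 < Nat.card B := Nat.card_pos; omega) B rfl (hB.trans hA)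
      ⟨abelian_of_le hE.1 hB, fun a ha => hE.2 a (hB ha)⟩ fun B' hB' => ?_
    have := hBO B' (hB'.trans hB)
    rw [← c1] at this
    rw [← c2]; nlinarith
  set D : Set (MulAut V) := {d | d ∈ H ∧ ∃ b ∈ B, ∃ r, Bl b d r} with hD
  obtain ⟨a0, a0A, a0B⟩ := idx_ex (K := B) (H := A) (by rw [iB]; decide)
  obtain ⟨a, ⟨aA, aB⟩, amin⟩ := Set.exists_min_image {a | a ∈ A ∧ a ∉ B}
    (fun a => {d | d ∈ D ∧ a * d ≠ d * a}.ncard) (Set.toFinite _) ⟨a0, a0A, a0B⟩
  have acomm : ∀ d ∈ D, a * d = d * a := by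
    intro d hd
    by_contra hne
    obtain ⟨dH, b, bB, r, hb⟩ := id hd
    have cab : a * b * a⁻¹ = b := mul_inv_eq_iff_eq_mul.2 (cA a aA b (hB bB))
    have hb' := hb.conj a
    rw [cab] at hb'
    rw [hb'.tv.uniq hb.tv] at hb'
    have aH := hA aA
    have bH := hA (hB bB)
    have e1 : a * d * a⁻¹ = d⁻¹ :=
      (hH.bl_uniq hb hb' bH dH (mul_mem (mul_mem aH dH) (inv_mem aH))).resolve_left
        fun e => hne (mul_inv_eq_iff_eq_mul.1 e)
    have e2 : a * b * d = d * (a * b) := by
      calc a * b * d = a * (b * d * b) * b := by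
            conv_lhs => rw [← mul_one (a * b * d), ← hb.tv.sq]
            group
        _ = (a * d * a⁻¹)⁻¹ * (a * b) := by rw [hb.inv]; group
        _ = _ := by rw [e1, inv_inv]
    have := amin (a * b) ⟨mul_mem aA (hB bB), fun h => aB (by simpa using mul_mem h (inv_mem bB))⟩
    refine absurd this (not_le.2 (Set.ncard_lt_ncard ⟨?_, fun h => (h ⟨hd, hne⟩).2 e2⟩))
    rintro e ⟨eD, he⟩
    refine ⟨eD, fun hc => he ?_⟩
    obtain ⟨eH, b', b'B, r', hb''⟩ := id eD
    have cb : b * e = e * b := by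
      refine hH.comm_of_ne hb'' hb (hA (hB b'B)) eH bH dH (fun e3 => hne (e3 ▸ hc)) fun e3 => hne ?_
      rw [e3] at hc
      exact (Commute.inv_right_iff.1 hc).eq
    exact (Commute.mul_left hc cb).eq
  have hdec : ∀ v, ∀ s : Finset (MulAut V), (∀ d ∈ s, d ∈ D) → ∃ u, (∀ d ∈ s, d u = u) ∧ a (v * u) = v * u := by
    intro v s
    induction s using Finset.induction_on with
    | empty => intro _; exact ⟨v, by simp, by simp [e2a]⟩
    | insert d s _ ih =>
      intro hs
      obtain ⟨u, hu, au⟩ := ih fun e he => hs e (Finset.mem_insert_of_mem he)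
      have dD := hs d (Finset.mem_insert_self _ _)
      obtain ⟨dH, b, bB, r, hb⟩ := id dD
      refine ⟨u * (d u * d (d u)), fun e he => ?_, ?_⟩
      · rcases Finset.mem_insert.1 he with rfl | he'
        · exact hb.fixc u
        · obtain ⟨eH, b', b'B, r', hb'⟩ := hs e he
          have hc := hH.bl_commute hb' hb (hA (hB b'B)) eH (hA (hB bB)) dH
          have cm : ∀ v, e (d v) = d (e v) := fun v => by
            have := congrArg (fun k : MulAut V => k v) hc
            simpa using this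
          rw [map_mul, map_mul, cm, cm, cm, hu e he']
      · rw [← mul_assoc, map_mul, au,
          hb.fix_of_comm (k := 1) (by rw [pow_one, pow_two, sq a aA]) (acomm d dD) (wd_mem d (d u))]
  obtain ⟨x, xB, xA⟩ := idx_ex (K := Fx A) (H := Fx B) (by rw [iF]; decide)
  obtain ⟨r, hr⟩ : ∃ r, Tv a r := by
    refine tv_of_idx (sq a aA) (fun e => aB (e ▸ one_mem B)) x fun v => ?_
    obtain ⟨u, hu, au⟩ := hdec v (Set.toFinite D).toFinset (by simp)
    have uB : u ∈ Fx B := by
      intro b hb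
      have := hBc hb
      clear hb
      induction this using closure_induction with
      | mem b hb' =>
        obtain ⟨bB, r, hr⟩ := hb'
        obtain ⟨d, hd, hbl⟩ := hH.exists_bl hr (hA (hB bB))
        exact hbl.fix_of_fix (hu d (by simp only [Set.Finite.mem_toFinset]; exact ⟨pcore_le _ H hd, b, bB, r, hbl⟩))
      | one => rfl
      | mul x y hx hy ix iy => rw [MulAut.mul_apply, iy, ix]
      | inv x hx ix =>
        conv_lhs => rw [← ix]
        simp
    by_cases uA : u ∈ Fx A
    · left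
      have : v = v * u * u := by ac2
      rw [this, map_mul, au, uA a aA]
    · right
      have : v * x = v * u * (u * x) := by ac2
      rw [this, map_mul, au, idx2_mul iF uB xB uA xA a aA]
  have hm : closure {a | a ∈ B ∧ ∃ r, Tv a r} ≤ closure {a | a ∈ A ∧ ∃ r, Tv a r} :=
    closure_mono fun a ha => ⟨hB ha.1, ha.2⟩
  intro y hy
  by_cases yB : y ∈ B
  · exact hm (hBc yB)
  · have h1 := hm (hBc (idx2_mul iB hy aA yB aB))
    have h2 : a ∈ closure {a | a ∈ A ∧ ∃ r, Tv a r} := subset_closure ⟨aA, r, hr⟩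
    simpa using mul_mem h1 (inv_mem h2)

end CA.Amg

theorem CA.realizeEqns_Amg_Tv : True := by
  have := @CA.Amg.tacticAc2.eq_1
  have := @CA.Amg.tacticAc2.eq_def
  have := @CA.Amg.tacticAc2.congr_simp
  have := @CA.Amg.Fx.eq_1.{0}
  have := @CA.Amg.Fx.eq_def.{0}
  have := @CA.Amg.Fx.congr_simp.{0}
  have := @CA.Amg.Wd.eq_1.{0}
  have := @CA.Amg.Wd.eq_def.{0}
  have := @CA.Amg.Wd.congr_simp.{0}
  trivial
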